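import Cfsg.Statements.S4424
import Cfsg.Agent.Lib.Block.Heights

set_option autoImplicit false
open Cfsg

namespace Cfsg.Agent.S4424

open CT BT
open scoped MonoidAlgebra ComplexConjugate

/-- Let χ be an irreducible character of the finite group G lying in the p-block B (relative to a maximal ideal M of the algebraic integers containing p), and let p^a be the p-part of the order of G. Then the class function that equals p^a · χ on the p-regular elements and vanishes on the p-singular elements is an integer combination of the irreducible characters in B: there are integers a_ψ, zero for ψ outside B, with that function equal to Σ a_ψ ψ. -/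
theorem result {G : Type*} [Group G] [Finite G] (p : ℕ) [Fact p.Prime] (M : Ideal Cfsg.AlgInt) (hM : Cfsg.IsPModular p M) (B : Set (Cfsg.IrrCharacter G)) (hB : Cfsg.IsPBlock M B) (χ : Cfsg.IrrCharacter G) (hχ : χ ∈ B) : ∃ a : Cfsg.IrrCharacter G → ℤ, (∀ ψ, ψ ∉ B → a ψ = 0) ∧ (fun x : G => if p ∣ orderOf x then (0 : ℂ) else ((p ^ (Nat.card G).factorization p : ℕ) : ℂ) * (χ : G → ℂ) x) = fun x => ∑ᶠ ψ : Cfsg.IrrCharacter G, (a ψ : ℂ) * (ψ : G → ℂ) x := by
  refine ⟨fun ψ => p ^ ((Nat.card G).factorization p - blockDefect p B) * cm p B χ.1 ψ.1,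
    fun ψ hψ => by simp only [cm_eq_zero_of_not_mem hM hB hχ hψ, mul_zero], ?_⟩
  ext x
  have h := congrFun (pow_smul_pRegularPart_eq_sum hM hB hχ) x
  rw [sum_bset_eq_sum_univ _ (fun ψ hψ => by simp [cm_eq_zero_of_not_mem hM hB hχ hψ]),
    Finset.sum_apply] at h
  simp only [Pi.smul_apply, smul_eq_mul] at h
  rw [finsum_eq_sum_of_fintype]
  push_cast
  simp only [mul_assoc]
  rw [← Finset.mul_sum, ← h, ← mul_assoc, ← pow_add, Nat.sub_add_cancel (blockDefect_le B),
    pRegularPart_apply]
  split_ifs <;> simp

end Cfsg.Agent.S4424
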