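import Cfsg.Statements.S4425
import Cfsg.Agent.Lib.Char.BrauerApp

set_option autoImplicit false
open Cfsg

namespace Cfsg.Agent.S4425

/-- Let χ be an irreducible character of the finite group G, p a prime, p^a the p-part of the order of G and p^b the p-part of the degree χ(1). Let χ̃ be the class function equal to p^a · χ on p-regular elements and zero on p-singular elements. Then p^(−b) · χ̃ is a generalized character of G, while p^(−(b+1)) · χ̃ is not. -/
theorem result {G : Type*} [Group G] [Finite G] (p : ℕ) [Fact p.Prime] (χ : Cfsg.IrrCharacter G) : Cfsg.IsGeneralizedCharacter G (fun x : G => if p ∣ orderOf x then (0 : ℂ) else ((p ^ ((Nat.card G).factorization p - (Cfsg.charDegree (χ : G → ℂ)).factorization p) : ℕ) : ℂ) * (χ : G → ℂ) x) ∧ ¬ Cfsg.IsGeneralizedCharacter G (fun x : G => if p ∣ orderOf x then (0 : ℂ) else ((p ^ (Nat.card G).factorization p : ℕ) : ℂ) / ((p ^ ((Cfsg.charDegree (χ : G → ℂ)).factorization p + 1) : ℕ) : ℂ) * (χ : G → ℂ) x) := by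
  have hp : p.Prime := Fact.out
  constructor
  · convert CT.isGen_pRegularPart_irr hp χ using 1
    ext x
    rw [Pi.smul_apply, CT.pRegularPart_apply]
    split_ifs <;> simp
  · intro h
    obtain ⟨k, hk⟩ := h.pPart_dvd_of_vanish hp fun x h1 hx => if_pos (GT.IsPElt.dvd_orderOf hx h1)
    have h1 : ¬ p ∣ orderOf (1 : G) := by simpa using hp.one_lt.ne'
    simp only [if_neg h1] at hk
    have h2 : ((p ^ (Nat.card G).factorization p : ℕ) : ℂ) ≠ 0 :=
      Nat.cast_ne_zero.2 (pow_ne_zero _ hp.ne_zero)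
    have h3 : ((p ^ ((Cfsg.charDegree (χ : G → ℂ)).factorization p + 1) : ℕ) : ℂ) ≠ 0 :=
      Nat.cast_ne_zero.2 (pow_ne_zero _ hp.ne_zero)
    rw [CT.irr_apply_one, div_mul_eq_mul_div, div_eq_iff h3, mul_assoc, mul_right_inj' h2] at hk
    have h4 : (Cfsg.charDegree (χ : G → ℂ) : ℤ) =
        (p ^ ((Cfsg.charDegree (χ : G → ℂ)).factorization p + 1) : ℕ) * k := by
      rw [mul_comm]; exact_mod_cast hk
    exact Nat.pow_succ_factorization_not_dvd (CT.irr_degree_pos χ).ne' hp
      (Int.natCast_dvd_natCast.1 ⟨k, h4⟩)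

end Cfsg.Agent.S4425
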