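import Cfsg.Statements.S4426
import Cfsg.Agent.Lib.Block.Heights

set_option autoImplicit false
open Cfsg

namespace Cfsg.Agent.S4426

open CT BT
open scoped MonoidAlgebra ComplexConjugate

/-- Let χ be an irreducible character in the p-block B of the finite group G (relative to a maximal ideal M of the algebraic integers containing p), let p^a be the p-part of the order of G, and let χ̃ be the class function equal to p^a · χ on p-regular elements and zero elsewhere. For ξ ∈ B the inner product [χ̃, ξ] is an integer. The following are equivalent: (a) χ has height zero in B; (b) for some ξ ∈ B the integer [χ̃, ξ] is nonzero and the exact power of p dividing it equals the exact power of p dividing ξ(1); (c) the same holds for every ξ ∈ B. -/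
theorem result {G : Type*} [Group G] [Fintype G] (p : ℕ) [Fact p.Prime] (M : Ideal Cfsg.AlgInt) (hM : Cfsg.IsPModular p M) (B : Set (Cfsg.IrrCharacter G)) (hB : Cfsg.IsPBlock M B) (χ : Cfsg.IrrCharacter G) (hχ : χ ∈ B) : (Cfsg.blockHeight p B (χ : G → ℂ) = 0 ↔ ∃ ξ ∈ B, ∃ n : ℤ, Cfsg.classInner (fun x : G => if p ∣ orderOf x then (0 : ℂ) else ((p ^ (Nat.card G).factorization p : ℕ) : ℂ) * (χ : G → ℂ) x) (ξ : G → ℂ) = (n : ℂ) ∧ n ≠ 0 ∧ padicValInt p n = (Cfsg.charDegree (ξ : G → ℂ)).factorization p) ∧ (Cfsg.blockHeight p B (χ : G → ℂ) = 0 ↔ ∀ ξ ∈ B, ∃ n : ℤ, Cfsg.classInner (fun x : G => if p ∣ orderOf x then (0 : ℂ) else ((p ^ (Nat.card G).factorization p : ℕ) : ℂ) * (χ : G → ℂ) x) (ξ : G → ℂ) = (n : ℂ) ∧ n ≠ 0 ∧ padicValInt p n = (Cfsg.charDegree (ξ : G → ℂ)).factorization p) := by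
  have hp : p.Prime := Fact.out
  have key : ∀ ξ ∈ B, (∃ n : ℤ, Cfsg.classInner (fun x : G => if p ∣ orderOf x then (0 : ℂ) else ((p ^ (Nat.card G).factorization p : ℕ) : ℂ) * (χ : G → ℂ) x) (ξ : G → ℂ) = (n : ℂ) ∧ n ≠ 0 ∧ padicValInt p n = (Cfsg.charDegree (ξ : G → ℂ)).factorization p) ↔ blockHeight p B χ.1 = 0 := by
    intro ξ hξ
    have h1 : Cfsg.classInner (fun x : G => if p ∣ orderOf x then (0 : ℂ) else ((p ^ (Nat.card G).factorization p : ℕ) : ℂ) * (χ : G → ℂ) x) (ξ : G → ℂ) = ((p ^ ((Nat.card G).factorization p - blockDefect p B) * cm p B χ.1 ξ.1 : ℤ) : ℂ) := by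
      push_cast
      rw [cm_cast_irr hχ, ← mul_assoc, ← pow_add, Nat.sub_add_cancel (blockDefect_le B),
        ← ip_smul_left, classInner_eq_ip]
      congr 1
      ext x
      rw [Pi.smul_apply, pRegularPart_apply]
      split_ifs <;> simp
    have h2 := factorization_degree_add_defect (p := p) hξ
    have h3 := blockDefect_le (p := p) B
    have h4 := pow_succ_dvd_cm_iff hM hB hχ hξ
    have h5 := pow_height_dvd_cm_right (p := p) (irr_isCharacter χ).isGen hξ
    have hp0 : (p : ℤ) ^ ((Nat.card G).factorization p - blockDefect p B) ≠ 0 :=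
      pow_ne_zero _ (by exact_mod_cast hp.ne_zero)
    have h6 : padicValInt p ((p : ℤ) ^ ((Nat.card G).factorization p - blockDefect p B)) =
        (Nat.card G).factorization p - blockDefect p B := by
      rw [← Nat.cast_pow, padicValInt.of_nat, padicValNat.prime_pow]
    rw [h1]
    constructor
    · rintro ⟨n, hn, hn0, hv⟩
      obtain rfl := Int.cast_injective hn
      have h7 : cm p B χ.1 ξ.1 ≠ 0 := right_ne_zero_of_mul hn0
      rw [padicValInt.mul hp0 h7, h6] at hv
      by_contra h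
      have := (padicValInt_dvd_iff _ _).1 (h4.2 h)
      omega
    · intro h0
      have h7 := cm_ne_zero hM hB hχ hξ h0
      refine ⟨_, rfl, mul_ne_zero hp0 h7, ?_⟩
      rw [padicValInt.mul hp0 h7, h6]
      have h8 := (padicValInt_dvd_iff _ _).1 h5
      have h9 := (padicValInt_dvd_iff _ _).not.1 (h4.not.2 (by simp [h0]))
      omega
  exact ⟨⟨fun h => ⟨χ, hχ, (key χ hχ).2 h⟩, fun ⟨ξ, hξ, h⟩ => (key ξ hξ).1 h⟩,
    ⟨fun h ξ hξ => (key ξ hξ).2 h, fun h => (key χ hχ).1 (h χ hχ)⟩⟩

end Cfsg.Agent.S4426
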