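import Cfsg.Statements.S4427
import Cfsg.Agent.Lib.Block.IBr
import Cfsg.Agent.Lib.Char.Invol

set_option autoImplicit false
open Cfsg

namespace Cfsg.Agent.S4427

open CT BT Cfsg
open scoped ComplexConjugate

theorem d_le {p : ℕ} [Fact p.Prime] {M : Ideal AlgInt} {hM : IsPModular p M} {G : Type*} [Group G]
    [Finite G] (W : Wed hM G) {i : Fin W.N} (hi : W.d (irrOne G) i ≠ 0) (Q : Subgroup G)
    (hQ : ¬ p ∣ Nat.card Q) (χ : IrrCharacter G) : W.d χ i ≤ mult (ind Q fun _ => 1) χ.1 := by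
  have hi1 := IsInt.emb hM (isInt_setIdem_of_not_dvd hM hQ {irrOne Q})
  have hi2 := (cIdem_emb_setIdem Q {irrOne Q}).idem
  have h1 := W.idemChar_eq_sum_rank hi1 hi2
  rw [idemChar_emb Q (by rw [setIdem_mul, Set.inter_self]), idemChar_setIdem_singleton,
    irrOne_apply, one_smul, irrOne_val] at h1
  have h2 : ∀ ψ : IrrCharacter G, mult (ind Q fun _ => 1) ψ.1 =
      ∑ j, (W.r (emb Q (setIdem {irrOne Q})) j).rank * W.d ψ j := fun ψ =>
    mult_eq_of_ip_eq (by
      rw [h1, ip_sum_left]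
      push_cast
      exact Finset.sum_congr rfl fun j _ => by rw [ip_smul_left, W.ip_Φ_irr])
  have h3 : ∀ j, j ≠ i → W.d (irrOne G) j = 0 := by
    intro j hj
    by_contra h
    have h4 := W.degree_eq_sum (irrOne G)
    rw [charDegree_irrOne] at h4
    have h5 := Finset.add_le_sum (s := Finset.univ) (f := fun j => W.d (irrOne G) j * W.n j)
      (fun _ _ => Nat.zero_le _) (Finset.mem_univ i) (Finset.mem_univ j) hj.symm
    have := Nat.mul_pos (Nat.pos_of_ne_zero hi) (W.n_pos i)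
    have := Nat.mul_pos (Nat.pos_of_ne_zero h) (W.n_pos j)
    omega
  have h4 : (W.r (emb Q (setIdem {irrOne Q})) i).rank ≠ 0 := by
    intro h
    have h5 := h2 (irrOne G)
    rw [Finset.sum_eq_single i (fun j _ hj => by rw [h3 j hj, mul_zero]) (by simp), h, zero_mul,
      mult_eq_of_ip_eq (n := 1) (by
        rw [ip_ind_left _ _ (irr_isClassFunction _), Nat.cast_one]
        exact ip_irr_self (irrOne Q))] at h5
    exact one_ne_zero h5
  rw [h2]
  exact (Nat.le_mul_of_pos_left _ (Nat.pos_of_ne_zero h4)).trans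
    (Finset.single_le_sum (f := fun j => (W.r (emb Q (setIdem {irrOne Q})) j).rank * W.d χ j)
      (fun _ _ => Nat.zero_le _) (Finset.mem_univ i))

/-- Let G be a finite group of order p^a · q^b · r^c with p, q, r distinct primes, and suppose that G has exactly q^b · r^c elements of order not divisible by p. Then G has a normal p-complement: a normal subgroup of order q^b · r^c. -/
theorem result {G : Type*} [Group G] [Finite G] (p q r a b c : ℕ) (hp : p.Prime) (hq : q.Prime) (hr : r.Prime) (hpq : p ≠ q) (hpr : p ≠ r) (hqr : q ≠ r) (hG : Nat.card G = p ^ a * q ^ b * r ^ c) (hcount : Nat.card {g : G // ¬ p ∣ orderOf g} = q ^ b * r ^ c) : ∃ N : Subgroup G, N.Normal ∧ Nat.card N = q ^ b * r ^ c := by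
  classical
  have := Fact.mk hp
  have := Fact.mk hq
  have := Fact.mk hr
  have := Fintype.ofFinite G
  obtain ⟨M, hM⟩ := exists_isPModular hp
  obtain ⟨W⟩ := exists_wed hM G
  obtain ⟨i, hi⟩ := W.exists_d_ne_zero' (irrOne G)
  obtain ⟨Q, hQ⟩ := Sylow.exists_subgroup_card_pow_prime q (n := b) (G := G)
    (hG ▸ (dvd_mul_left _ _).mul_right _)
  obtain ⟨R, hR⟩ := Sylow.exists_subgroup_card_pow_prime r (n := c) (G := G)
    (hG ▸ dvd_mul_left _ _)
  have hQp : ¬ p ∣ Nat.card Q := fun h =>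
    hpq ((Nat.prime_dvd_prime_iff_eq hp hq).1 (hp.dvd_of_dvd_pow (hQ ▸ h)))
  have hRp : ¬ p ∣ Nat.card R := fun h =>
    hpr ((Nat.prime_dvd_prime_iff_eq hp hr).1 (hp.dvd_of_dvd_pow (hR ▸ h)))
  have hcQ : IsCharacter G (ind Q fun _ => 1) := isCharacter_one.ind
  have hcR : IsCharacter G (ind R fun _ => 1) := isCharacter_one.ind
  have h1 : ∑ χ : IrrCharacter G, mult (ind Q fun _ => 1) χ.1 * mult (ind R fun _ => 1) χ.1 =
      p ^ a := by
    have h2 := mult_res_one_mul_card hcQ R fun s hs hs1 => ind_apply_eq_zero _ fun x hx => hs1 (by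
      have h3 : orderOf s ∣ q ^ b := by
        rw [← hQ, GT.orderOf_eq_of_isConj
          (isConj_iff.2 ⟨x⁻¹, by rw [inv_inv]⟩ : IsConj s (x⁻¹ * s * x))]
        exact Subgroup.orderOf_dvd_natCard _ hx
      exact orderOf_eq_one_iff.1 (Nat.eq_one_of_dvd_coprimes
        (Nat.coprime_pow_primes b c hq hr hqr) h3 (hR ▸ Subgroup.orderOf_dvd_natCard _ hs)))
    have h3 := Q.index_mul_card
    rw [hG, hQ, mul_right_comm] at h3
    rw [charDegree_ind isCharacter_one, Nat.eq_of_mul_eq_mul_right (pow_pos hq.pos b) h3, hR,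
      show charDegree (fun _ : Q => (1 : ℂ)) = 1 from charDegree_irrOne, mul_one] at h2
    rw [← Nat.eq_of_mul_eq_mul_right (pow_pos hr.pos c) h2]
    apply Nat.cast_injective (R := ℂ)
    rw [← (hcQ.res R).ip_eq_mult isCharacter_one, ← ip_ind_right _ _ hcQ.isClassFunction,
      ip_eq_sum_irr hcQ.isClassFunction hcR.isClassFunction]
    push_cast
    refine Finset.sum_congr rfl fun χ _ => ?_
    rw [hcQ.ip_eq_mult (irr_isCharacter χ), hcR.ip_eq_mult (irr_isCharacter χ), map_natCast]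
  have h2 : ∑ χ : IrrCharacter G, mult (W.Φ i) χ.1 ^ 2 ≤ p ^ a := by
    rw [← h1]
    exact Finset.sum_le_sum fun χ _ => by
      rw [sq]; exact Nat.mul_le_mul (d_le W hi Q hQp χ) (d_le W hi R hRp χ)
  have h3 : W.d (irrOne G) i = 1 := by
    have h4 := d_le W hi ⊥ (by simpa using hp.one_lt.ne') (irrOne G)
    rw [mult_eq_of_ip_eq (n := 1) (by
      rw [ip_ind_left _ _ (irr_isClassFunction _), Nat.cast_one]
      exact ip_irr_self (irrOne _))] at h4
    omega
  set Γ : G → ℂ := ((p ^ a : ℕ) : ℂ) • pRegularPart p (irrOne G).1 with hΓ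
  have h4 : ip (W.Φ i) Γ = (p ^ a : ℕ) := by
    rw [hΓ, ip_smul_right, map_natCast, ← conj_ip, ip_pRegularPart_comm
      (irr_isCharacter _).isGen (W.isCharacter_Φ i).isGen, W.pRegularPart_Φ, W.ip_Φ_irr, h3,
      Nat.cast_one, map_one, mul_one]
  have hΓ' : ∀ g, Γ g = if ¬ p ∣ orderOf g then ((p ^ a : ℕ) : ℂ) else 0 := fun g => by
    by_cases hg : p ∣ orderOf g <;> simp [hΓ, pRegularPart_apply, hg]
  have h5 : ip Γ Γ = (p ^ a : ℕ) := by
    have h6 : ∀ g, Γ g * conj (Γ g) = if ¬ p ∣ orderOf g then ((p ^ a : ℕ) : ℂ) ^ 2 else 0 :=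
      fun g => by rw [hΓ']; split_ifs <;> simp [sq]
    rw [ip_def, Finset.sum_congr rfl fun g _ => h6 g, ← Finset.sum_filter, Finset.sum_const,
      ← Fintype.card_subtype, ← Nat.card_eq_fintype_card, hcount, hG]
    have := hp.ne_zero
    have := hq.ne_zero
    have := hr.ne_zero
    push_cast
    field_simp
    simp [nsmul_eq_mul]
    ring
  have h6 : W.Φ i = Γ := by
    rw [← sub_eq_zero, ← ip_self_eq_zero]
    have h7 : ip (W.Φ i - Γ) (W.Φ i - Γ) =
        ((∑ χ : IrrCharacter G, mult (W.Φ i) χ.1 ^ 2 : ℕ) : ℂ) - (p ^ a : ℕ) := by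
      rw [ip_sub_left, ip_sub_right, ip_sub_right, (W.isCharacter_Φ i).ip_self_eq_sum_mult_sq, h4,
        ← conj_ip, h4, h5, map_natCast, sub_self, sub_zero]
    have h8 : (0 : ℝ) ≤ (ip (W.Φ i - Γ) (W.Φ i - Γ)).re := by
      rw [ip_self_eq, Complex.ofReal_re]; positivity
    rw [h7] at h8 ⊢
    rw [Complex.sub_re, Complex.natCast_re, Complex.natCast_re, sub_nonneg, Nat.cast_le] at h8
    rw [le_antisymm h2 h8, sub_self]
  refine ⟨ker (W.Φ i), (W.isClassFunction_Φ i).ker_normal, hcount ▸ Nat.card_congr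
    (Equiv.subtypeEquivRight fun g => ?_)⟩
  rw [(W.isCharacter_Φ i).mem_ker_iff, h6]
  rw [hΓ', hΓ']
  by_cases hg : p ∣ orderOf g <;> simp [hg, hp.ne_zero, hp.one_lt.ne', eq_comm]

end Cfsg.Agent.S4427
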