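import Cfsg.Statements.S4429
import Cfsg.Agent.Lib.Block.OneAux

set_option autoImplicit false
open Cfsg

namespace Cfsg.Agent.S4429

open CT BT GT
open scoped Classical

set_option linter.unusedSectionVars false

section
variable {G : Type*} [Group G] [Finite G]

theorem sum_fib {R : Type*} [CommRing R] (s : Finset (IrrCharacter G)) (L : Finset ℕ)
    (h : ∀ χ ∈ s, charDegree χ.1 ∈ L) (F : ℕ → R) : ∑ χ ∈ s, F (charDegree χ.1) =
      ∑ n ∈ L, ((s.filter fun χ => charDegree χ.1 = n).card : R) * F n := by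
  rw [← Finset.sum_fiberwise_of_maps_to h]
  refine Finset.sum_congr rfl fun n _ => ?_
  rw [Finset.sum_congr rfl fun χ hχ => by rw [(Finset.mem_filter.1 hχ).2], Finset.sum_const,
    nsmul_eq_mul]

variable [IsSimpleGroup G] (hG : Nat.card G = 7920)
include hG

theorem ker_eq {χ : IrrCharacter G} (h : χ ≠ irrOne G) : ker χ.1 = ⊥ :=
  (Subgroup.Normal.eq_bot_or_eq_top inferInstance).resolve_right (by rwa [irr_ker_eq_top_iff])

theorem center_eq : Subgroup.center G = ⊥ := by
  refine (Subgroup.Normal.eq_bot_or_eq_top inferInstance).resolve_right fun h => ?_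
  let _ : CommGroup G := ⟨fun a b => (Subgroup.mem_center_iff.1 (h.ge trivial) a)⟩
  have := IsSimpleGroup.prime_card (α := G)
  rw [hG] at this
  norm_num at this

theorem eq_one {χ : IrrCharacter G} (h : charDegree χ.1 = 1) : χ = irrOne G := by
  by_contra h'
  have h1 := irr_center_eq_of_faithful χ (ker_eq hG h')
  rw [(irr_center_eq_top_iff χ).2 h, center_eq hG] at h1
  exact top_ne_bot h1

theorem exists_data (p : ℕ) [Fact p.Prime] (hp : Nat.factorization 7920 p = 1) :
    ∃ (A : Type) (_ : CommGroup A) (_ : Finite A) (ι : A →* G) (E : Subgroup (MulAut A))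
      (X Z : Finset (IrrCharacter G)) (Y : HatNe A → IrrCharacter G) (δ : IrrCharacter G → ℤ)
      (δ₀ : ℤ) (c n : ℕ), PrinOne p ι E X Z Y δ δ₀ ∧
        Nat.card (Subgroup.centralizer (ι.range : Set G)) = p * c ∧
        (Subgroup.normalizer (ι.range : Set G)).index = n ∧ p * c * Nat.card E * n = 7920 ∧
        n % p = 1 % p ∧ n ≠ 1 ∧ Nat.card E ≠ 1 ∧ Nat.card E ∣ p - 1 := by
  obtain ⟨P⟩ : Nonempty (Sylow p G) := inferInstance
  obtain ⟨A, _, _, ι, H, -⟩ := exists_primeSyl (isSylowIn_sylow P)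
    (by rw [P.card_eq_multiplicity, hG, hp, pow_one])
  obtain ⟨E, X, Z, Y, δ, δ₀, O⟩ := H.exists_prinOne
  obtain ⟨c, hc⟩ := H.dvd_card_centralizer
  have hp' : p.Prime := Fact.out
  refine ⟨A, _, inferInstance, ι, E, X, Z, Y, δ, δ₀, c, _, O, hc, rfl, ?_,
    H.index_normalizer_modEq, fun h => ?_, fun h => ?_, O.card_E ▸ H.relIndex_dvd⟩
  · rw [← hc, O.card_E, card_centralizer_mul_relIndex_mul_index, hG]
  · have := H.card_range
    rcases (Subgroup.normalizer_eq_top_iff.1 (Subgroup.index_eq_one.1 h)).eq_bot_or_eq_top with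
      h | h
    · rw [h, Subgroup.card_bot] at this
      exact hp'.one_lt.ne this
    · rw [h, Subgroup.card_top, hG] at this
      rw [← this] at hp'
      norm_num at hp'
  · obtain ⟨K, hK, h1, k, h2⟩ := hasNormalPComplement_iff_exists.1
      (H.hasNormalPComplement (O.card_E ▸ h))
    rcases hK.eq_bot_or_eq_top with rfl | rfl
    · rw [Subgroup.index_bot, hG] at h2
      rw [h2, hp'.factorization_pow, Finsupp.single_eq_same] at hp
      rw [hp, pow_one] at h2
      rw [← h2] at hp'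
      norm_num at hp'
    · exact h1 (by
        rw [Subgroup.card_top, hG]; exact Nat.dvd_of_factorization_pos (by rw [hp]; simp))

theorem deg_facts (χ : IrrCharacter G) : charDegree χ.1 ∈ Nat.divisors 7920 :=
  Nat.mem_divisors.2 ⟨hG ▸ irr_degree_dvd_card χ, by norm_num⟩

variable {A : Type} [CommGroup A] [Finite A] {ι : A →* G} {E : Subgroup (MulAut A)}
  {X Z : Finset (IrrCharacter G)} {Y : HatNe A → IrrCharacter G} {δ : IrrCharacter G → ℤ} {δ₀ : ℤ}

theorem degX [Fact (Nat.Prime 11)] (O : PrinOne 11 ι E X Z Y δ δ₀) {χ : IrrCharacter G}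
    (h : χ ∈ X.erase (irrOne G)) : charDegree χ.1 ∈ ({10, 12, 45} : Finset ℕ) ∧
      δ χ = if charDegree χ.1 = 10 then -1 else 1 := by
  obtain ⟨h1, h2⟩ := Finset.mem_erase.1 h
  have h3 := O.degX χ h2
  have h4 : charDegree χ.1 ^ 2 ≤ 7920 := by
    rw [← hG, ← Subgroup.index_bot]; exact irr_degree_sq_le_index_of_le_center χ bot_le
  have h5 : ∀ d ∈ Nat.divisors 7920, d ^ 2 ≤ 7920 → d ≠ 1 →
      (d % 11 = 1 → d = 12 ∨ d = 45) ∧ (d % 11 = 10 → d = 10) := by decide +kernel
  have h6 := h5 _ (deg_facts hG χ) h4 fun h => h1 (eq_one hG h)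
  simp only [Finset.mem_insert, Finset.mem_singleton]
  rw [Int.ModEq] at h3
  rcases O.sign χ h2 with h | h <;> rw [h] at h3 ⊢ <;> split_ifs <;> omega

theorem eleven [Fact (Nat.Prime 11)] (O : PrinOne 11 ι E X Z Y δ δ₀) {c n : ℕ}
    (hc : Nat.card (Subgroup.centralizer (ι.range : Set G)) = 11 * c)
    (hn : (Subgroup.normalizer (ι.range : Set G)).index = n) (h1 : 11 * c * Nat.card E * n = 7920)
    (h2 : n % 11 = 1 % 11) (h3 : n ≠ 1) (h4 : Nat.card E ≠ 1) (h5 : Nat.card E ∣ 11 - 1) :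
    c = 1 ∧ Nat.card E = 5 := by
  classical
  have h6 : ∀ n ∈ Nat.divisors 720, n % 11 = 1 → n = 1 ∨ n = 12 ∨ n = 45 ∨ n = 144 := by
    decide +kernel
  have h7 : ∀ e ∈ Nat.divisors 10, e = 1 ∨ e = 2 ∨ e = 5 ∨ e = 10 := by decide +kernel
  have h8 := h7 _ (Nat.mem_divisors.2 ⟨h5, by norm_num⟩)
  have h9 := h6 n (Nat.mem_divisors.2 ⟨⟨c * Nat.card E, by linarith⟩, by norm_num⟩) h2
  rcases h9 with rfl | rfl | rfl | rfl
  · exact absurd rfl h3
  · have := Fintype.ofFinite (G ⧸ Subgroup.normalizer (ι.range : Set G))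
    have h10 := O.syl.centralizer_le_iff.1 (O.syl.centralizer_le_of_perm
      (MulAction.toPermHom G (G ⧸ Subgroup.normalizer (ι.range : Set G))) (by
        rw [← MonoidHom.ker_eq_bot_iff, ← Subgroup.normalCore_eq_ker]
        refine (Subgroup.Normal.eq_bot_or_eq_top inferInstance).resolve_right fun h => h3 ?_
        rw [← hn, Subgroup.index_eq_one, eq_top_iff, ← h]
        exact Subgroup.normalCore_le _) (by
        rw [← Nat.card_eq_fintype_card, ← Subgroup.index, hn]))
    obtain rfl : c = 1 := by omega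
    omega
  · have he : Nat.card E = 2 := by rcases h8 with h | h | h | h <;> rw [h] at h1 <;> omega
    have hX := O.one_mem.resolve_right fun h => by omega
    obtain ⟨χ, hχ⟩ := Finset.card_eq_one.1 (show (X.erase (irrOne G)).card = 1 by
      rw [Finset.card_erase_of_mem hX, O.card_X, he])
    obtain ⟨ψ, hψ⟩ := O.nonempty_Z
    have h10 := O.degree_rel hψ
    have h11 := degX hG O (hχ ▸ Finset.mem_singleton_self χ)
    rw [← Finset.add_sum_erase _ _ hX, hχ, Finset.sum_singleton, O.delta_one hX,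
      charDegree_irrOne, h11.2] at h10
    have h12 := Nat.dvd_of_mem_divisors (deg_facts hG ψ)
    have hχ' := Finset.mem_erase.1 (hχ ▸ Finset.mem_singleton_self χ : χ ∈ X.erase (irrOne G))
    have h13 : charDegree χ.1 = 10 := by
      simp only [Finset.mem_insert, Finset.mem_singleton] at h11
      rcases h11.1 with h | h | h
      · exact h
      · rw [show charDegree ψ.1 = 13 by rcases O.sign₀ with h' | h' <;> simp [h, h'] at h10 <;> omega]
          at h12
        norm_num at h12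
      · rw [show charDegree ψ.1 = 46 by rcases O.sign₀ with h' | h' <;> simp [h, h'] at h10 <;> omega]
          at h12
        norm_num at h12
    have h14 := O.syl.centralizer_le_iff.1 (O.syl.centralizer_le_of_forall fun y hy hy' => by
      have := O.mem_ker_of_degree hχ'.2 (by rw [h11.2, if_pos h13]) (by rw [h13]) hy hy'
      rwa [ker_eq hG hχ'.1] at this)
    rw [he] at h1
    omega
  · rcases h8 with h | h | h | h <;> rw [h] at h1 ⊢ <;> omega

theorem five [Fact (Nat.Prime 5)] (O : PrinOne 5 ι E X Z Y δ δ₀)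
    (hC : Subgroup.centralizer (ι.range : Set G) ≤ ι.range) (he : Nat.card E = 4) :
    ∃ S : Finset (IrrCharacter G), S.card = 5 ∧ (∀ χ, χ ∈ S ↔ ¬ 5 ∣ charDegree χ.1) ∧
      (∀ χ ∈ S, charDegree χ.1 % 5 = 1 ∨ charDegree χ.1 % 5 = 4) ∧
      ∑ χ ∈ S, (if charDegree χ.1 % 5 = 1 then 1 else -1 : ℤ) * charDegree χ.1 = 0 := by
  classical
  obtain ⟨ψ, rfl⟩ := Finset.card_eq_one.1 (show Z.card = 1 by have := O.card_Z; rw [he] at this; omega)
  have hψ : ψ ∉ X := Finset.disjoint_singleton_right.1 O.disj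
  have h1 : ∀ χ ∈ X, (charDegree χ.1 % 5 = 1 ∨ charDegree χ.1 % 5 = 4) ∧
      (if charDegree χ.1 % 5 = 1 then 1 else -1 : ℤ) = δ χ := fun χ hχ => by
    have := O.degX χ hχ
    rw [Int.ModEq] at this
    rcases O.sign χ hχ with h | h <;> rw [h] at this ⊢ <;> split_ifs <;> omega
  have h2 : (charDegree ψ.1 % 5 = 1 ∨ charDegree ψ.1 % 5 = 4) ∧
      (if charDegree ψ.1 % 5 = 1 then 1 else -1 : ℤ) = δ₀ := by
    have := O.degZ ψ (Finset.mem_singleton_self ψ)
    rw [Int.ModEq, he] at this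
    rcases O.sign₀ with h | h <;> rw [h] at this ⊢ <;> split_ifs <;> omega
  have h3 : ∀ χ ∈ insert ψ X, charDegree χ.1 % 5 = 1 ∨ charDegree χ.1 % 5 = 4 := fun χ hχ => by
    rcases Finset.mem_insert.1 hχ with rfl | h
    exacts [h2.1, (h1 χ h).1]
  refine ⟨insert ψ X, by rw [Finset.card_insert_of_notMem hψ, O.card_X, he], fun χ =>
    ⟨fun h => by have := h3 χ h; omega, fun h => ?_⟩, h3, ?_⟩
  · simpa [or_comm] using O.all hC χ h
  · rw [Finset.sum_insert hψ, h2.2, Finset.sum_congr rfl fun χ hχ => by rw [(h1 χ hχ).2]]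
    exact O.degree_rel (Finset.mem_singleton_self ψ)

end

set_option maxHeartbeats 800000 in

/-- Let G be a simple group of order 7920. Then G has exactly ten irreducible complex characters, and their degrees, listed with multiplicity, are 1, 10, 10, 10, 11, 16, 16, 44, 45, 55: for every natural number n, the number of irreducible characters of degree n is 1 if n ∈ {1, 11, 44, 45, 55}, 3 if n = 10, 2 if n = 16, and 0 otherwise. -/
theorem result {G : Type*} [Group G] [Finite G] [IsSimpleGroup G] (hG : Nat.card G = 7920) : Nat.card (Cfsg.IrrCharacter G) = 10 ∧ ∀ n : ℕ, Nat.card {χ : Cfsg.IrrCharacter G // Cfsg.charDegree (χ : G → ℂ) = n} = (if n = 1 ∨ n = 11 ∨ n = 44 ∨ n = 45 ∨ n = 55 then 1 else if n = 10 then 3 else if n = 16 then 2 else 0) := by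
  have : Fact (Nat.Prime 11) := ⟨by norm_num⟩
  have : Fact (Nat.Prime 5) := ⟨by norm_num⟩
  obtain ⟨A, _, _, ι, E, X, Z, Y, δ, δ₀, c, n, O, hc, hn, h1, h2, h3, h4, h5⟩ :=
    exists_data hG 11 (by decide +kernel)
  obtain ⟨rfl, he⟩ := eleven hG O hc hn h1 h2 h3 h4 h5
  have hC := O.syl.centralizer_le_iff.2 hc
  clear h1 h2 h3 h4 h5 hn
  obtain ⟨A', _, _, ι', E', X', Z', Y', δ', δ₀', c', n', O', hc', -, h1, h2, -, h4, h5⟩ :=
    exists_data hG 5 (by decide +kernel)
  have he' : Nat.card E' = 2 ∨ Nat.card E' = 4 := by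
    have : ∀ e ∈ Nat.divisors 4, e = 1 ∨ e = 2 ∨ e = 4 := by decide
    exact (this _ (Nat.mem_divisors.2 ⟨h5, by norm_num⟩)).resolve_left h4
  have hX := O.one_mem.resolve_right fun h => by omega
  have hZ : Z.card = 2 := by have := O.card_Z; rw [he] at this; omega
  obtain ⟨ψ, hψ⟩ := O.nonempty_Z
  have hsub : ∀ χ, ¬ 11 ∣ charDegree χ.1 → χ ≠ irrOne G → charDegree χ.1 ≠ charDegree ψ.1 →
      χ ∈ X.erase (irrOne G) := fun χ h h' h'' =>
    Finset.mem_erase.2 ⟨h', (O.all hC χ h).resolve_right fun h => h'' (O.degree_eq h hψ)⟩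
  -- the principal `11`-block
  obtain ⟨a₁, ha₁⟩ : ∃ a, a = ((X.erase (irrOne G)).filter fun χ => charDegree χ.1 = 10).card :=
    ⟨_, rfl⟩
  obtain ⟨a₂, ha₂⟩ : ∃ a, a = ((X.erase (irrOne G)).filter fun χ => charDegree χ.1 = 12).card :=
    ⟨_, rfl⟩
  obtain ⟨a₃, ha₃⟩ : ∃ a, a = ((X.erase (irrOne G)).filter fun χ => charDegree χ.1 = 45).card :=
    ⟨_, rfl⟩
  have hF : ∀ F : ℕ → ℤ, ∑ χ ∈ X.erase (irrOne G), F (charDegree χ.1) =
      a₁ * F 10 + (a₂ * F 12 + a₃ * F 45) := fun F => by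
    rw [sum_fib _ _ (fun χ h => (degX hG O h).1), Finset.sum_insert (by decide),
      Finset.sum_pair (by decide), ha₁, ha₂, ha₃]
  have e1 := hF fun _ => 1
  rw [Finset.sum_const, Finset.card_erase_of_mem hX, O.card_X, he] at e1
  have e2 := O.degree_rel hψ
  rw [← Finset.add_sum_erase _ _ hX, O.delta_one hX, charDegree_irrOne, Finset.sum_congr rfl
    fun χ h => by rw [(degX hG O h).2], hF fun d => (if d = 10 then -1 else 1) * d] at e2
  have e3 : ∑ χ ∈ X, (charDegree χ.1 : ℤ) ^ 2 + ∑ χ ∈ Z, (charDegree χ.1 : ℤ) ^ 2 ≤ 7920 := by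
    rw [← Finset.sum_union O.disj]
    exact_mod_cast (Finset.sum_le_sum_of_subset (Finset.subset_univ _)).trans
      (sum_irr_degree_sq.trans hG).le
  rw [← Finset.add_sum_erase _ _ hX, hF fun d => (d : ℤ) ^ 2, charDegree_irrOne,
    Finset.sum_congr rfl fun χ h => by rw [O.degree_eq h hψ], Finset.sum_const, hZ] at e3
  have e4 := deg_facts hG ψ
  have e5 : (a₁ = 3 ∧ a₂ = 0 ∧ a₃ = 1 ∧ charDegree ψ.1 = 16 ∧ δ₀ = -1) ∨
      (a₂ = 2 ∧ charDegree ψ.1 = 5) := by
    have : ∀ a ∈ Finset.range 5, ∀ b ∈ Finset.range 5, ∀ c ∈ Finset.range 5,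
        ∀ d ∈ Nat.divisors 7920, a + b + c = 4 → 1 + 100 * a + 144 * b + 2025 * c + 2 * d ^ 2 ≤ 7920 →
          (d + 1 + 12 * b + 45 * c ≠ 10 * a) ∧ (1 + 12 * b + 45 * c = 10 * a + d →
            (a = 3 ∧ b = 0 ∧ c = 1 ∧ d = 16) ∨ (b = 2 ∧ d = 5)) := by decide +kernel
    simp only [nsmul_eq_mul] at e1 e3
    have := this a₁ (Finset.mem_range.2 (by omega)) a₂ (Finset.mem_range.2 (by omega)) a₃
      (Finset.mem_range.2 (by omega)) _ e4 (by omega) (by zify; push_cast at e3; linarith)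
    rcases O.sign₀ with h | h <;> simp [h] at e2 ⊢ <;> omega
  have hC' : Subgroup.centralizer (ι'.range : Set G) ≤ ι'.range ∧ Nat.card E' = 4 := by
    rcases e5 with ⟨rfl, rfl, rfl, hD, rfl⟩ | ⟨-, hD⟩
    · have h6 : ∀ g : G, 5 ∣ orderOf g → ¬ 11 ∣ orderOf g ∧ ¬ 2 ∣ orderOf g := fun g hg => by
        have h6 : ¬ 11 ∣ orderOf g := fun h => by
          rw [O.syl.orderOf_eq_of_dvd hC h] at hg; norm_num at hg
        refine ⟨h6, fun h => ?_⟩
        have h7 := O.reg ψ hψ g h6
        rw [← Finset.add_sum_erase _ _ hX, O.delta_one hX, Finset.sum_eq_zero fun χ hχ => ?_,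
          irr_apply_eq_zero_of_defect_zero Nat.prime_two ψ (by
            rw [hD, hG, show Nat.factorization 7920 2 = 4 by decide +kernel]; norm_num) h] at h7
        · simp at h7
        · refine mul_eq_zero_of_right _ (O'.syl.apply_eq_zero ?_ hg)
          have h8 := (degX hG O hχ).1
          simp only [Finset.mem_insert, Finset.mem_singleton] at h8
          rcases h8 with h8 | h8 | h8
          · rw [h8]; norm_num
          · exact absurd (Finset.mem_filter.2 ⟨hχ, h8⟩) (Finset.card_eq_zero.1 ha₂.symm ▸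
              Finset.notMem_empty _)
          · rw [h8]; norm_num
      have h7 : ∀ q, q.Prime → q ≠ 5 → (∀ g : G, 5 ∣ orderOf g → ¬ q ∣ orderOf g) →
          ¬ q ∣ c' := fun q hq hq5 h hd => by
        have := Fact.mk hq
        have := O'.syl.nontrivial
        obtain ⟨u, hu⟩ := exists_ne (1 : A')
        obtain ⟨y, hy⟩ := exists_prime_orderOf_dvd_card' (G := Subgroup.centralizer
          (ι'.range : Set G)) q (hc' ▸ hd.mul_left _)
        rw [← Subgroup.orderOf_coe] at hy
        have h8 : ¬ 5 ∣ orderOf (y : G) := fun h =>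
          hq5 ((Nat.prime_dvd_prime_iff_eq (by norm_num) hq).1 (hy ▸ h)).symm
        refine h _ (O'.syl.dvd_orderOf_mul hu y.2 h8) ?_
        have hcm : Commute (y : G) (ι' u) := (Subgroup.mem_centralizer_iff.1 y.2 _ ⟨u, rfl⟩).symm
        rw [hcm.orderOf_mul_eq_mul_orderOf_of_coprime
          ((O'.syl.isPElt u).coprime_of_isPRegular h8).symm, hy]
        exact dvd_mul_right _ _
      have h8 : ∀ c ∈ Nat.divisors 1584, ¬ 2 ∣ c → ¬ 11 ∣ c → c = 1 ∨ c = 3 ∨ c = 9 := by
        decide +kernel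
      have h9 := h8 c' (Nat.mem_divisors.2 ⟨⟨Nat.card E' * n', by linarith⟩, by norm_num⟩)
        (h7 2 Nat.prime_two (by norm_num) fun g hg => (h6 g hg).2)
        (h7 11 (by norm_num) (by norm_num) fun g hg => (h6 g hg).1)
      rw [O'.syl.centralizer_le_iff, hc']
      rcases h9 with rfl | rfl | rfl <;> rcases he' with h | h <;> rw [h] at h1 ⊢ <;> omega
    · have h6 := O'.syl.centralizer_le_of_forall fun y hy hy' => by
        have := O'.syl.mem_center_of_degree hD hy hy'
        rwa [irr_center_eq_of_faithful ψ (ker_eq hG fun h => by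
          rw [h, charDegree_irrOne] at hD; omega), center_eq hG] at this
      refine ⟨h6, ?_⟩
      obtain rfl : c' = 1 := by have := O'.syl.centralizer_le_iff.1 h6; omega
      rcases he' with h | h <;> rw [h] at h1 ⊢
      omega
  obtain ⟨S, hS1, hS2, hS3, hS4⟩ := five hG O' hC'.1 hC'.2
  rcases e5 with ⟨rfl, rfl, rfl, hD, -⟩ | ⟨rfl, -⟩
  swap
  · obtain ⟨χ, hχ⟩ := Finset.card_pos.1 (ha₂ ▸ two_pos)
    have h6 := (Finset.mem_filter.1 hχ).2
    have := hS3 χ ((hS2 χ).2 (by rw [h6]; norm_num))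
    omega
  obtain ⟨f, hf⟩ : ∃ f : ℕ → ℕ, ∀ n, f n =
      (Finset.univ.filter fun χ : IrrCharacter G => charDegree χ.1 = n).card := ⟨_, fun _ => rfl⟩
  have hf' : ∀ n, ¬ 11 ∣ n → n ≠ 1 → n ≠ 16 →
      f n = ((X.erase (irrOne G)).filter fun χ => charDegree χ.1 = n).card := fun n h h' h'' => by
    rw [hf]
    congr 1
    ext χ
    simp only [Finset.mem_filter, Finset.mem_univ, true_and, iff_and_self]
    rintro rfl
    exact hsub χ h (fun h => h' (h ▸ charDegree_irrOne)) (hD ▸ h'')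
  have f1 : f 1 = 1 := by
    rw [hf, Finset.card_eq_one]
    exact ⟨irrOne G, Finset.eq_singleton_iff_unique_mem.2 ⟨by simp [charDegree_irrOne],
      fun χ h => eq_one hG (Finset.mem_filter.1 h).2⟩⟩
  have f10 : f 10 = 3 := by rw [hf' 10 (by norm_num) (by norm_num) (by norm_num), ← ha₁]
  have f45 : f 45 = 1 := by rw [hf' 45 (by norm_num) (by norm_num) (by norm_num), ← ha₃]
  have f12 : f 12 = 0 := by rw [hf' 12 (by norm_num) (by norm_num) (by norm_num), ← ha₂]
  have f16 : f 16 = 2 := by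
    rw [hf, ← hZ]
    congr 1
    ext χ
    simp only [Finset.mem_filter, Finset.mem_univ, true_and]
    refine ⟨fun h => (O.all hC χ (by rw [h]; norm_num)).resolve_left fun h' => ?_,
      fun h => (O.degree_eq h hψ).trans hD⟩
    have := (degX hG O (Finset.mem_erase.2 ⟨fun h'' => by
      rw [h'', charDegree_irrOne] at h; omega, h'⟩)).1
    rw [h] at this
    simp at this
  have hL : ∀ χ : IrrCharacter G,
      charDegree χ.1 ∈ ({1, 10, 11, 12, 16, 44, 45, 55, 66} : Finset ℕ) := fun χ => by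
    have h6 : charDegree χ.1 ^ 2 ≤ 7920 := by
      rw [← hG, ← Subgroup.index_bot]; exact irr_degree_sq_le_index_of_le_center χ bot_le
    have h7 : charDegree χ.1 ≤ 88 := by nlinarith
    simp only [Finset.mem_insert, Finset.mem_singleton]
    by_cases h : 11 ∣ charDegree χ.1
    · obtain ⟨k, hk⟩ := h
      have := hS3 χ
      rw [hS2, hk] at this
      have h8 : k ≤ 8 := by omega
      have h9 := Nat.dvd_of_mem_divisors (deg_facts hG χ)
      have h10 := irr_degree_pos χ
      rw [hk] at h9 h10 ⊢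
      interval_cases k <;> simp at this h9 h10 ⊢
    · by_cases h' : χ = irrOne G
      · exact Or.inl (h' ▸ charDegree_irrOne)
      by_cases h'' : charDegree χ.1 = charDegree ψ.1
      · omega
      have := (degX hG O (hsub χ h h' h'')).1
      simp only [Finset.mem_insert, Finset.mem_singleton] at this
      omega
  have hT : ∀ F : ℕ → ℤ, ∑ χ : IrrCharacter G, F (charDegree χ.1) = F 1 + 3 * F 10 + f 11 * F 11 +
      2 * F 16 + f 44 * F 44 + F 45 + f 55 * F 55 + f 66 * F 66 := fun F => by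
    rw [sum_fib _ _ fun χ _ => hL χ]
    simp only [← hf]
    simp [f1, f10, f45, f12, f16]
    ring
  have hS : S = Finset.univ.filter fun χ => ¬ 5 ∣ charDegree χ.1 := by ext χ; simp [hS2]
  have t1 := hT fun d => if ¬ 5 ∣ d then 1 else 0
  have t2 := hT fun d => if ¬ 5 ∣ d then (if d % 5 = 1 then 1 else -1 : ℤ) * d else 0
  have t3 := hT fun d => (d : ℤ) ^ 2
  have t4 := hT fun _ => 1
  rw [← Finset.sum_filter, ← hS] at t1 t2
  rw [Finset.sum_const, hS1] at t1
  rw [hS4] at t2
  rw [show ∑ χ : IrrCharacter G, (charDegree χ.1 : ℤ) ^ 2 = 7920 by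
    exact_mod_cast sum_irr_degree_sq.trans hG] at t3
  norm_num at t1 t2 t3 t4
  have f11 : f 11 = 1 := by omega
  have f44 : f 44 = 1 := by omega
  have f55 : f 55 = 1 := by omega
  have f66 : f 66 = 0 := by omega
  refine ⟨by rw [Nat.card_eq_fintype_card]; omega, fun n => ?_⟩
  rw [Nat.card_eq_fintype_card, Fintype.card_subtype, ← hf]
  by_cases h : n ∈ ({1, 10, 11, 12, 16, 44, 45, 55, 66} : Finset ℕ)
  · simp only [Finset.mem_insert, Finset.mem_singleton] at h
    rcases h with rfl | rfl | rfl | rfl | rfl | rfl | rfl | rfl | rfl <;>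
      simp [f1, f10, f11, f12, f16, f44, f45, f55, f66]
  · rw [hf, Finset.card_eq_zero.2 (Finset.filter_eq_empty_iff.2 fun χ _
      (h' : charDegree χ.1 = n) => h (h' ▸ hL χ))]
    simp only [Finset.mem_insert, Finset.mem_singleton, not_or] at h
    simp [h]

end Cfsg.Agent.S4429
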