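import Cfsg.Statements.S4431
import Cfsg.Agent.Lib.Block.Heights

set_option autoImplicit false
open Cfsg

namespace Cfsg.Agent.S4431

open CT BT
open scoped MonoidAlgebra ComplexConjugate

/-- Let H be a subgroup of the finite group G and b a block of H whose induced block B₀ in G is defined (relative to a maximal ideal M of the algebraic integers containing p). Let χ be an irreducible character of G, ψ ∈ b, and let η be the class function on H equal to p^a · χ on the p-regular elements of H and zero elsewhere, p^a being the p-part of the order of H. Then (a) if χ ∉ B₀, the number [η, ψ]/ψ(1) lies in the local ideal at M; (b) if χ ∈ B₀ has height zero, it does not. -/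
theorem result {G : Type*} [Group G] [Fintype G] (p : ℕ) [Fact p.Prime] (M : Ideal Cfsg.AlgInt) (hM : Cfsg.IsPModular p M) (H : Subgroup G) [Fintype H] (b : Set (Cfsg.IrrCharacter H)) (B₀ : Set (Cfsg.IrrCharacter G)) (hind : Cfsg.IsInducedBlock M H b B₀) (χ : Cfsg.IrrCharacter G) (ψ : Cfsg.IrrCharacter H) (hψ : ψ ∈ b) : (χ ∉ B₀ → Cfsg.MemLocalIdeal M (Cfsg.classInner (fun h : H => if p ∣ orderOf h then (0 : ℂ) else ((p ^ (Nat.card H).factorization p : ℕ) : ℂ) * (χ : G → ℂ) h) (ψ : H → ℂ) / (ψ : H → ℂ) 1)) ∧ (χ ∈ B₀ → Cfsg.blockHeight p B₀ (χ : G → ℂ) = 0 → ¬ Cfsg.MemLocalIdeal M (Cfsg.classInner (fun h : H => if p ∣ orderOf h then (0 : ℂ) else ((p ^ (Nat.card H).factorization p : ℕ) : ℂ) * (χ : G → ℂ) h) (ψ : H → ℂ) / (ψ : H → ℂ) 1)) := by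
  have key : Cfsg.MemLocalIdeal M (Cfsg.classInner (fun h : H => if p ∣ orderOf h then (0 : ℂ) else ((p ^ (Nat.card H).factorization p : ℕ) : ℂ) * (χ : G → ℂ) h) (ψ : H → ℂ) / (ψ : H → ℂ) 1) ↔ χ ∉ B₀ ∨ blockHeight p B₀ χ.1 ≠ 0 := by
    rw [← omega_zOf_res_mem_locIdeal_iff hM hind hψ, ← mem_locIdeal hM,
      ← mul_mem_locIdeal_iff_of_unit hM (natCast_mem _ (ordCompl[p] (Nat.card H)))
        (by rw [natCast_mem_locIdeal_iff]; exact not_dvd_ordCompl_card), omega_zOf,
      ← ip_pRegularPart_left_eq_right, ip_pRegularPart_comm (irr_isCharacter ψ).isGen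
        ((irr_isCharacter χ).res H).isGen, card_eq_pow_mul_ordCompl (p := p), classInner_eq_ip]
    have : (fun h : H => if p ∣ orderOf h then (0 : ℂ) else ((p ^ (Nat.card H).factorization p : ℕ) : ℂ) * (χ : G → ℂ) h) = (p : ℂ) ^ (Nat.card H).factorization p • pRegularPart p (res H χ.1) := by
      ext x
      rw [Pi.smul_apply, pRegularPart_apply]
      split_ifs <;> simp
    rw [this, ip_smul_left]
    congr! 1
    ring
  exact ⟨fun h => key.2 (Or.inl h), fun h h0 => key.not.2 (by simp [h, h0])⟩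

end Cfsg.Agent.S4431
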