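import Cfsg.Statements.S4437
import Cfsg.Agent.Lib.Block.CoverP
-- import your own Cfsg.Agent.* helpers here

set_option autoImplicit false
open Cfsg

namespace Cfsg.Agent.S4437

open BT CT GT
open scoped Pointwise

/-- Let P be a p-subgroup of the finite group G, H = P·C_G(P), and b a block of H (relative to a maximal ideal M of the algebraic integers containing p) having P as a defect group; let B be the block of G induced by b. Let T be the stabilizer of b in N_G(P): the elements g of N_G(P) such that the g-conjugate of every member of b is again a member of b. Then B has defect group P if and only if p does not divide the index of H in T. -/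
theorem result {G : Type*} [Group G] [Fintype G] (p : ℕ) [Fact p.Prime] (M : Ideal Cfsg.AlgInt) (hM : Cfsg.IsPModular p M) (P : Subgroup G) (hP : IsPGroup p P) (H : Subgroup G) [Fintype H] (hH : H = P ⊔ Subgroup.centralizer (P : Set G)) (b : Set (Cfsg.IrrCharacter H)) (hb : Cfsg.IsPBlock M b) (hbP : Cfsg.IsDefectGroup p M b (P.subgroupOf H)) (B : Set (Cfsg.IrrCharacter G)) (hind : Cfsg.IsInducedBlock M H b B) (T : Subgroup G) (hT : ∀ g : G, g ∈ T ↔ (g ∈ Subgroup.normalizer (P : Set G) ∧ ∀ θ ∈ b, ∀ θ' : Cfsg.IrrCharacter H, (∀ h h' : H, (h' : G) = g * h * g⁻¹ → (θ' : H → ℂ) h' = (θ : H → ℂ) h) → θ' ∈ b)) : Cfsg.IsDefectGroup p M B P ↔ ¬ p ∣ H.relIndex T := by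
  have hPH : P ≤ H := hH ▸ le_sup_left
  have hCH : Subgroup.centralizer (P : Set G) ≤ H := hH ▸ le_sup_right
  have hHK : H ≤ Subgroup.normalizer (P : Set G) :=
    hH ▸ sup_le Subgroup.le_normalizer (Subgroup.centralizer_le_normalizer _)
  have hKH : Subgroup.normalizer (P : Set G) ≤ Subgroup.normalizer (H : Set G) := fun g hg => by
    rw [← conj_smul_eq_iff_mem_normalizer, conj_smul_eq_map, hH, Subgroup.map_sup,
      ← centralizer_map_conj, map_conj_eq_of_mem_normalizer hg]
  have hB := hind.2.1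
  have hf := bIdem_sidem hM hb
  have he := bIdem_top_idem hM hB
  have hT' : T = Subgroup.normalizer (P : Set G) ⊓ stabA (sidem hM H b) := by
    ext x
    rw [hT, Subgroup.mem_inf, mem_stabA]
    refine and_congr_right fun hx => ?_
    rw [← forall_isConjCharOf_mem_iff_cj hM hb (hKH hx)]
    rfl
  have hbr := (isInducedBlock_iff_br hM hP hPH hCH hHK hb hB).1 hind
  have hfP := (isDefectGroup_subgroupOf_iff_defGrp hM hb hPH).1 hbP
  have hHT : H ≤ T := hT' ▸ le_inf hHK (isFixed_iff_le_stabA.1 hf.fixed)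
  have hTK : T ≤ Subgroup.normalizer (P : Set G) := hT' ▸ inf_le_left
  have hTf : IsFixed T (sidem hM H b) := isFixed_iff_le_stabA.2 (hT' ▸ inf_le_right)
  rw [isDefectGroup_iff_defGrp hM hB]
  constructor
  · intro hD
    obtain ⟨S, hS⟩ := exists_isSylowIn p T
    obtain ⟨D, hDp, h1, h2, h3⟩ := hf.exists_sup_eq_sup_br_ne_zero hM hS.isPGroup
      ((hS.le.trans hTK).trans hKH) (hTf.mono hS.le)
    have hDT : D ≤ T := le_sup_right.trans (h1.le.trans (sup_le hHT hS.le))
    have hPD : P ≤ D := (hf.le_defGrp hM hPH hHK hP h3).trans inf_le_left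
    rw [← hbr, br_mul hDp (IsFixed.br (hDT.trans hTK) (he.fixed.mono le_top)) (hTf.mono hDT),
      br_br_of_le hPD] at h2
    have h4 := hD.eq_of_le le_top hDp (left_ne_zero_of_mul h2) hPD
    rw [h4, sup_eq_left.2 hPH] at h1
    exact hS.not_dvd_relIndex_of_le (le_sup_right.trans h1.ge)
  · intro hnd
    obtain ⟨c, hc, hc0⟩ := exists_bIdem_mul_ne_zero' hM (Subgroup.normalizer (P : Set G))
      hf.ne_zero
    obtain ⟨R, hR, h1, -, h2⟩ := hc.exists_defGrp_cover_inf_eq hM hHK hKH hf hc0 hfP
    have hRT : R ≤ T := hT' ▸ le_inf hR.le (isFixed_iff_le_stabA.1 h1)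
    have hRH : R ≤ H := by
      refine le_of_coprime_card_relIndex hRT (hTK.trans hKH) ?_
      obtain ⟨n, hn⟩ := hR.pgroup.exists_card_eq
      rw [hn]
      exact Nat.Coprime.pow_left _ ((Nat.Prime.coprime_iff_not_dvd Fact.out).2 hnd)
    rw [inf_eq_left.2 hRH] at h2
    subst h2
    refine (first_main_of_br_mul hM (f := c) le_top (by rwa [top_inf_eq]) (by rwa [top_inf_eq])
      he fun h0 => hc0 ?_).1
    have hcomm := (IsFixed.br le_rfl (he.fixed.mono le_top)).commute_of_suppIn hc.supp
    rw [← hbr, ← mul_assoc, ← hcomm.eq, h0, zero_mul]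

end Cfsg.Agent.S4437
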