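import Cfsg.Statements.S4442
import Cfsg.Agent.Lib.Block.CycOne

set_option autoImplicit false
open Cfsg

namespace Cfsg.Agent.S4442

open CT BT GT

/-- Blocks of defect one. Let p be an odd prime and G a finite group whose Sylow p-subgroup P has order p; let C = C_G(P) and N = N_G(P), and fix a maximal ideal M of the algebraic integers containing p. Let B be a block of G with defect group P, b a block of C inducing B, and θ the member of b having P in its kernel (there is exactly one). Let T be the stabilizer of θ in N (the elements g ∈ N with θ(g c g⁻¹) = θ(c) for all c ∈ C) and e the index of C in T. Then e divides p − 1 and B contains exactly e + (p − 1)/e irreducible characters. Moreover B is the disjoint union of a set X of e characters and a set Y of (p − 1)/e characters such that, with f the index of C in N: every χ ∈ X has χ(1) ≡ ±(f/e)·θ(1) (mod p), there is one sign ε with ψ(1) ≡ ε f θ(1) (mod p) for all ψ ∈ Y, and all members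 of Y agree on the p-regular elements of G. -/
theorem result {G : Type*} [Group G] [Finite G] (p : ℕ) [Fact p.Prime] (M : Ideal Cfsg.AlgInt) (hM : Cfsg.IsPModular p M) (hodd : p ≠ 2) (P : Sylow p G) (hP : Nat.card P = p) (B : Set (Cfsg.IrrCharacter G)) (hB : Cfsg.IsPBlock M B) (hBP : Cfsg.IsDefectGroup p M B P) (b : Set (Cfsg.IrrCharacter (Subgroup.centralizer ((P : Subgroup G) : Set G)))) (hind : Cfsg.IsInducedBlock M (Subgroup.centralizer ((P : Subgroup G) : Set G)) b B) (θ : Cfsg.IrrCharacter (Subgroup.centralizer ((P : Subgroup G) : Set G))) (hθ : θ ∈ b) (hθP : ∀ x : Subgroup.centralizer ((P : Subgroup G) : Set G), (x : G) ∈ (P : Subgroup G) → (θ : Subgroup.centralizer ((P : Subgroup G) : Set G) → ℂ) x = (θ : Subgroup.centralizer ((P : Subgroup G) : Set G) → ℂ) 1) (T : Subgroup G) (hT : ∀ g : G, g ∈ T ↔ (g ∈ Subgroup.normalizer ((P : Subgroup G) : Set G) ∧ ∀ c c' : Subgroup.centralizer ((P : Subgroup G) : Set G), (c' : G) = g * c * g⁻¹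 → (θ : Subgroup.centralizer ((P : Subgroup G) : Set G) → ℂ) c' = (θ : Subgroup.centralizer ((P : Subgroup G) : Set G) → ℂ) c)) (e f : ℕ) (he : (Subgroup.centralizer ((P : Subgroup G) : Set G)).relIndex T = e) (hf : (Subgroup.centralizer ((P : Subgroup G) : Set G)).relIndex (Subgroup.normalizer ((P : Subgroup G) : Set G)) = f) : e ∣ p - 1 ∧ Nat.card B = e + (p - 1) / e ∧ ∃ X Y : Set (Cfsg.IrrCharacter G), B = X ∪ Y ∧ Disjoint X Y ∧ Nat.card X = e ∧ Nat.card Y = (p - 1) / e ∧ (∀ χ ∈ X, (Cfsg.charDegree (χ : G → ℂ) : ℤ) ≡ ((f / e * Cfsg.charDegree (θ : Subgroup.centralizer ((P : Subgroup G) : Set G) → ℂ) : ℕ) : ℤ) [ZMOD p] ∨ (Cfsg.charDegree (χ : G → ℂ) : ℤ) ≡ -((f / e * Cfsg.charDegree (θ : Subgroup.centralizer ((P : Subgroup G) : Set G) → ℂ) : ℕ) : ℤ) [ZMOD p]) ∧ (∃ ε : ℤ, (ε = 1 ∨ ε = -1) ∧ ∀ ψ ∈ Y, (Cfsg.charDegree (ψ : G → ℂ) : ℤ) ≡ ε * ((f * Cfsg.charDegree (θ : Subgroup.centralizer ((P : Subgroup G) : Set G) → ℂ) : ℕ) : ℤ) [ZMOD p])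 ∧ ∀ ψ ∈ Y, ∀ ψ' ∈ Y, ∀ g : G, ¬ p ∣ orderOf g → (ψ : G → ℂ) g = (ψ' : G → ℂ) g := by
  obtain ⟨A, _, _, ι, H, hι⟩ := exists_primeSyl (isSylowIn_sylow P) hP
  obtain ⟨X, Y, δ, δ₀, ξ, O⟩ := H.exists_oneStr_of_induced hM (by rw [hι]) (hι ▸ hBP) hind
  have := H.isCyclic
  have := H.nontrivial
  have T' := O.cyc
  obtain rfl : θ = ξ 1 := O.cen.eq_of_apply O.range_le hθ fun u w hw => by
    rw [hθP w (hι.le ⟨u, hw.symm⟩)]; simp
  obtain rfl : T = NP ⊤ ι.range (sidem hM _ b) := Subgroup.ext fun g => by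
    rw [hT, O.cen.mem_NP_iff O.eqC O.blk H.inj, hι]; rfl
  have hE := O.card_inert_eq.trans he
  have hY := O.degreeY
  have hf' := O.card_inert_mul
  rw [hι, hf] at hY
  replace hf : (Subgroup.centralizer ((P : Subgroup G) : Set G)).relIndex
    (Subgroup.normalizer (ι.range : Set G)) = f := by rw [hι, hf]
  rw [hE, hf] at hf'
  refine ⟨hE ▸ O.ab.card_inert_dvd, by rw [T'.card_eq O.ab, hE, H.card], X, Set.range Y,
    T'.eq_union, T'.disjoint, T'.card_X.trans hE, by rw [T'.card_range O.ab, hE, H.card],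
    fun χ hχ => ?_, ⟨-δ₀, ?_, ?_⟩, ?_⟩
  · have h1 := O.degreeX hχ
    rw [← hf', Nat.mul_div_cancel_left _ (hE ▸ Nat.card_pos)]
    rcases T'.sign χ hχ with h | h <;> rw [h] at h1
    · exact Or.inl (by rwa [one_mul] at h1)
    · exact Or.inr (by rwa [neg_one_mul] at h1)
  · rcases T'.sign₀ with h | h <;> simp [h]
  · rintro _ ⟨l, rfl⟩
    exact hY l
  · rintro _ ⟨l, rfl⟩ _ ⟨m, rfl⟩ g hg
    exact T'.reg_eq l m hg

end Cfsg.Agent.S4442
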