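import Cfsg.Statements.S4443
import Cfsg.Agent.Lib.Block.Robinson

set_option autoImplicit false
open Cfsg

namespace Cfsg.Agent.S4443

open CT BT
open scoped MonoidAlgebra ComplexConjugate

attribute [local irreducible] instFieldResF

/-- Let D be a normal p-subgroup of the finite group G, of order p^d, let p^a be the p-part of the order of G, and fix a Sylow p-subgroup S and a maximal ideal M of the algebraic integers containing p. Index by a finite type ι (via an injective map K) exactly the conjugacy classes of p-regular elements x of G for which D is a Sylow p-subgroup of C_G(x). For classes K_i, K_j let ω(i, j) be the number of pairs (y, z) ∈ K_i × K_j with z y⁻¹ ∈ S; this number is divisible by p^(a−d). Then the number of p-blocks of G having D as a defect group equals the rank over ℤ/pℤ of the matrix with (i, j) entry ω(i, j)/p^(a−d) reduced modulo p. -/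
theorem result {G : Type*} [Group G] [Finite G] (p : ℕ) [Fact p.Prime] (M : Ideal Cfsg.AlgInt) (hM : Cfsg.IsPModular p M) (D : Subgroup G) [D.Normal] (hD : IsPGroup p D) (S : Sylow p G) {ι : Type*} [Fintype ι] [DecidableEq ι] (K : ι → ConjClasses G) (hKinj : Function.Injective K) (hK : ∀ C : ConjClasses G, (∃ i, K i = C) ↔ ∃ x ∈ C.carrier, ¬ p ∣ orderOf x ∧ ∃ Q : Sylow p (Subgroup.centralizer ({x} : Set G)), (Q : Subgroup (Subgroup.centralizer ({x} : Set G))).map (Subgroup.centralizer ({x} : Set G)).subtype = D) : Nat.card {B : Set (Cfsg.IrrCharacter G) // Cfsg.IsPBlock M B ∧ Cfsg.IsDefectGroup p M B D} = (Matrix.of fun i j : ι => ((Nat.card {yz : G × G // yz.1 ∈ (K i).carrier ∧ yz.2 ∈ (K j).carrier ∧ yz.2 * yz.1⁻¹ ∈ (S : Subgroup G)} / p ^ ((Nat.card G).factorization p - (Nat.card D).factorization p) : ℕ) : ZMod p)).rank := by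
  classical
  choose y hy hreg hS using fun i => (hK (K i)).1 ⟨i, rfl⟩
  have hS' : ∀ i, GT.IsSylowIn p D (Subgroup.centralizer ({y i} : Set G)) := fun i =>
    GT.isSylowIn_iff.2 (let ⟨Q, hQ⟩ := hS i; ⟨Q, hQ.symm⟩)
  have hmk : ∀ i, ConjClasses.mk (y i) = K i := fun i => ConjClasses.mem_carrier_iff_mk_eq.1 (hy i)
  have hcar : ∀ i g, g ∈ (K i).carrier ↔ IsConj (y i) g := fun i g => by
    rw [ConjClasses.mem_carrier_iff_mk_eq, ← hmk, ConjClasses.mk_eq_mk_iff_isConj, isConj_comm]
  have hinj : ∀ i j, IsConj (y i) (y j) → i = j := fun i j h =>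
    hKinj (by rw [← hmk, ← hmk]; exact ConjClasses.mk_eq_mk_iff_isConj.2 h)
  have hall : ∀ x : G, ¬ p ∣ orderOf x → GT.IsSylowIn p D (Subgroup.centralizer ({x} : Set G)) →
      ∃ i, IsConj (y i) x := fun x hx hs => by
    obtain ⟨Q, hQ⟩ := GT.isSylowIn_iff.1 hs
    obtain ⟨i, hi⟩ := (hK (ConjClasses.mk x)).2
      ⟨x, ConjClasses.mem_carrier_mk, hx, Q, hQ.symm⟩
    exact ⟨i, (hcar i x).1 (hi ▸ ConjClasses.mem_carrier_mk)⟩
  have hcinv : ∀ a b : G, IsConj a⁻¹ b → IsConj a b⁻¹ := fun a b h => by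
    obtain ⟨c, hc⟩ := isConj_iff.1 h
    exact isConj_iff.2 ⟨c, by rw [← hc]; group⟩
  have hinj' : ∀ i j, IsConj (y i)⁻¹ (y j)⁻¹ → i = j := fun i j h =>
    hinj i j (by simpa using hcinv _ _ h)
  have hall' : ∀ x : G, ¬ p ∣ orderOf x → GT.IsSylowIn p D (Subgroup.centralizer ({x} : Set G)) →
      ∃ i, IsConj (y i)⁻¹ x := fun x hx hs => by
    obtain ⟨i, hi⟩ := hall x⁻¹ (by rwa [orderOf_inv]) (by rwa [centralizer_singleton_inv])
    exact ⟨i, by simpa using hcinv (y i)⁻¹ x⁻¹ (by simpa using hi)⟩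
  choose χ hχ using fun B : Bl M G => block_nonempty hM B.2
  obtain ⟨c, hc, h⟩ := robinson hM S D χ hχ
  let T := {B : Bl M G // IsDefectGroup p M B.1 D}
  rw [← rank_map_field (ZMod.castHom (dvd_refl p) (ResF hM))]
  let P : Matrix ι T (ResF hM) := fun i B => red hM (centralChar (χ B.1).1 (y i)⁻¹)
  let Q : Matrix T ι (ResF hM) := fun B j => red hM (centralChar (χ B.1).1 (y j))
  let L : Matrix T ι (ResF hM) := fun B i => red hM (blockCoeff B.1.1 (y i)⁻¹)
  let R : Matrix ι T (ResF hM) := fun j B => red hM (blockCoeff B.1.1 (y j))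
  have hA : (Matrix.of fun i j : ι => ((Nat.card {yz : G × G // yz.1 ∈ (K i).carrier ∧ yz.2 ∈ (K j).carrier ∧ yz.2 * yz.1⁻¹ ∈ (S : Subgroup G)} / p ^ ((Nat.card G).factorization p - (Nat.card D).factorization p) : ℕ) : ZMod p)).map (ZMod.castHom (dvd_refl p) (ResF hM)) = P * Matrix.diagonal (fun B : T => c B.1) * Q := by
    ext i j
    rw [Matrix.map_apply, Matrix.of_apply, map_natCast, Matrix.mul_apply]
    simp only [hcar, Matrix.mul_diagonal]
    exact (h _ _ (hS' i) (hS' j)).2
  have hL : L * P = 1 := by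
    ext B B'
    rw [Matrix.mul_apply, Matrix.one_apply]
    have := sum_centralChar_mul_blockCoeff hM (fun i => (y i)⁻¹) hinj' hall' B'.1.2 B.1.2 B'.2 B.2
      (hχ B'.1)
    simp only [L, P, mul_comm (red hM (blockCoeff _ _))]
    rw [this]
    congr 1
    exact propext ⟨fun h => Subtype.ext (Subtype.ext h.symm), fun h => by rw [h]⟩
  have hR : Q * R = 1 := by
    ext B B'
    rw [Matrix.mul_apply, Matrix.one_apply]
    have := sum_centralChar_mul_blockCoeff hM y hinj hall B.1.2 B'.1.2 B.2 B'.2 (hχ B.1)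
    simp only [Q, R]
    rw [this]
    congr 1
    exact propext ⟨fun h => Subtype.ext (Subtype.ext h), fun h => by rw [h]⟩
  rw [hA, rank_mul_diagonal_mul P R Q L _ (fun B => hc B.1) hL hR, ← Nat.card_eq_fintype_card]
  exact Nat.card_congr (Equiv.subtypeSubtypeEquivSubtypeInter _ _).symm

end Cfsg.Agent.S4443
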