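import Cfsg.Statements.S4444
import Cfsg.Agent.Lib.Char.Glauberman

set_option autoImplicit false
open Cfsg

namespace Cfsg.Agent.S4444

/-- The Glauberman correspondence for a p-group of operators. Inside a finite group Γ let S normalise G with the orders of G and S coprime, S a p-group, and let C = G ⊓ C(S) be the fixed points. Call an irreducible character χ of G S-invariant when χ(s g s⁻¹) = χ(g) for s ∈ S, g ∈ G. Then: (i) for every S-invariant χ there is exactly one irreducible character β of C whose multiplicity [χ_C, β] in the restriction of χ is not divisible by p; (ii) that multiplicity is ≡ 1 or ≡ −1 (mod p); (iii) distinct S-invariant χ give distinct β; (iv) every irreducible character of C arises in this way. So χ ↦ β is a bijection from the S-invariant irreducible characters of G onto the irreducible characters of C. -/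
theorem result {Γ : Type*} [Group Γ] [Fintype Γ] (G S : Subgroup Γ) [Fintype G] (hnorm : ∀ s ∈ S, ∀ g ∈ G, s * g * s⁻¹ ∈ G) (hcop : (Nat.card G).Coprime (Nat.card S)) (p : ℕ) (hp : p.Prime) (hS : IsPGroup p S) (C : Subgroup Γ) [Fintype C] (hC : C = G ⊓ Subgroup.centralizer (S : Set Γ)) (hCG : C ≤ G) : (∀ χ : Cfsg.IrrCharacter G, (∀ s ∈ S, ∀ g g' : G, (g' : Γ) = s * g * s⁻¹ → (χ : G → ℂ) g' = (χ : G → ℂ) g) → ∃! β : Cfsg.IrrCharacter C, ∃ m : ℕ, Cfsg.classInner (fun c : C => (χ : G → ℂ) ⟨c, hCG c.2⟩) (β : C → ℂ) = (m : ℂ) ∧ ¬ p ∣ m) ∧ (∀ χ : Cfsg.IrrCharacter G, (∀ s ∈ S, ∀ g g' : G, (g' : Γ) = s * g * s⁻¹ → (χ : G → ℂ) g' = (χ : G → ℂ) g) → ∀ β : Cfsg.IrrCharacter C, ∀ m : ℕ, Cfsg.classInner (fun c : C => (χ : G → ℂ) ⟨c, hCG c.2⟩) (β : C → ℂ) = (m : ℂ) → ¬ p ∣ m → ((m : ℤ) ≡ 1 [ZMOD p] ∨ (m : ℤ) ≡ -1 [ZMOD p])) ∧ (∀ χ χ' : Cfsg.IrrCharacter G, (∀ s ∈ S, ∀ g g'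 : G, (g' : Γ) = s * g * s⁻¹ → (χ : G → ℂ) g' = (χ : G → ℂ) g) → (∀ s ∈ S, ∀ g g' : G, (g' : Γ) = s * g * s⁻¹ → (χ' : G → ℂ) g' = (χ' : G → ℂ) g) → ∀ β : Cfsg.IrrCharacter C, ∀ m m' : ℕ, Cfsg.classInner (fun c : C => (χ : G → ℂ) ⟨c, hCG c.2⟩) (β : C → ℂ) = (m : ℂ) → ¬ p ∣ m → Cfsg.classInner (fun c : C => (χ' : G → ℂ) ⟨c, hCG c.2⟩) (β : C → ℂ) = (m' : ℂ) → ¬ p ∣ m' → χ = χ') ∧ (∀ β : Cfsg.IrrCharacter C, ∃ χ : Cfsg.IrrCharacter G, (∀ s ∈ S, ∀ g g' : G, (g' : Γ) = s * g * s⁻¹ → (χ : G → ℂ) g' = (χ : G → ℂ) g) ∧ ∃ m : ℕ, Cfsg.classInner (fun c : C => (χ : G → ℂ) ⟨c, hCG c.2⟩) (β : C → ℂ) = (m : ℂ) ∧ ¬ p ∣ m) := by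
  have hn : S ≤ Subgroup.normalizer (G : Set Γ) := fun s hs =>
    GT.mem_normalizer_of_conj_mem (hnorm s hs)
  have hm : ∀ (χ : IrrCharacter G) (β : IrrCharacter C) (m : ℕ),
      Cfsg.classInner (fun c : C => (χ : G → ℂ) ⟨c, hCG c.2⟩) (β : C → ℂ) = (m : ℂ) ↔
        CT.mult (CT.resLe hCG χ.1) β.1 = m := fun χ β m => by
    rw [CT.classInner_eq_ip]
    exact ⟨CT.mult_eq_of_ip_eq, fun h => h ▸
      ((CT.irr_isCharacter χ).resLe hCG).ip_eq_mult (CT.irr_isCharacter β)⟩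
  simp only [hm]
  by_cases hb : S = ⊥
  · subst hb
    obtain rfl : C = G := hC.trans (inf_eq_left.2 (Subgroup.le_centralizer_iff.1 bot_le))
    have h1 := fun β : IrrCharacter C => CT.modCorr_self p β
    refine ⟨fun χ _ => ⟨χ, ⟨_, rfl, (h1 χ).not_dvd hp⟩, ?_⟩, ?_, ?_, fun β => ⟨β, ?_, _, rfl,
      (h1 β).not_dvd hp⟩⟩
    · rintro β ⟨_, rfl, h⟩
      exact (h1 χ).eq_of_not_dvd h
    · rintro χ - β _ rfl h
      obtain rfl := (h1 χ).eq_of_not_dvd h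
      exact (h1 β).modEq_or
    · rintro χ χ' - - β _ _ rfl h rfl h'
      exact ((h1 χ).eq_of_not_dvd h).symm.trans ((h1 χ').eq_of_not_dvd h')
    · exact CT.invBy_of_le_centralizer _ bot_le
  have := Fact.mk hp
  have H := CT.glaubP_of_isPGroup hp hS hn ((Nat.Prime.coprime_iff_not_dvd hp).1
    (hcop.symm.of_dvd_left (GT.dvd_card_of_isPGroup_of_ne_bot hS hb))) hC hCG
  refine ⟨fun χ hχ => ?_, ?_, ?_, fun β => ?_⟩
  · obtain ⟨β, hβ⟩ := H.ex χ hχ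
    refine ⟨β, ⟨_, rfl, hβ.not_dvd hp⟩, ?_⟩
    rintro γ ⟨_, rfl, h⟩
    exact hβ.eq_of_not_dvd h
  · rintro χ hχ β _ rfl h
    exact (H.modCorr_of_not_dvd hχ h).modEq_or
  · rintro χ χ' hχ hχ' β _ _ rfl h rfl h'
    exact H.inj χ χ' hχ hχ' β (H.modCorr_of_not_dvd hχ h) (H.modCorr_of_not_dvd hχ' h')
  · obtain ⟨χ, h1, h2⟩ := H.surj β
    exact ⟨χ, h1, _, rfl, h2.not_dvd hp⟩

end Cfsg.Agent.S4444
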