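import Cfsg.Statements.S4446
import Cfsg.Agent.Lib.Char.GlaubCyc
import Cfsg.Agent.Lib.Grp.Card

set_option autoImplicit false
open Cfsg

namespace Cfsg.Agent.S4446

/-- Let the finite group Γ be generated by a normal subgroup G and a cyclic subgroup S of coprime orders, C = G ⊓ C(S), and let χ be an S-invariant irreducible character of G with canonical extension χ̂ to Γ (the extension whose determinantal order is coprime to the order of S). Then there are exactly one irreducible character β of C and one sign ε such that χ̂(c s) = ε β(c) for every c ∈ C and every generator s of S; this β is a constituent of the restriction of χ to C; distinct S-invariant χ give distinct β; and every irreducible character of C arises in this way. -/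
theorem result {Γ : Type*} [Group Γ] [Fintype Γ] (G S : Subgroup Γ) [Fintype G] (hnorm : ∀ s ∈ S, ∀ g ∈ G, s * g * s⁻¹ ∈ G) (hcop : (Nat.card G).Coprime (Nat.card S)) (htop : G ⊔ S = ⊤) (hcyc : IsCyclic S) (C : Subgroup Γ) [Fintype C] (hC : C = G ⊓ Subgroup.centralizer (S : Set Γ)) (hCG : C ≤ G) : (∀ (χ : Cfsg.IrrCharacter G) (χh : Cfsg.IrrCharacter Γ), (∀ s ∈ S, ∀ g g' : G, (g' : Γ) = s * g * s⁻¹ → (χ : G → ℂ) g' = (χ : G → ℂ) g) → (∀ g : G, (χh : Γ → ℂ) g = (χ : G → ℂ) g) → (Cfsg.detOrder (χh : Γ → ℂ)).Coprime (Nat.card S) → (∃! βε : Cfsg.IrrCharacter C × ℤ, (βε.2 = 1 ∨ βε.2 = -1) ∧ ∀ c : C, ∀ s : Γ, Subgroup.zpowers s = S → (χh : Γ → ℂ) ((c : Γ) * s) = (βε.2 : ℂ) * (βε.1 : C → ℂ) c) ∧ ∀ β : Cfsg.IrrCharacter C, ∀ ε : ℤ, (ε = 1 ∨ ε = -1) → (∀ c : C, ∀ s : Γ, Subgroup.zpowers s = S → (χh : Γ → ℂ) ((c : Γ) * s) = (ε : ℂ) * (β : C → ℂ) c) → Cfsg.classInner (fun c : C =>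 (χ : G → ℂ) ⟨c, hCG c.2⟩) (β : C → ℂ) ≠ 0) ∧ (∀ (χ χ' : Cfsg.IrrCharacter G) (χh χh' : Cfsg.IrrCharacter Γ), (∀ s ∈ S, ∀ g g' : G, (g' : Γ) = s * g * s⁻¹ → (χ : G → ℂ) g' = (χ : G → ℂ) g) → (∀ s ∈ S, ∀ g g' : G, (g' : Γ) = s * g * s⁻¹ → (χ' : G → ℂ) g' = (χ' : G → ℂ) g) → (∀ g : G, (χh : Γ → ℂ) g = (χ : G → ℂ) g) → (∀ g : G, (χh' : Γ → ℂ) g = (χ' : G → ℂ) g) → (Cfsg.detOrder (χh : Γ → ℂ)).Coprime (Nat.card S) → (Cfsg.detOrder (χh' : Γ → ℂ)).Coprime (Nat.card S) → ∀ β : Cfsg.IrrCharacter C, ∀ ε ε' : ℤ, (ε = 1 ∨ ε = -1) → (ε' = 1 ∨ ε' = -1) → (∀ c : C, ∀ s : Γ, Subgroup.zpowers s = S → (χh : Γ → ℂ) ((c : Γ) * s) = (ε : ℂ) * (β : C → ℂ) c) → (∀ c : C, ∀ s : Γ, Subgroup.zpowers s = S → (χh' : Γ → ℂ) ((c : Γ) * s) = (ε' : ℂ) * (β : C → ℂ) c) → χ = χ') ∧ (∀ β : Cfsg.IrrCharacter C, ∃ (χ : Cfsg.IrrCharacter G) (χh : Cfsg.IrrCharacter Γ) (ε : ℤ), (∀ s ∈ S, ∀ g g' : G, (g' : Γ)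 = s * g * s⁻¹ → (χ : G → ℂ) g' = (χ : G → ℂ) g) ∧ (∀ g : G, (χh : Γ → ℂ) g = (χ : G → ℂ) g) ∧ (Cfsg.detOrder (χh : Γ → ℂ)).Coprime (Nat.card S) ∧ (ε = 1 ∨ ε = -1) ∧ ∀ c : C, ∀ s : Γ, Subgroup.zpowers s = S → (χh : Γ → ℂ) ((c : Γ) * s) = (ε : ℂ) * (β : C → ℂ) c) := by
  have hS : S ≤ Subgroup.normalizer (G : Set Γ) := fun s hs =>
    GT.mem_normalizer_of_conj_mem (hnorm s hs)
  have hGn : G.Normal := GT.normal_of_le_normalizer_of_sup_eq_top htop Subgroup.le_normalizer hS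
  obtain ⟨s, hs⟩ := (Subgroup.isCyclic_iff_exists_zpowers_eq_top S).1 hcyc
  have h := CT.cycSetup_of_zpowers_eq hs htop hcop hC
  have hidx : G.index = Nat.card S := GT.index_eq_card_of_disjoint_of_sup_eq_top
    (Subgroup.disjoint_of_coprime_natCard hcop) htop
  have hε0 : ∀ ε : ℤ, (ε = 1 ∨ ε = -1) → (ε : ℂ) ≠ 0 := by rintro _ (rfl | rfl) <;> simp
  refine ⟨fun χ χh _ hext hdet => ⟨?_, fun β ε hε hβ => ?_⟩,
    fun χ χ' χh χh' _ _ hext hext' _ _ β ε ε' hε hε' hβ hβ' => ?_, fun β => ?_⟩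
  · have hres : CT.res G χh.1 = χ.1 := funext hext
    have hdet' : G.index.Coprime (detOrder χh.1) := by rw [hidx]; exact hdet.symm
    obtain ⟨β, ε, hε, hβ⟩ := h.exists_corr hres hdet'
    refine ⟨(β, ε), ⟨hε, fun c t ht => ?_⟩, ?_⟩
    · exact (h.apply_of_zpowers_eq hres hdet' (ht.trans hs.symm) c).trans (hβ c)
    · rintro ⟨β', ε'⟩ ⟨hε', hβ'⟩
      have h1 : (ε' : ℂ) • β'.1 = (ε : ℂ) • β.1 :=
        funext fun c => (hβ' c s hs).symm.trans (hβ c)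
      have h2 := congrArg (fun f => CT.ip f β'.1) h1
      simp only [CT.ip_smul_left, CT.ip_irr_self, mul_one] at h2
      obtain rfl : β = β' := CT.irr_eq_of_ip_ne_zero fun h3 => hε0 _ hε' (by rw [h2, h3, mul_zero])
      rw [CT.ip_irr_self, mul_one] at h2
      obtain rfl : ε' = ε := by exact_mod_cast h2
      rfl
  · rw [CT.classInner_eq_ip]
    have h1 := h.ip_ne_zero_of_corr (CT.irr_isCharacter χh) (hε0 _ hε) fun c => hβ c s hs
    simp only [← hext]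
    exact h1
  · exact h.eq_of_corr (CT.irr_isCharacter χh) (CT.irr_isCharacter χh') (funext hext)
      (funext hext') (hε0 _ hε) (hε0 _ hε') (fun c => hβ c s hs) fun c => hβ' c s hs
  · obtain ⟨ψ, θ, ε, hres, hdet, hε, hβ⟩ := h.exists_of_irr (hs ▸ htop) β
    refine ⟨θ, ψ, ε, fun x _ g g' hg => ?_, congrFun hres, by rw [← hidx]; exact hdet.symm, hε,
      fun c t ht => (h.apply_of_zpowers_eq hres hdet (ht.trans hs.symm) c).trans (hβ c)⟩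
    rw [← hres, CT.res_apply, CT.res_apply, hg, CT.irr_isClassFunction ψ]

end Cfsg.Agent.S4446
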