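import Cfsg.Statements.S4451
import Cfsg.Agent.Lib.Char.GlaubCyc
import Cfsg.Agent.Lib.Grp.Card

set_option autoImplicit false
open Cfsg

namespace Cfsg.Agent.S4451

/-- Let the finite group Γ be generated by a normal subgroup G and a cyclic subgroup S of coprime orders such that every non-identity element of S has the same centraliser C = G ⊓ C(S) in G. Let χ be an S-invariant irreducible character of G, χ̂ its canonical extension to Γ (determinantal order coprime to the order of S), and β the irreducible character of C with χ̂(c s) = ε₀ β(c) for c ∈ C and generators s of S (ε₀ = ±1). Then there are a sign ε = ±1, which may differ from ε₀, and a linear character μ of S with μ² = 1, such that: (a) χ̂(c x) = ε β(c) μ(x) for all c ∈ C and all x ∈ S other than 1; (b) the restriction of χ to C equals |S|·ϑ + ε β for some character ϑ of C or ϑ = 0; (c) |S| divides χ(1) − ε β(1).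 -/
theorem result {Γ : Type*} [Group Γ] [Fintype Γ] (G S : Subgroup Γ) [Fintype G] (hnorm : ∀ s ∈ S, ∀ g ∈ G, s * g * s⁻¹ ∈ G) (hcop : (Nat.card G).Coprime (Nat.card S)) (htop : G ⊔ S = ⊤) (hcyc : IsCyclic S) (C : Subgroup Γ) [Fintype C] (hC : C = G ⊓ Subgroup.centralizer (S : Set Γ)) (hCG : C ≤ G) (hfpf : ∀ x ∈ S, x ≠ 1 → G ⊓ Subgroup.centralizer ({x} : Set Γ) = C) (χ : Cfsg.IrrCharacter G) (hinv : (∀ s ∈ S, ∀ g g' : G, (g' : Γ) = s * g * s⁻¹ → (χ : G → ℂ) g' = (χ : G → ℂ) g)) (χh : Cfsg.IrrCharacter Γ) (hext : (∀ g : G, (χh : Γ → ℂ) g = (χ : G → ℂ) g)) (hdet : (Cfsg.detOrder (χh : Γ → ℂ)).Coprime (Nat.card S)) (β : Cfsg.IrrCharacter C) (ε₀ : ℤ) (hε₀ : ε₀ = 1 ∨ ε₀ = -1) (hβ : ∀ c : C, ∀ s : Γ, Subgroup.zpowers s = S → (χh : Γ → ℂ) ((c : Γ) * s) = (ε₀ : ℂ) * (β : C → ℂ) c) : ∃ ε : ℤ, (ε = 1 ∨ ε = -1) ∧ (∃ μ : S → ℂ, Cfsg.IsCharacter S μ ∧ μ 1 = 1 ∧ (∀ x : S, μ x * μ x = 1)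 ∧ ∀ c : C, ∀ x : S, x ≠ 1 → (χh : Γ → ℂ) ((c : Γ) * x) = (ε : ℂ) * (β : C → ℂ) c * μ x) ∧ (∃ ϑ : C → ℂ, Cfsg.IsCharacter C ϑ ∧ (fun c : C => (χ : G → ℂ) ⟨c, hCG c.2⟩) = fun c => (Nat.card S : ℂ) * ϑ c + (ε : ℂ) * (β : C → ℂ) c) ∧ (Nat.card S : ℤ) ∣ (Cfsg.charDegree (χ : G → ℂ) : ℤ) - ε * (Cfsg.charDegree (β : C → ℂ) : ℤ) := by
  have hS : S ≤ Subgroup.normalizer (G : Set Γ) := fun s hs =>
    GT.mem_normalizer_of_conj_mem (hnorm s hs)
  have hGn : G.Normal := GT.normal_of_le_normalizer_of_sup_eq_top htop Subgroup.le_normalizer hS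
  obtain ⟨s, hs⟩ := (Subgroup.isCyclic_iff_exists_zpowers_eq_top S).1 hcyc
  have hidx : G.index = Nat.card S := GT.index_eq_card_of_disjoint_of_sup_eq_top
    (Subgroup.disjoint_of_coprime_natCard hcop) htop
  have key : ∃ ε : ℤ, (ε = 1 ∨ ε = -1) ∧ (∃ μ : S → ℂ, Cfsg.IsCharacter S μ ∧ μ 1 = 1 ∧
      (∀ x : S, μ x * μ x = 1) ∧ ∀ c : C, ∀ x : S, x ≠ 1 →
        (χh : Γ → ℂ) ((c : Γ) * x) = (ε : ℂ) * (β : C → ℂ) c * μ x) ∧
      ∃ ϑ : C → ℂ, Cfsg.IsCharacter C ϑ ∧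
        ∀ c : C, (χh : Γ → ℂ) c = (Nat.card S : ℂ) * ϑ c + (ε : ℂ) * (β : C → ℂ) c := by
    by_cases hs1 : s = 1
    · subst hs1
      refine ⟨ε₀, hε₀, ⟨fun _ => 1, CT.isCharacter_one, rfl, fun _ => mul_one _, fun c x hx => ?_⟩,
        0, CT.isCharacter_zero, fun c => ?_⟩
      · refine absurd (Subtype.ext ?_) hx
        exact Subgroup.mem_bot.1 ((hs.symm.trans Subgroup.zpowers_one_eq_bot).le x.2)
      · simpa using hβ c 1 hs
    · obtain ⟨ε, μ, hε, h1, h2, h3, h4⟩ := CT.exists_decomp_of_forall_cycSetup (j := C.subtype)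
        (fun x hx hx1 => CT.cycSetup_of_eq (by rwa [hidx])
          (hcop.of_dvd_right (S.orderOf_dvd_natCard hx)) (hfpf x hx hx1).symm) hs hs1
        (funext hext) (by rw [hidx]; exact hdet.symm) hε₀ fun c => hβ c s hs
      exact ⟨ε, hε, ⟨μ.1, CT.irr_isCharacter μ, h1, h2, h3⟩, h4⟩
  obtain ⟨ε, hε, h1, ϑ, hϑ, h2⟩ := key
  refine ⟨ε, hε, h1, ⟨ϑ, hϑ, funext fun c => by rw [← hext]; exact h2 c⟩, charDegree ϑ, ?_⟩
  have h3 := h2 1
  rw [OneMemClass.coe_one, show (χh : Γ → ℂ) 1 = (χ : G → ℂ) 1 from hext 1, CT.irr_apply_one,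
    CT.irr_apply_one, hϑ.apply_one] at h3
  have h4 : (charDegree χ.1 : ℤ) = Nat.card S * charDegree ϑ + ε * charDegree β.1 := by
    exact_mod_cast h3
  rw [h4]; ring

end Cfsg.Agent.S4451
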