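import Cfsg.Statements.S4452
import Cfsg.Agent.Lib.Char.GlaubUp

set_option autoImplicit false
open Cfsg

namespace Cfsg.Agent.S4452

/-- Let the finite group G be the product of a normal subgroup K and a solvable subgroup H of coprime orders, and let N = N_G(H). Then the number of irreducible characters of G of degree coprime to the order of H equals the number of irreducible characters of N of degree coprime to the order of H. (The two sets are in fact in a canonical bijection; only the equality of their sizes is stated here.) -/
theorem result {G : Type*} [Group G] [Finite G] (K H : Subgroup G) [K.Normal] (hKH : K ⊔ H = ⊤) (hcop : (Nat.card K).Coprime (Nat.card H)) (hsolv : Group.IsSolvable H) : Nat.card {χ : Cfsg.IrrCharacter G // (Cfsg.charDegree (χ : G → ℂ)).Coprime (Nat.card H)} = Nat.card {η : Cfsg.IrrCharacter (Subgroup.normalizer (H : Set G)) // (Cfsg.charDegree (η : Subgroup.normalizer (H : Set G) → ℂ)).Coprime (Nat.card H)} := by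
  set N := Subgroup.normalizer (H : Set G) with hN
  have hHN : H ≤ N := Subgroup.le_normalizer
  have e := Subgroup.subgroupOfEquivOfLe hHN
  have := GT.isSolvable_subgroupOf H N
  have h1 : K.subgroupOf N ⊔ H.subgroupOf N = ⊤ := by
    rw [← Subgroup.inf_subgroupOf_right K N]
    refine GT.subgroupOf_sup_eq_top ?_
    rw [sup_comm, ← GT.sup_inf_assoc_of_le_normalizer hHN
      (.inl (by rw [Subgroup.normalizer_eq_top]; exact le_top)), sup_comm, hKH, top_inf_eq]
  have h2 := CT.card_degree_coprime_of_sup_eq_top h1 ((hcop.of_dvd_left (by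
    rw [GT.card_subgroupOf]; exact Subgroup.card_dvd_of_le inf_le_left)).of_dvd_right
    (Nat.card_congr e.toEquiv).dvd)
  rw [Nat.card_congr e.toEquiv] at h2
  rw [h2, CT.card_degree_coprime_of_sup_eq_top hKH hcop, ← Subgroup.index_map_equiv _ e,
    map_commutator_eq, MonoidHom.range_eq_top.2 e.surjective, ← commutator_def]
  congr 1
  have h3 : K ⊓ Subgroup.centralizer (H : Set G) ≤ N :=
    inf_le_right.trans (Subgroup.centralizer_le_normalizer _)
  have h4 : K.subgroupOf N ⊓ Subgroup.centralizer (H.subgroupOf N : Set N) =
      (K ⊓ Subgroup.centralizer (H : Set G)).subgroupOf N := by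
    ext x
    simp only [Subgroup.mem_inf, Subgroup.mem_subgroupOf, Subgroup.mem_centralizer_iff,
      SetLike.mem_coe]
    exact and_congr_right' ⟨fun h y hy => congrArg Subtype.val (h ⟨y, hHN hy⟩ hy),
      fun h y hy => Subtype.ext (h y hy)⟩
  rw [h4]
  exact Nat.card_congr (CT.irrOf h3)

end Cfsg.Agent.S4452
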