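import Cfsg.Statements.S4453
import Cfsg.Agent.Lib.Char.IsaacsCorr

set_option autoImplicit false
open Cfsg

namespace Cfsg.Agent.S4453

/-- Inside a finite group Γ let S normalise the solvable subgroup G of odd order with the orders of G and S coprime, let C = G ⊓ C(S), and let L ≤ K be S-invariant normal subgroups of G with K/L abelian, G = KC and H = LC (so C ≤ H ≤ G). Then for each S-invariant irreducible character χ of G there is exactly one S-invariant irreducible character ψ of H whose multiplicity in the restriction of χ to H is odd, and χ ↦ ψ is a bijection from the S-invariant irreducible characters of G onto those of H (distinct χ give distinct ψ, and every S-invariant ψ arises). -/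
theorem result {Γ : Type*} [Group Γ] [Fintype Γ] (G S : Subgroup Γ) [Fintype G] (hnorm : ∀ s ∈ S, ∀ g ∈ G, s * g * s⁻¹ ∈ G) (hcop : (Nat.card G).Coprime (Nat.card S)) (hGsolv : Group.IsSolvable G) (hodd : Odd (Nat.card G)) (C : Subgroup Γ) [Fintype C] (hC : C = G ⊓ Subgroup.centralizer (S : Set Γ)) (hCG : C ≤ G) (K L H : Subgroup Γ) [Fintype H] (hLK : L ≤ K) (hKG : K ≤ G) (hKn : ∀ g ∈ G, ∀ k ∈ K, g * k * g⁻¹ ∈ K) (hLn : ∀ g ∈ G, ∀ l ∈ L, g * l * g⁻¹ ∈ L) (hKS : ∀ s ∈ S, ∀ k ∈ K, s * k * s⁻¹ ∈ K) (hLS : ∀ s ∈ S, ∀ l ∈ L, s * l * s⁻¹ ∈ L) (hab : ∀ a ∈ K, ∀ b ∈ K, a * b * a⁻¹ * b⁻¹ ∈ L) (hGKC : K ⊔ C = G) (hH : H = L ⊔ C) (hHG : H ≤ G) : (∀ χ : Cfsg.IrrCharacter G, (∀ s ∈ S, ∀ g g' : G, (g' : Γ) = s * g * s⁻¹ → (χ : G → ℂ) g' = (χ : G → ℂ) g) → ∃! ψ : Cfsg.IrrCharacter H, (∀ s ∈ S, ∀ g g' : H, (g' : Γ) = s * g * s⁻¹ → (ψ :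 H → ℂ) g' = (ψ : H → ℂ) g) ∧ ∃ m : ℕ, Cfsg.classInner (fun h : H => (χ : G → ℂ) ⟨h, hHG h.2⟩) (ψ : H → ℂ) = (m : ℂ) ∧ Odd m) ∧ (∀ χ χ' : Cfsg.IrrCharacter G, (∀ s ∈ S, ∀ g g' : G, (g' : Γ) = s * g * s⁻¹ → (χ : G → ℂ) g' = (χ : G → ℂ) g) → (∀ s ∈ S, ∀ g g' : G, (g' : Γ) = s * g * s⁻¹ → (χ' : G → ℂ) g' = (χ' : G → ℂ) g) → ∀ ψ : Cfsg.IrrCharacter H, (∀ s ∈ S, ∀ g g' : H, (g' : Γ) = s * g * s⁻¹ → (ψ : H → ℂ) g' = (ψ : H → ℂ) g) → ∀ m m' : ℕ, Cfsg.classInner (fun h : H => (χ : G → ℂ) ⟨h, hHG h.2⟩) (ψ : H → ℂ) = (m : ℂ) → Odd m → Cfsg.classInner (fun h : H => (χ' : G → ℂ) ⟨h, hHG h.2⟩) (ψ : H → ℂ) = (m' : ℂ) → Odd m' → χ = χ') ∧ (∀ ψ : Cfsg.IrrCharacter H, (∀ s ∈ S, ∀ g g' : H, (g' : Γ) = s * g * s⁻¹ → (ψ : H → ℂ) g' = (ψ : H → ℂ) g) → ∃ χ : Cfsg.IrrCharacter G, (∀ s ∈ S, ∀ g g' : G, (g' : Γ) = s * g * s⁻¹ → (χ : G → ℂ) g' =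 (χ : G → ℂ) g) ∧ ∃ m : ℕ, Cfsg.classInner (fun h : H => (χ : G → ℂ) ⟨h, hHG h.2⟩) (ψ : H → ℂ) = (m : ℂ) ∧ Odd m) := by
  have hSG : S ≤ Subgroup.normalizer (G : Set Γ) := fun s hs =>
    GT.mem_normalizer_of_conj_mem (hnorm s hs)
  have hSL : S ≤ Subgroup.normalizer (L : Set Γ) := fun s hs =>
    GT.mem_normalizer_of_conj_mem (hLS s hs)
  have A : GT.CoprimeAct S G := ⟨hSG, hcop, .inl hGsolv⟩
  have hCK : C ≤ Subgroup.normalizer (K : Set Γ) := fun c hc =>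
    GT.mem_normalizer_of_conj_mem (hKn c (hCG hc))
  have hCL : C ≤ Subgroup.normalizer (L : Set Γ) := fun c hc =>
    GT.mem_normalizer_of_conj_mem (hLn c (hCG hc))
  have key : ∀ {U : Subgroup Γ}, C ≤ Subgroup.normalizer (U : Set Γ) →
      (∀ s ∈ S, ∀ k ∈ U, s * k * s⁻¹ ∈ U) → ∀ g ∈ U ⊔ C, ∀ s ∈ S, g * s * g⁻¹ * s⁻¹ ∈ U := by
    intro U h1 h2 g hg s hs
    obtain ⟨k, hk, c, hc, rfl⟩ := (GT.mem_sup_of_le_normalizer_left h1).1 hg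
    have h3 : s * c = c * s := (hC.le hc).2 s hs
    have := mul_mem hk (h2 s hs _ (inv_mem hk))
    convert this using 1
    rw [mul_assoc k, ← h3]
    group
  have hGS : ⁅G, S⁆ ≤ K := Subgroup.commutator_le.2 fun g hg => key hCK hKS g (hGKC.ge hg)
  have I : CT.IsaacsHyp S G L H := by
    refine ⟨A, hodd, hLK.trans hKG, fun g hg => GT.mem_normalizer_of_conj_mem (hLn g hg), hSL,
      (Subgroup.commutator_mono hGS hGS).trans (Subgroup.commutator_le.2 hab), fun g =>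
      ⟨fun hg => ⟨hHG hg, key hCL hLS g (hH.le hg)⟩, fun ⟨hg, h⟩ => ?_⟩⟩
    obtain ⟨l, hl, h1⟩ := (A.of_le (hLK.trans hKG) hSL).exists_mul_mem_centralizer (x := g⁻¹)
      fun s hs => by simpa [commutatorElement_def, mul_assoc] using h s hs
    have h2 : g⁻¹ * l ∈ C := hC.ge ⟨G.mul_mem (G.inv_mem hg) (hKG (hLK hl)), h1⟩
    have := mul_mem (Subgroup.mem_sup_left hl : l ∈ L ⊔ C) ((L ⊔ C).inv_mem (Subgroup.mem_sup_right h2))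
    simpa [hH] using this
  have R := I.relBij
  have e : ∀ (χ : IrrCharacter G) (ψ : IrrCharacter H), (∃ m : ℕ, Cfsg.classInner (fun h : H =>
      (χ : G → ℂ) ⟨h, hHG h.2⟩) (ψ : H → ℂ) = (m : ℂ) ∧ Odd m) ↔ CT.OddRel hHG χ ψ := fun χ ψ => by
    have h1 := ((CT.irr_isCharacter χ).resLe hHG).ip_eq_mult (CT.irr_isCharacter ψ)
    rw [CT.classInner_eq_ip]
    exact ⟨fun ⟨m, h2, h3⟩ => by rwa [← CT.mult_eq_of_ip_eq h2] at h3,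
      fun h => ⟨_, h1, h⟩⟩
  refine ⟨fun χ hχ => ?_, fun χ χ' hχ hχ' ψ hψ m m' h1 h2 h3 h4 =>
    R.inj χ χ' ψ hχ hχ' hψ ((e χ ψ).1 ⟨m, h1, h2⟩) ((e χ' ψ).1 ⟨m', h3, h4⟩), fun ψ hψ => ?_⟩
  · obtain ⟨ψ, h1, h2⟩ := R.ex χ hχ
    exact ⟨ψ, ⟨h1, (e χ ψ).2 h2⟩, fun ψ' h3 => R.uniq χ ψ' ψ hχ h3.1 h1 ((e χ ψ').1 h3.2) h2⟩
  · obtain ⟨χ, h1, h2⟩ := R.surj ψ hψ
    exact ⟨χ, h1, (e χ ψ).2 h2⟩

end Cfsg.Agent.S4453
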