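import Cfsg.Statements.S4454
import Cfsg.Agent.Lib.Char.GlaubCyc
import Cfsg.Agent.Lib.Grp.Card

set_option autoImplicit false
open Cfsg

namespace Cfsg.Agent.S4454

/-- Let N ≤ G be normal subgroups of the finite group Γ with Γ/G cyclic and Γ/N a Frobenius group with kernel G/N: G ≠ Γ, N ≠ G, and no element of Γ outside G fixes a non-identity coset of N in G under conjugation. Let ϑ be an irreducible character of N invariant under conjugation by Γ and suppose ϑ is fully ramified in G: the character of G induced from ϑ equals e·χ for an irreducible character χ of G and a natural number e. Then the index of G in Γ divides e − 1 or e + 1. -/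
theorem result {Γ : Type*} [Group Γ] [Fintype Γ] (G N : Subgroup Γ) [hG : G.Normal] [hN : N.Normal] [Fintype G] [Fintype N] (hNG : N ≤ G) (hGlt : G ≠ ⊤) (hNlt : N ≠ G) (hcyc : IsCyclic (Γ ⧸ G)) (hfrob : ∀ x : Γ, x ∉ G → ∀ g : Γ, g ∈ G → x * g * x⁻¹ * g⁻¹ ∈ N → g ∈ N) (θ : Cfsg.IrrCharacter N) (hinv : ∀ (x : Γ) (n : N), (θ : N → ℂ) ⟨x * n * x⁻¹, hN.conj_mem n n.2 x⟩ = (θ : N → ℂ) n) (χ : Cfsg.IrrCharacter G) (e : ℕ) (hram : Cfsg.indFun (N.subgroupOf G) (fun n : N.subgroupOf G => (θ : N → ℂ) ⟨(n : G), n.2⟩) = fun g => (e : ℂ) * (χ : G → ℂ) g) : (G.index : ℤ) ∣ (e : ℤ) - 1 ∨ (G.index : ℤ) ∣ (e : ℤ) + 1 := by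
  classical
  obtain ⟨s, hs⟩ : ∃ s : Γ, Subgroup.zpowers s ⊔ G = ⊤ := by
    obtain ⟨q, hq⟩ := hcyc.exists_generator
    obtain ⟨s, rfl⟩ := QuotientGroup.mk_surjective q
    refine ⟨s, GT.map_mk'_eq_top_iff.1 ?_⟩
    rw [MonoidHom.map_zpowers, eq_top_iff]
    exact fun x _ => hq x
  have hsG : s ∉ G := fun h => hGlt (by rwa [sup_eq_right.2 (Subgroup.zpowers_le.2 h)] at hs)
  let H : Subgroup Γ := N ⊔ Subgroup.zpowers s
  have hNH : N ≤ H := le_sup_left
  have hHG : G ⊓ H = N := by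
    refine le_antisymm ?_ (le_inf hNG hNH)
    rintro x ⟨hxG, hxH⟩
    obtain ⟨n, hn, y, hy, rfl⟩ := (GT.mem_sup_of_le_normalizer_left
      (by rw [Subgroup.normalizer_eq_top]; exact le_top)).1 hxH
    refine mul_mem hn (hfrob s hsG y ((G.mul_mem_cancel_left (hNG hn)).1 hxG) ?_)
    obtain ⟨k, rfl⟩ := hy
    simp only [show s * s ^ k * s⁻¹ * (s ^ k)⁻¹ = 1 by group, one_mem]
  have hcard : Nat.card (H ⧸ N.subgroupOf H) = G.index := by
    rw [← Subgroup.index_eq_card, GT.index_eq_relIndex_of_sup_eq_top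
      (H := H) (by rw [eq_top_iff, ← hs]; exact sup_le_sup_right le_sup_right _),
      ← Subgroup.inf_relIndex_right G H, hHG]
    rfl
  have hθ : ∀ x : Γ, x • θ = θ := fun x => CT.conjSmul_eq_iff_mk.2 (hinv x)
  rw [CT.indFun_eq_ind] at hram
  obtain ⟨h1, h2⟩ := CT.fullyRamified_of_ind_eq_smul (θ := CT.irrOf hNG θ) (χ := χ)
    (CT.forall_smul_irrOf hNG fun t _ => hθ t) hram
  have h3 := (CT.res_subgroupOf_eq_smul_irrOf_iff hNG).1 h1
  have hχ : ∀ x : Γ, x • χ = χ := fun x => by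
    refine (CT.fullyRamified_iff_unique h1).1 h2 _ ((CT.liesOver_irrOf_iff hNG).2 ?_)
    conv_rhs => rw [← hθ x]
    exact (CT.liesOverLe_smul_iff hNG x χ θ).2 ((CT.liesOver_irrOf_iff hNG).1
      (CT.liesOver_of_res_eq_smul (CT.ne_zero_of_res_eq_smul h1) h1))
  obtain ⟨χh, hχh⟩ := CT.exists_extension_of_isCyclic G χ (CT.forall_smul_iff.1 hχ)
  have : IsCyclic (H ⧸ N.subgroupOf H) := CT.isCyclic_quotient_of_sup_zpowers_eq_top
    (g := ⟨s, Subgroup.mem_sup_right (Subgroup.mem_zpowers s)⟩) (by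
      rw [← Subgroup.map_subtype_inj, Subgroup.map_sup, MonoidHom.map_zpowers,
        Subgroup.map_subgroupOf_eq_of_le hNH, ← MonoidHom.range_eq_map, Subgroup.range_subtype]
      rfl)
  obtain ⟨θh, hθh⟩ := CT.exists_extension_le_of_isCyclic hNH θ fun x _ =>
    CT.isConjCharOf_iff_smul.2 (hθ x)
  have hθh' := (CT.res_subgroupOf_eq_irrOf_iff hNH).2 hθh
  obtain ⟨η, hη, h4⟩ := CT.exists_eq_comp_mk_mul (CT.irr_isCharacter θh) hθh'
    ((CT.irr_isCharacter χh).res H) (e := e) ((CT.res_subgroupOf_eq_smul_irrOf_iff hNH).2 (by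
      rw [CT.resLe_res, ← h3, ← hχh, CT.resLe_res]))
  have h5 : charDegree η = e := by
    refine CT.charDegree_eq_of_apply_one (mul_right_cancel₀ (CT.irr_apply_one_ne_zero θ) ?_)
    have h6 := h4 1
    have h7 := congrFun h3 1
    have h8 := congrFun hχh 1
    have h9 := congrFun hθh 1
    exact (congrArg (η 1 * ·) h9).symm.trans (h6.symm.trans (h8.trans h7))
  have : Nontrivial (H ⧸ N.subgroupOf H) := Finite.one_lt_card_iff_nontrivial.1 (by
    rw [hcard]; exact Subgroup.one_lt_index_of_ne_top hGlt)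
  obtain ⟨a, ε, -, hε, -, h6⟩ := hη.exists_eq_of_norm_eq_one fun q hq => by
    obtain ⟨x, rfl⟩ := QuotientGroup.mk_surjective q
    have hx : (x : Γ) ∉ G := fun h => hq ((QuotientGroup.eq_one_iff _).2 (hHG.le ⟨h, x.2⟩))
    have hr : (H.subtype.comp (N.subgroupOf H).subtype).range = N := by
      rw [MonoidHom.range_comp, Subgroup.range_subtype, Subgroup.map_subgroupOf_eq_of_le hNH]
    have h7 := CT.sum_coset_eq_of_ti (N := G) (H.subtype.comp (N.subgroupOf H).subtype)
      (H.subtype_injective.comp (Subgroup.subtype_injective _)) (hr.le.trans hNG) x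
      (fun h hh d d' hd => by
        rw [hr]
        refine hfrob x hx h hh ?_
        have h8 : (x : Γ) * h * (x : Γ)⁻¹ * h⁻¹ = ((d' : H) : Γ)⁻¹ * (h * ((d : H) : Γ) * h⁻¹) := by
          have h9 : ((d' : H) : Γ) = h * (((d : H) : Γ) * x) * h⁻¹ * (x : Γ)⁻¹ :=
            eq_mul_inv_of_mul_eq hd.symm
          rw [h9]; group
        rw [h8]
        exact mul_mem (inv_mem d'.2) (hN.conj_mem _ d.2 h))
      ((CT.irr_isClassFunction χh).mul (CT.irr_isClassFunction χh).cbar)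
    have h8 := CT.sum_coset_mul_conj_of_res_irr (CT.irr_isCharacter χh) hχh x
    have h9 := CT.sum_coset_mul_conj_of_res_irr (CT.irr_isCharacter θh) hθh' x
    have h10 : ∀ d : N.subgroupOf H, (χh.1 * CT.cbar χh.1)
        ((H.subtype.comp (N.subgroupOf H).subtype) d * x) =
        η x * (starRingEnd ℂ) (η x) * (θh.1 (x * d) * (starRingEnd ℂ) (θh.1 (x * d))) := by
      intro d
      have h11 := h4 (x * d)
      rw [QuotientGroup.mk_mul_of_mem _ d.2] at h11
      rw [Pi.mul_apply, CT.cbar_apply, (CT.irr_isClassFunction χh).mul_comm]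
      rw [show χh.1 (x * (H.subtype.comp (N.subgroupOf H).subtype) d) = η x * θh.1 (x * d) from h11,
        map_mul]
      ring
    simp only [h10, ← Finset.mul_sum, h9] at h7
    simp only [Pi.mul_apply, CT.cbar_apply, (CT.irr_isClassFunction χh).mul_comm _ x, h8] at h7
    have h11 : (Nat.card G : ℂ) * Nat.card (N.subgroupOf H) ≠ 0 :=
      mul_ne_zero CT.card_cast_ne_zero CT.card_cast_ne_zero
    refine mul_left_cancel₀ h11 ?_
    linear_combination -h7
  rw [h5, hcard] at h6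
  rcases hε with rfl | rfl
  · exact .inl ⟨a, by linarith⟩
  · exact .inr ⟨a, by linarith⟩

end Cfsg.Agent.S4454
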