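import Cfsg.Statements.S4457
import Cfsg.Agent.Lib.Char.RelDeg2

set_option autoImplicit false
open Cfsg

namespace Cfsg.Agent.S4457

open CT MulAction

theorem frob_case {G : Type*} [Group G] [Finite G] {m : ℕ}
    (hcd : ∀ χ : IrrCharacter G, charDegree χ.1 = 1 ∨ charDegree χ.1 = m) {K : Subgroup G}
    (hK : IsMaxNonab K) (hF : FrobSec K (commutator G ⊔ K)) :
    ∃ A : Subgroup G, A.Normal ∧ (∀ a ∈ A, ∀ b ∈ A, a * b = b * a) ∧ A.index = m := by
  set N := commutator G ⊔ K with hN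
  have := hF.normalN
  have hne : K ≠ N := hK.isChief.lt.ne
  obtain ⟨ψ, hψ, hψ1⟩ := hK.exists_irr
  have hf : charDegree ψ.1 = N.index := hF.degree_eq_index hψ.ge fun h =>
    hK.not_le (le_sup_left.trans (h.trans hψ.le))
  have hm : N.index = m := hf ▸ (hcd ψ).resolve_left hψ1
  refine ⟨N, this, GT.isMulCommutative_iff_forall.1
    (isMulCommutative_iff_forall_degree_one.2 fun θ => ?_), hm⟩
  rcases hF.mem_charDegrees_or_dvd θ with ⟨χ, h⟩ | h
  · rcases hcd χ with e | e
    · exact Nat.eq_one_of_mul_eq_one_left (h ▸ e)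
    · rw [e, ← hm] at h
      exact (Nat.mul_eq_left (GT.index_pos N).ne').1 h.symm
  · obtain ⟨χ, hχ⟩ := exists_degree_dvd_of_normal θ
    rcases hcd χ with e | e
    · exact Nat.dvd_one.1 (e ▸ hχ)
    · rw [e, ← hm] at hχ
      have h1 := Nat.Coprime.eq_one_of_dvd ((hF.coprime.coprime_dvd_right hχ).pow_right 2) h
      have h2 := hF.index_lt hne
      have h3 := GT.index_pos N
      omega

/-- Let G be a finite group whose irreducible character degrees are exactly 1 and m (m ≠ 1). Then either G has an abelian normal subgroup of index m, or m is a power of a prime p and G is the direct product of a p-group and an abelian group: there are normal subgroups P and A with P a p-group, A abelian, P ⊓ A = 1 and P ⊔ A = G. -/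
theorem result {G : Type*} [Group G] [Finite G] (m : ℕ) (hcd : ∀ χ : Cfsg.IrrCharacter G, Cfsg.charDegree (χ : G → ℂ) = 1 ∨ Cfsg.charDegree (χ : G → ℂ) = m) (hm : ∃ χ : Cfsg.IrrCharacter G, Cfsg.charDegree (χ : G → ℂ) = m) (hm1 : m ≠ 1) : (∃ A : Subgroup G, A.Normal ∧ (∀ a ∈ A, ∀ b ∈ A, a * b = b * a) ∧ A.index = m) ∨ ∃ p e : ℕ, p.Prime ∧ m = p ^ e ∧ ∃ P A : Subgroup G, P.Normal ∧ A.Normal ∧ IsPGroup p P ∧ (∀ a ∈ A, ∀ b ∈ A, a * b = b * a) ∧ P ⊓ A = ⊥ ∧ P ⊔ A = ⊤ := by
  have h2 := derivedSeries_eq_bot_of_ncard_le_three (by norm_num) (ncard_charDegrees_le_two hcd)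
  have hG' : ⁅commutator G, commutator G⁆ = ⊥ := h2
  have pcase : ∀ (K : Subgroup G) [K.Normal], IsMaxNonab K → ∀ p : ℕ, p.Prime →
      IsPGroup p (G ⧸ K) → ∃ e, m = p ^ e := by
    intro K _ hK p hp h1
    have := Fact.mk hp
    obtain ⟨ψ, hψ, hψ1⟩ := hK.exists_irr
    obtain ⟨φ, rfl⟩ := (exists_inflate_eq_iff K ψ).2 hψ.ge
    obtain ⟨e, he⟩ := exists_degree_eq_pow_of_isPGroup h1 φ
    exact ⟨e, by rw [← (hcd _).resolve_left hψ1, charDegree_inflate, he]⟩
  obtain ⟨χ, hχ⟩ := hm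
  obtain ⟨K, hK⟩ := exists_isMaxNonab (G := G) fun h =>
    hm1 (hχ ▸ isMulCommutative_iff_forall_degree_one.1 h χ)
  have := hK.normal
  rcases hK.dichotomy (hG' ▸ bot_le) with ⟨p, hp, h1, -⟩ | hF
  swap
  · exact Or.inl (frob_case hcd hK hF)
  have := Fact.mk hp
  obtain ⟨e, he⟩ := pcase K hK p hp h1
  have hpm : p ∣ m := he ▸ dvd_pow_self p (by rintro rfl; exact hm1 he)
  have hN := hasNormalPComplement_of_degrees (p := p) fun ψ hψ =>
    (hcd ψ).resolve_left hψ ▸ hpm
  obtain ⟨P⟩ : Nonempty (Sylow p G) := inferInstance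
  set A := pPrimeCore p G with hA
  have hAP : A ⊔ P = ⊤ := (GT.hasNormalPComplement_iff_sup_eq_top P).1 hN
  have hpA : ¬ p ∣ Nat.card A := GT.not_dvd_card_pPrimeCore p G
  have hd : Disjoint (P : Subgroup G) A := GT.disjoint_of_isPGroup_of_not_dvd P.isPGroup' hpA
  have hAc : IsMulCommutative A := isMulCommutative_iff_forall_degree_one.2 fun θ => by
    obtain ⟨ψ, hψ⟩ := exists_degree_dvd_of_normal θ
    rcases hcd ψ with e | e
    · exact Nat.dvd_one.1 (e ▸ hψ)
    · rw [e, he] at hψ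
      exact Nat.Coprime.eq_one_of_dvd (((Nat.Prime.coprime_iff_not_dvd hp).2 fun h =>
        hpA (h.trans (irr_degree_dvd_card θ))).symm.pow_right _) hψ
  have hco : GT.CoprimeAct (P : Subgroup G) A :=
    GT.coprimeAct_of_isPGroup_left Subgroup.le_normalizer_of_normal P.isPGroup' hpA
  have hPP : ⁅(P : Subgroup G), (P : Subgroup G)⁆ ≤ P := der_succ_le (P : Subgroup G) 0
  have h3 : A ≤ Subgroup.centralizer ((⁅(P : Subgroup G), (P : Subgroup G)⁆ : Subgroup G) : Set G) := by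
    rw [← hco.inf_centralizer_sup_commutator]
    refine sup_le (inf_le_right.trans (GT.centralizer_anti hPP)) ?_
    rw [← Subgroup.commutator_eq_bot_iff_le_centralizer, eq_bot_iff, ← hG']
    exact Subgroup.commutator_mono (Subgroup.commutator_mono le_top le_top)
      (Subgroup.commutator_mono le_top le_top)
  have h4 : (⁅(P : Subgroup G), (P : Subgroup G)⁆).Normal :=
    GT.normal_of_le_normalizer_of_sup_eq_top hAP
      (h3.trans (Subgroup.centralizer_le_normalizer _))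
      (GT.le_normalizer_commutator Subgroup.le_normalizer Subgroup.le_normalizer)
  by_cases h5 : commutator G ≤ ⁅(P : Subgroup G), (P : Subgroup G)⁆
  · refine Or.inr ⟨p, e, hp, he, P, A, ⟨fun x hx g => ?_⟩, inferInstance, P.isPGroup',
      GT.isMulCommutative_iff_forall.1 hAc, disjoint_iff.1 hd, by rw [sup_comm, hAP]⟩
    have h6 := mul_mem (hPP (h5 (Subgroup.commutator_mem_commutator (Subgroup.mem_top g)
      (Subgroup.mem_top x)))) hx
    rwa [commutatorElement_def, inv_mul_cancel_right] at h6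
  obtain ⟨K₁, hK₁, h6⟩ := exists_isMaxNonab_ge h4 h5
  have := hK₁.normal
  rcases hK₁.dichotomy (hG' ▸ bot_le) with ⟨q, hq, h7, -⟩ | hF
  swap
  · exact Or.inl (frob_case hcd hK₁ hF)
  exfalso
  obtain ⟨f, hf⟩ := pcase K₁ hK₁ q hq h7
  obtain rfl : p = q := (Nat.prime_dvd_prime_iff_eq hp hq).1 (hp.dvd_of_dvd_pow (hf ▸ hpm))
  have h8 : A ≤ K₁ := GT.le_of_coprime_card_index (h7.coprime_card hpA).symm
  have h9 : (P : Subgroup G).map (QuotientGroup.mk' K₁) = ⊤ :=
    GT.map_mk'_eq_top_iff.2 (eq_top_iff.2 (hAP ▸ sup_le (h8.trans le_sup_right) le_sup_left))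
  refine hK₁.quotient_ne ?_
  rw [commutator_def, ← h9, ← Subgroup.map_commutator, GT.map_mk'_eq_bot_iff]
  exact h6

end Cfsg.Agent.S4457
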