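import Cfsg.Statements.S4459
import Cfsg.Agent.S4457
import Cfsg.Agent.Lib.Char.DegGraph
import Cfsg.Agent.Lib.Grp.CyclicExt

set_option autoImplicit false
open Cfsg

namespace Cfsg.Agent.S4459

open CT MulAction
open scoped commutatorElement

theorem eq_of_le_of_index_eq {G : Type*} [Group G] [Finite G] {A B : Subgroup G} (h : A ≤ B)
    (e : A.index = B.index) : A = B := by
  refine Subgroup.eq_of_le_of_card_ge h (Nat.eq_of_mul_eq_mul_left (GT.index_pos B) ?_).le
  rw [B.index_mul_card, ← e, A.index_mul_card]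

theorem cover {V : Type*} [Group V] [Finite V] [IsMulCommutative V] {p : ℕ} (hp : p.Prime)
    {E : Subgroup V} (hE : Nat.card E = p) (D : ℕ → Subgroup V) (hD : ∀ j, p ∣ Nat.card (D j))
    (h : ∀ θ : IrrCharacter V, ¬ E ≤ ker θ.1 → ∃ j < p, D j ≤ ker θ.1) {j : ℕ} (hj : j < p) :
    Nat.card (D j) = p ∧ ¬ E ≤ D j := by
  classical
  have hn : ∀ M : Subgroup V, M.Normal := fun M => inferInstance
  have hc : ∀ M : Subgroup V,
      (Finset.univ.filter fun θ : IrrCharacter V => M ≤ ker θ.1).card = M.index := fun M => by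
    rw [← card_le_ker_of_commutator_le (N := M) (by
      rw [commutator_eq_bot_iff_forall_degree_one.2 irr_degree_eq_one_of_isMulCommutative]
      exact bot_le), Nat.card_eq_fintype_card, Fintype.card_subtype]
  let s : ℕ → Finset (IrrCharacter V) := fun j =>
    Finset.univ.filter fun θ => D j ≤ ker θ.1 ∧ ¬ E ≤ ker θ.1
  have hs : ∀ j, (s j).card + (D j ⊔ E).index = (D j).index := fun j => by
    rw [← hc, ← hc, ← Finset.card_filter_add_card_filter_not
      (s := Finset.univ.filter fun θ : IrrCharacter V => D j ≤ ker θ.1)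
      (fun θ : IrrCharacter V => E ≤ ker θ.1), Finset.filter_filter, Finset.filter_filter, add_comm]
    simp only [sup_le_iff, s]
  have h1 : ∀ j, (D j).index ≤ p * (D j ⊔ E).index := fun j => by
    have h1 := (D j).index_mul_card.trans (D j ⊔ E).index_mul_card.symm
    have h2 := Nat.le_of_dvd (Nat.mul_pos Nat.card_pos Nat.card_pos) (GT.card_sup_dvd (D j) E)
    rw [hE] at h2
    refine Nat.le_of_mul_le_mul_right ?_ (Nat.card_pos (α := D j))
    rw [h1]
    nlinarith
  have h2 : ∀ j, p * (D j).index ≤ Nat.card V := fun j => by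
    rw [← (D j).index_mul_card, mul_comm]
    exact Nat.mul_le_mul_left _ (Nat.le_of_dvd Nat.card_pos (hD j))
  obtain ⟨q, rfl⟩ : ∃ q, p = q + 1 := ⟨p - 1, (Nat.succ_pred_eq_of_pos hp.pos).symm⟩
  have hq : 0 < q := by have := hp.two_le; omega
  have h3 : ∀ j, (q + 1) * (s j).card ≤ q * (D j).index := fun j => by
    have := hs j
    have := h1 j
    nlinarith
  have h4 : ∀ j, (q + 1) * (q + 1) * (s j).card ≤ q * Nat.card V := fun j => by
    have := Nat.mul_le_mul_left (q + 1) (h3 j)
    have := Nat.mul_le_mul_left q (h2 j)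
    nlinarith
  have h5 : (Finset.univ.filter fun θ : IrrCharacter V => ¬ E ≤ ker θ.1).card ≤
      ∑ j ∈ Finset.range (q + 1), (s j).card := by
    refine le_trans (Finset.card_le_card fun θ hθ => ?_) Finset.card_biUnion_le
    obtain ⟨j, hj, h5⟩ := h θ (Finset.mem_filter.1 hθ).2
    exact Finset.mem_biUnion.2 ⟨j, Finset.mem_range.2 hj,
      Finset.mem_filter.2 ⟨Finset.mem_univ _, h5, (Finset.mem_filter.1 hθ).2⟩⟩
  have h6 := Finset.card_filter_add_card_filter_not (s := Finset.univ)
    (fun θ : IrrCharacter V => E ≤ ker θ.1)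
  rw [hc, Finset.card_univ, ← Nat.card_eq_fintype_card, card_irr_of_isMulCommutative] at h6
  have h7 := E.index_mul_card
  rw [hE] at h7
  have h8 : (q + 1) * (q + 1) * (s j).card = q * Nat.card V := by
    by_contra h8
    have h9 := Finset.sum_lt_sum (s := Finset.range (q + 1)) (fun j _ => h4 j)
      ⟨j, Finset.mem_range.2 hj, lt_of_le_of_ne (h4 j) h8⟩
    rw [← Finset.mul_sum, Finset.sum_const, Finset.card_range, smul_eq_mul] at h9
    have h10 := Nat.mul_le_mul_left ((q + 1) * (q + 1)) h5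
    have h11 : (Finset.univ.filter fun θ : IrrCharacter V => ¬ E ≤ ker θ.1).card =
      q * E.index := by nlinarith
    rw [h11] at h10
    nlinarith
  have hV := Nat.card_pos (α := V)
  constructor
  · have h9 : (q + 1) * (D j).index = Nat.card V := by
      refine le_antisymm (h2 j) (Nat.le_of_mul_le_mul_left ?_ hq)
      have := Nat.mul_le_mul_left (q + 1) (h3 j)
      nlinarith
    rw [← (D j).index_mul_card, mul_comm] at h9
    exact (Nat.eq_of_mul_eq_mul_left (GT.index_pos _) h9).symm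
  · intro h9
    have h10 := hs j
    rw [sup_eq_left.2 h9, Nat.add_eq_right] at h10
    rw [h10, mul_zero] at h8
    exact (Nat.mul_pos hq hV).ne h8

/-- The commutator endomorphism of an abelian normal subgroup. -/
def cm {G : Type*} [Group G] (Z : Subgroup G) [Z.Normal] [IsMulCommutative Z] (g : G) : Z →* Z :=
  MonoidHom.mk' (fun z => z⁻¹ * MulAut.conjNormal g z) fun a b => by
    rw [map_mul, mul_inv_rev, mul_assoc, mul_assoc, GT.isMulCommutative_iff_forall'.1 ‹_› b⁻¹]
    rw [mul_assoc, mul_assoc, GT.isMulCommutative_iff_forall'.1 ‹_› _ b⁻¹]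

theorem cm_coe {G : Type*} [Group G] (Z : Subgroup G) [Z.Normal] [IsMulCommutative Z] (g : G)
    (z : Z) : (cm Z g z : G) = (z : G)⁻¹ * (g * z * g⁻¹) := rfl

theorem pcase {G : Type*} [Group G] [Finite G] {p : ℕ} (hp : p.Prime)
    (hcd : ∀ χ : IrrCharacter G, charDegree χ.1 = 1 ∨ charDegree χ.1 = p)
    (hG' : IsPGroup p (commutator G)) {ψ : IrrCharacter G} (hψ : charDegree ψ.1 ≠ 1)
    (hc : commutator G ≤ center ψ.1)
    (hno : ∀ A : Subgroup G, A.Normal → (∀ a ∈ A, ∀ b ∈ A, a * b = b * a) → A.index ≠ p) :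
    (Subgroup.center G).index = p ^ 3 := by
  have := Fact.mk hp
  have hp2 : ∀ χ : IrrCharacter G, charDegree χ.1 ≠ p * p := fun χ e => by
    have := hp.two_le
    rcases hcd χ with h | h <;> nlinarith
  have hψp := (hcd ψ).resolve_left hψ
  set Z := center ψ.1 with hZ
  have hZi : Z.index = p ^ 2 := by
    rw [← hψp, irr_degree_sq_eq_index_center_of_commutator_le ψ hc]
  have hab : IsMulCommutative Z := by
    refine isMulCommutative_iff_forall_degree_one.2 fun θ => by_contra fun h1 => ?_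
    obtain ⟨χ, hχ⟩ := exists_irr_liesOver θ
    obtain ⟨m, -, hm⟩ := hχ.exists_degree_eq_mul
    have h2 : charDegree χ.1 = p := (hcd χ).resolve_left fun e => h1
      (Nat.eq_one_of_mul_eq_one_left (hm.symm.trans e))
    have h3 : charDegree θ.1 = p :=
      ((Nat.dvd_prime hp).1 (h2 ▸ Dvd.intro_left _ hm.symm)).resolve_left h1
    have h4 := hχ.res_eq_of_degree_le (irr_isCharacter χ) (h2.trans h3.symm).le
    have h5 := isIrr_mul_of_vanish_off le_rfl
      (fun g hg => irr_apply_eq_zero_of_commutator_le_center ψ hc hg) (h4 ▸ θ.2)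
    exact hp2 ⟨_, h5⟩ (by rw [(irr_isCharacter ψ).charDegree_mul (irr_isCharacter χ), hψp, h2])
  have hcomm := GT.isMulCommutative_iff_forall.1 hab
  have hnorm : ∀ T : Subgroup G, Z ≤ T → T.Normal := fun T hT =>
    Subgroup.Normal.of_commutator_le _ (hc.trans hT)
  have hidx : ∀ T : Subgroup G, Z ≤ T → T ≠ Z → T ≠ ⊤ → T.index = p := by
    intro T h1 h2 h3
    obtain ⟨i, hi, e⟩ := (Nat.dvd_prime_pow hp).1 (hZi ▸ Subgroup.index_dvd_of_le h1)
    interval_cases i
    · exact absurd (Subgroup.index_eq_one.1 e) h3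
    · rw [e, pow_one]
    · exact absurd (eq_of_le_of_index_eq h1 (hZi.trans e.symm)).symm h2
  have hA : ∀ g ∉ Z, (Z ⊔ Subgroup.zpowers g).index = p := fun g hg =>
    hidx _ le_sup_left (fun e => hg (e ▸ Subgroup.mem_sup_right (Subgroup.mem_zpowers g))) fun e =>
      hψ ((irr_degree_eq_one_iff_commutator_le_ker ψ).2 fun x hx => by
        obtain ⟨a, ha, rfl⟩ := GT.exists_eq_commutator_of_abelian_sup_zpowers Z hcomm g e x hx
        exact commutatorElement_mem_ker_of_mem_center (irr_isClassFunction ψ) ha g)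
  have hD : ∀ g ∉ Z, p ∣ Nat.card (cm Z g).range := by
    intro g hg
    refine GT.dvd_card_of_isPGroup_of_ne_bot ((hG'.comap_subtype (K := Z)).to_le ?_) fun e => ?_
    · rintro _ ⟨z, rfl⟩
      have := Subgroup.commutator_mem_commutator (Subgroup.mem_top (z : G)⁻¹) (Subgroup.mem_top g)
      rw [commutatorElement_def, inv_inv] at this
      change (cm Z g z : G) ∈ ⁅(⊤ : Subgroup G), (⊤ : Subgroup G)⁆
      simpa [cm_coe, mul_assoc] using this
    · have h1 : g ∈ Subgroup.centralizer (Z : Set G) := fun z hz => by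
        have h1 : cm Z g ⟨z, hz⟩ ∈ (⊥ : Subgroup Z) := e ▸ ⟨_, rfl⟩
        have h2 := congrArg Subtype.val (Subgroup.mem_bot.1 h1)
        rw [cm_coe, OneMemClass.coe_one, inv_mul_eq_one, eq_mul_inv_iff_mul_eq] at h2
        exact h2
      exact hno _ (hnorm _ le_sup_left)
        (GT.isMulCommutative_iff_forall.1 (GT.isMulCommutative_sup_zpowers h1)) (hA g hg)
  have hker : ∀ (θ : IrrCharacter Z) (g : G), (cm Z g).range ≤ ker θ.1 ↔ g ∈ stabilizer G θ := by
    intro θ g
    obtain ⟨f, rfl⟩ := exists_linChar_eq_of_isMulCommutative θ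
    rw [ker_linChar, mem_stabilizer_iff, conjSmul_eq_iff]
    refine ⟨fun h z => ?_, fun h => ?_⟩
    · have h1 : f (z⁻¹ * MulAut.conjNormal g z) = 1 := h ⟨z, rfl⟩
      rw [map_mul, map_inv, inv_mul_eq_one] at h1
      rw [linChar_apply, linChar_apply, h1]
    · rintro _ ⟨z, rfl⟩
      change f (z⁻¹ * MulAut.conjNormal g z) = 1
      rw [map_mul, map_inv, inv_mul_eq_one]
      exact Units.ext (h z).symm
  have key : ∀ x ∉ Z, ∀ y ∉ Z ⊔ Subgroup.zpowers x,
      Nat.card (cm Z y).range = p ∧ ¬ (cm Z x).range ≤ (cm Z y).range := by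
    intro x hx y hy
    obtain ⟨e, he, he1, hep⟩ := GT.exists_mem_pow_eq_one (hD x hx)
    have h1 := cover hp (GT.card_zpowers_of_pow_eq_one hep he1)
      (fun j => (cm Z (y * x ^ j)).range) (fun j => hD _ fun h => hy ?_) (fun θ hθ => ?_) hp.pos
    · rw [pow_zero, mul_one] at h1
      exact ⟨h1.1, fun h => h1.2 (((Subgroup.zpowers_le).2 he).trans h)⟩
    · simpa using mul_mem (Subgroup.mem_sup_left h)
        (Subgroup.mem_sup_right (inv_mem (Subgroup.npow_mem_zpowers x j)))
    · have h1 : x ∉ stabilizer G θ := fun h =>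
        hθ (((Subgroup.zpowers_le).2 he).trans ((hker θ x).2 h))
      have := hnorm _ (le_inertia θ)
      have h2 : (stabilizer G θ).index = p := by
        refine hidx _ (le_inertia θ) (fun e => ?_) fun e => h1 (e ▸ Subgroup.mem_top x)
        obtain ⟨χ, hχ⟩ := exists_irr_liesOver θ
        refine hp2 χ ?_
        rw [← hχ.ind_eq_of_inertia_eq e, charDegree_ind (irr_isCharacter θ), hZi,
          irr_degree_eq_one_of_isMulCommutative, mul_one, pow_two]
      have h3 := Subgroup.mem_top y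
      rw [← GT.sup_zpowers_eq_top_of_index_prime (h2 ▸ hp) h1, Subgroup.mem_sup_of_normal_left]
        at h3
      obtain ⟨t, ht, _, ⟨k, rfl⟩, rfl⟩ := h3
      have h4 : (0 : ℤ) < p := by exact_mod_cast hp.pos
      refine ⟨(-k % p).toNat, ?_, (hker θ _).2 ?_⟩
      · have := Int.emod_lt_of_pos (-k) h4
        omega
      · rw [← zpow_natCast, Int.toNat_of_nonneg (Int.emod_nonneg _ h4.ne'), mul_assoc, ← zpow_add,
          Int.emod_def, show k + (-k - p * (-k / p)) = p * (-(-k / p)) by ring, zpow_mul,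
          zpow_natCast]
        exact mul_mem ht (zpow_mem (h2 ▸ (stabilizer G θ).pow_index_mem x) _)
  have hex : ∀ T : Subgroup G, T.index ≠ 1 → ∃ x, x ∉ T := fun T h => by
    by_contra h1
    push Not at h1
    exact h (Subgroup.index_eq_one.2 (eq_top_iff.2 fun x _ => h1 x))
  obtain ⟨x, hx⟩ := hex Z (by rw [hZi]; exact (Nat.one_lt_pow two_ne_zero hp.one_lt).ne')
  obtain ⟨y, hy⟩ := hex _ (by rw [hA x hx]; exact hp.one_lt.ne')
  have hy' : y ∉ Z := fun h => hy (Subgroup.mem_sup_left h)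
  have hx' : x ∉ Z ⊔ Subgroup.zpowers y := fun h => hy (by
    rw [eq_of_le_of_index_eq (sup_le le_sup_left ((Subgroup.zpowers_le).2 h))
      ((hA x hx).trans (hA y hy').symm)]
    exact Subgroup.mem_sup_right (Subgroup.mem_zpowers y))
  have hxy : x * y ∉ Z ⊔ Subgroup.zpowers x := fun h => hy (by
    simpa using mul_mem (Subgroup.mem_sup_right (inv_mem (Subgroup.mem_zpowers x))) h)
  have hd : Disjoint (cm Z x).range (cm Z y).range :=
    (GT.le_or_disjoint_of_card_prime ((key y hy' x hx').1 ▸ hp) _).resolve_left (key x hx y hy).2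
  have h1 : (Subgroup.center G).subgroupOf Z = (cm Z (x * y)).ker := by
    ext u
    rw [Subgroup.mem_subgroupOf, MonoidHom.mem_ker, Subtype.ext_iff, cm_coe, OneMemClass.coe_one]
    refine ⟨fun h => by rw [Subgroup.mem_center_iff.1 h]; group, fun h => ?_⟩
    have h1 : (cm Z x u)⁻¹ = cm Z y (MulAut.conjNormal x u) := by
      refine Subtype.ext ?_
      have h1 := hcomm _ (hc (Subgroup.commutator_mem_commutator (Subgroup.mem_top x⁻¹)
        (Subgroup.mem_top y⁻¹))) u u.2
      rw [commutatorElement_def, inv_inv, inv_inv] at h1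
      rw [InvMemClass.coe_inv, cm_coe, cm_coe, MulAut.conjNormal_apply]
      rw [inv_mul_eq_one] at h
      calc ((u : G)⁻¹ * (x * u * x⁻¹))⁻¹ = x * (u : G)⁻¹ * x⁻¹ * u := by group
        _ = x * (u : G)⁻¹ * x⁻¹ * (x * y * u * (x * y)⁻¹) := by rw [← h]
        _ = x * (u : G)⁻¹ * x⁻¹ * (y * x * (x⁻¹ * y⁻¹ * x * y * u) * (x * y)⁻¹) := by group
        _ = _ := by rw [h1]; group
    have h2 : cm Z x u = 1 := Subgroup.disjoint_def.1 hd ⟨u, rfl⟩
      (inv_mem_iff.1 (h1 ▸ ⟨_, rfl⟩))
    have h3 := congrArg Subtype.val h2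
    rw [cm_coe, OneMemClass.coe_one, inv_mul_eq_one, eq_mul_inv_iff_mul_eq] at h3
    rw [inv_mul_eq_one, eq_mul_inv_iff_mul_eq, ← mul_assoc, h3, mul_assoc, mul_assoc,
      mul_left_cancel_iff] at h
    have h4 : Subgroup.centralizer {(u : G)} = ⊤ := by
      rw [eq_top_iff, ← GT.sup_zpowers_eq_top_of_index_prime ((hA x hx).symm ▸ hp) hy]
      refine sup_le (sup_le (fun z hz => ?_) ((Subgroup.zpowers_le).2 ?_))
        ((Subgroup.zpowers_le).2 ?_) <;> rw [Subgroup.mem_centralizer_singleton_iff]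
      exacts [hcomm z hz u u.2, h3.symm, h.symm]
    rw [Subgroup.mem_center_iff]
    exact fun g => Subgroup.mem_centralizer_singleton_iff.1 (h4 ▸ Subgroup.mem_top g)
  rw [← Subgroup.relIndex_mul_index (center_le_center_irr ψ), hZi, Subgroup.relIndex, h1,
    Subgroup.index_ker, (key x hx _ hxy).1, ← pow_succ']

/-- Let G be a non-abelian finite group and p a prime. Then the irreducible character degrees of G are exactly 1 and p if and only if either G has an abelian normal subgroup of index p or the centre of G has index p³. -/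
theorem result {G : Type*} [Group G] [Finite G] (hG : ∃ a b : G, a * b ≠ b * a) (p : ℕ) (hp : p.Prime) : ((∀ χ : Cfsg.IrrCharacter G, Cfsg.charDegree (χ : G → ℂ) = 1 ∨ Cfsg.charDegree (χ : G → ℂ) = p) ∧ ∃ χ : Cfsg.IrrCharacter G, Cfsg.charDegree (χ : G → ℂ) = p) ↔ ((∃ A : Subgroup G, A.Normal ∧ (∀ a ∈ A, ∀ b ∈ A, a * b = b * a) ∧ A.index = p) ∨ (Subgroup.center G).index = p ^ 3) := by
  have hna : ¬ IsMulCommutative G := fun h => by
    obtain ⟨a, b, hab⟩ := hG
    exact hab (GT.isMulCommutative_iff_forall'.1 h a b)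
  constructor
  · rintro ⟨hcd, hm⟩
    by_contra hcon
    rw [not_or] at hcon
    rcases S4457.result p hcd hm hp.one_lt.ne' with h | ⟨q, e, hq, hpe, P, A, hP, -, hPq, hA, -, hs⟩
    · exact hcon.1 h
    obtain rfl : q = p := by
      rw [hpe] at hp
      rw [hpe, hp.eq_one_of_pow, pow_one]
    have hG' : IsPGroup q (commutator G) := hPq.to_le
      (hP.commutator_le_of_self_sup_commutative_eq_top hs (GT.isMulCommutative_iff_forall.2 hA))
    have := isSolvable_of_ncard_charDegrees_le_three G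
      ((ncard_charDegrees_le_two hcd).trans (by norm_num))
    obtain ⟨K, hK⟩ := exists_isMaxNonab hna
    have := hK.normal
    rcases hK.dichotomy_of_isSolvable with ⟨_, -, -, h1, -⟩ | hF
    · obtain ⟨ψ, hψ, hψ1⟩ := hK.exists_irr
      exact hcon.2 (pcase hq hcd hG' hψ1 (commutator_le_center_of_le_ker (h1.trans hψ.ge))
        fun A h1 h2 h3 => hcon.1 ⟨A, h1, h2, h3⟩)
    · exact hcon.1 (S4457.frob_case hcd hK hF)
  · intro h
    have hcd : ∀ χ : IrrCharacter G, charDegree χ.1 = 1 ∨ charDegree χ.1 = p := by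
      intro χ
      rcases h with ⟨A, _, hA, hi⟩ | h
      · exact (Nat.dvd_prime hp).1 (hi ▸ irr_degree_dvd_index_of_normal_comm χ A hA)
      · obtain ⟨i, -, hi⟩ := (Nat.dvd_prime_pow hp).1 (h ▸ irr_degree_dvd_index_center χ)
        have h1 := irr_degree_sq_le_index_of_le_center χ (center_le_center_irr χ)
        rw [h, hi, ← pow_mul, Nat.pow_le_pow_iff_right hp.one_lt] at h1
        have h2 : i ≤ 1 := by omega
        interval_cases i
        · exact Or.inl hi
        · exact Or.inr (hi.trans (pow_one p))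
    obtain ⟨χ, hχ⟩ := exists_irr_one_lt_degree hna
    exact ⟨hcd, χ, (hcd χ).resolve_left hχ.ne'⟩

end Cfsg.Agent.S4459
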