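import Cfsg.Statements.S4460
import Cfsg.Agent.Lib.Char.RelDeg2

set_option autoImplicit false
open Cfsg

namespace Cfsg.Agent.S4460

/-- A finite group with exactly three distinct irreducible character degrees is solvable of derived length at most 3: its third derived subgroup is trivial. -/
theorem result {G : Type*} [Group G] [Finite G] (hcd : Nat.card {n : ℕ // ∃ χ : Cfsg.IrrCharacter G, Cfsg.charDegree (χ : G → ℂ) = n} = 3) : derivedSeries G 3 = ⊥ := by
  exact CT.derivedSeries_eq_bot_of_ncard_le_three le_rfl (le_of_eq hcd)

end Cfsg.Agent.S4460
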