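import Cfsg.Statements.S4462
import Cfsg.Agent.S4461

set_option autoImplicit false
open Cfsg

namespace Cfsg.Agent.S4462

open CT MulAction
universe u

theorem nilp_of_hom {B H : Type*} [Group B] [Group H] [Group.IsNilpotent H] (f : B →* H)
    (A : Subgroup B) [A.Normal] (h : f.ker = A) : Group.IsNilpotent (B ⧸ A) := by
  subst h
  exact nilpotent_of_mulEquiv (QuotientGroup.quotientKerEquivRange f).symm

theorem ncard_quotient_fitting_lt {G : Type*} [Group G] [Finite G] [Group.IsSolvable G]
    (h : fittingSubgroup G ≠ ⊤) :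
    (charDegrees (G ⧸ fittingSubgroup G)).ncard < (charDegrees G).ncard := by
  refine Set.ncard_lt_ncard ⟨charDegrees_quotient_subset _, fun hs => ?_⟩ finite_charDegrees
  obtain ⟨χ, hχ⟩ := Finite.exists_max (fun χ : IrrCharacter G => charDegree χ.1)
  obtain ⟨ψ, hψ⟩ := hs (mem_charDegrees χ)
  obtain ⟨φ, h1, -⟩ := S4461.main (inflate _ ψ) (by
    by_cases h1 : ker (inflate _ ψ).1 ≤ fittingSubgroup G
    · have h2 := le_antisymm h1 (le_ker_inflate _ ψ)
      exact Or.inr ⟨h2, inferInstance, by rwa [h2]⟩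
    · exact Or.inl h1)
  rw [charDegree_inflate, hψ] at h1
  exact h1.not_ge (hχ φ)

theorem main (n : ℕ) : ∀ (G : Type u) [Group G] [Finite G] [Group.IsSolvable G],
    (charDegrees G).ncard ≤ n + 1 → ∃ N : ℕ → Subgroup G, N 0 = ⊥ ∧ N (n + 1) = ⊤ ∧ Monotone N ∧
      (∀ i, (N i).Normal) ∧ ∀ i, ∀ _ : ((N i).subgroupOf (N (i + 1))).Normal,
        Group.IsNilpotent (↥(N (i + 1)) ⧸ (N i).subgroupOf (N (i + 1))) := by
  have base : ∀ (n : ℕ) (G : Type u) [Group G] [Finite G], fittingSubgroup G = ⊤ →
      ∃ N : ℕ → Subgroup G, N 0 = ⊥ ∧ N (n + 1) = ⊤ ∧ Monotone N ∧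
      (∀ i, (N i).Normal) ∧ ∀ i, ∀ _ : ((N i).subgroupOf (N (i + 1))).Normal,
        Group.IsNilpotent (↥(N (i + 1)) ⧸ (N i).subgroupOf (N (i + 1))) := by
    intro n G _ _ h
    have := GT.fitting_eq_top_iff.1 h
    refine ⟨fun i => if i = 0 then ⊥ else ⊤, rfl, rfl, fun i j hij => ?_, fun i => ?_,
      fun i _ => inferInstance⟩
    · dsimp only
      split_ifs with h1 h2 h2
      · exact le_rfl
      · exact bot_le
      · omega
      · exact le_rfl
    · dsimp only
      split_ifs <;> infer_instance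
  induction n with
  | zero =>
    intro G _ _ _ h
    refine base 0 G ?_
    by_contra h1
    have h2 := ncard_quotient_fitting_lt h1
    have h3 : 0 < (charDegrees (G ⧸ fittingSubgroup G)).ncard :=
      (Set.ncard_pos finite_charDegrees).2 ⟨1, one_mem_charDegrees⟩
    omega
  | succ n ih =>
    intro G _ _ _ h
    by_cases h1 : fittingSubgroup G = ⊤
    · exact base _ G h1
    have h2 := ncard_quotient_fitting_lt h1
    obtain ⟨N, h3, h4, h5, h6, h7⟩ := ih (G ⧸ fittingSubgroup G) (by omega)
    set π := QuotientGroup.mk' (fittingSubgroup G) with hπ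
    refine ⟨fun i => Nat.casesOn i ⊥ (fun j => (N j).comap π), rfl, ?_,
      monotone_nat_of_le_succ fun i => ?_, fun i => ?_, fun i hi => ?_⟩
    · dsimp only; rw [h4, Subgroup.comap_top]
    · cases i with
      | zero => exact bot_le
      | succ i => exact Subgroup.comap_mono (h5 i.le_succ)
    · cases i with
      | zero => exact inferInstanceAs (⊥ : Subgroup G).Normal
      | succ i => exact (h6 i).comap π
    · cases i with
      | zero =>
        have : Group.IsNilpotent ((N 0).comap π) := by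
          rw [h3, MonoidHom.comap_bot, hπ, QuotientGroup.ker_mk']; infer_instance
        exact nilpotent_of_surjective (G := (N 0).comap π) _ (QuotientGroup.mk'_surjective _)
      | succ i =>
        have := h6 i
        have := h7 i inferInstance
        refine nilp_of_hom (B := (N (i + 1)).comap π)
          ((QuotientGroup.mk' ((N i).subgroupOf (N (i + 1)))).comp (π.subgroupComap _)) _ ?_
        ext x
        rw [MonoidHom.mem_ker, MonoidHom.comp_apply, QuotientGroup.mk'_apply,
          QuotientGroup.eq_one_iff]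
        rfl

/-- Let G be a finite solvable group with exactly n distinct irreducible character degrees. Then G has normal subgroups 1 = N₀ ≤ N₁ ≤ ⋯ ≤ Nₙ = G with every quotient N_{i+1}/N_i nilpotent (the nilpotent length of G is at most n). -/
theorem result {G : Type*} [Group G] [Finite G] (hsolv : Group.IsSolvable G) (n : ℕ) (hcd : Nat.card {d : ℕ // ∃ χ : Cfsg.IrrCharacter G, Cfsg.charDegree (χ : G → ℂ) = d} = n) : ∃ N : Fin (n + 1) → Subgroup G, N 0 = ⊥ ∧ N (Fin.last n) = ⊤ ∧ Monotone N ∧ (∀ i, (N i).Normal) ∧ ∀ i : Fin n, ∀ h : (N i.castSucc).subgroupOf (N i.succ) |>.Normal, Group.IsNilpotent (↥(N i.succ) ⧸ (N i.castSucc).subgroupOf (N i.succ)) := by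
  have h1 : (charDegrees G).ncard = n := hcd
  have h2 : 0 < (charDegrees G).ncard :=
    (Set.ncard_pos finite_charDegrees).2 ⟨1, one_mem_charDegrees⟩
  obtain ⟨m, rfl⟩ : ∃ m, n = m + 1 := ⟨n - 1, by omega⟩
  obtain ⟨N, h3, h4, h5, h6, h7⟩ := main m G h1.le
  exact ⟨fun i => N i, h3, h4, fun i j hij => h5 hij, fun i => h6 i, fun i hi => h7 i hi⟩

end Cfsg.Agent.S4462
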