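import Cfsg.Statements.S4464
import Cfsg.Agent.Lib.Char.Degrees

set_option autoImplicit false
open Cfsg

namespace Cfsg.Agent.S4464

open MulAction CT in
theorem sylow_normal {G : Type*} [Group G] [Finite G] {p : ℕ} [hp : Fact p.Prime]
    (hb : ∀ χ : IrrCharacter G, charDegree χ.1 < p) (P : Sylow p G) : (P : Subgroup G).Normal := by
  classical
  set r := Nat.card (orbitRel.Quotient (P : Subgroup G) (Sylow p G)) with hr
  have := Fintype.ofFinite (orbitRel.Quotient (P : Subgroup G) (Sylow p G))
  -- orbit count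
  have h1 : 1 + p * (r - 1) ≤ Nat.card (Sylow p G) := by
    rw [Nat.card_congr (selfEquivSigmaOrbits (P : Subgroup G) (Sylow p G)), Nat.card_sigma,
      ← Finset.add_sum_erase _ _ (Finset.mem_univ (Quotient.mk'' P))]
    refine Nat.add_le_add ?_ ?_
    · have : Nonempty (orbit (P : Subgroup G)
        (Quotient.mk'' P : orbitRel.Quotient (P : Subgroup G) (Sylow p G)).out) :=
        ⟨⟨_, mem_orbit_self _⟩⟩
      exact Nat.card_pos
    · rw [hr, Nat.card_eq_fintype_card, ← Finset.card_univ,
        ← Finset.card_erase_of_mem (Finset.mem_univ (Quotient.mk'' P)), mul_comm, ← smul_eq_mul]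
      refine Finset.card_nsmul_le_sum _ _ _ fun q hq => ?_
      rw [Nat.card_coe_set_eq, ← index_stabilizer]
      obtain ⟨k, hk⟩ := P.isPGroup'.index (stabilizer (P : Subgroup G) q.out)
      rcases k with _ | k
      · exfalso
        rw [pow_zero, Subgroup.index_eq_one] at hk
        have h2 : q.out ∈ fixedPoints (P : Subgroup G) (Sylow p G) := fun x =>
          mem_stabilizer_iff.1 (hk ▸ Subgroup.mem_top x)
        rw [P.isPGroup'.sylow_mem_fixedPoints_iff] at h2
        have h3 : q.out = P := Sylow.ext (P.is_maximal' q.out.isPGroup' h2)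
        exact (Finset.mem_erase.1 hq).1 ((Quotient.out_eq' q).symm.trans (congrArg Quotient.mk'' h3))
      · rw [hk]; exact Nat.le_self_pow k.succ_ne_zero p
  set π := permChar G (Sylow p G) with hπ
  have hπc : IsCharacter G π := isCharacter_permChar _
  have hπi : π = ind (stabilizer G P) (fun _ => 1) := permChar_eq_ind_stabilizer P
  have hPN : (P : Subgroup G) ≤ stabilizer G P := by
    rw [Sylow.stabilizer_eq_normalizer]; exact Subgroup.le_normalizer
  have hone : mult π (irrOne G).1 = 1 := by
    apply mult_eq_of_ip_eq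
    rw [hπi, irrOne_val, ip_ind_one_one, Nat.cast_one]
  have h2 : Nat.card (Sylow p G) = ∑ χ : IrrCharacter G, mult π χ.1 * charDegree χ.1 := by
    rw [← hπc.degree_eq_sum_mult]
    exact (charDegree_eq_of_apply_one (permChar_apply_one _)).symm
  have h3 : r = ∑ χ : IrrCharacter G, mult π χ.1 * mult (res P χ.1) (fun _ => 1) := by
    have h4 := ip_permChar_one (G := (P : Subgroup G)) (Sylow p G)
    rw [← res_permChar, ← hπ, hπc.eq_sum_mult, res_sum, ip_sum_left] at h4
    have h5 : ∀ χ : IrrCharacter G, ip (res P ((mult π χ.1 : ℂ) • χ.1)) (fun _ => 1) =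
        ((mult π χ.1 * mult (res P χ.1) (fun _ => 1) : ℕ) : ℂ) := fun χ => by
      rw [res_smul, ip_smul_left, ((irr_isCharacter χ).res _).ip_eq_mult isCharacter_one,
        Nat.cast_mul]
    simp only [h5] at h4
    exact_mod_cast h4.symm
  have hpos : ∀ χ : IrrCharacter G, mult π χ.1 ≤ mult π χ.1 * mult (res P χ.1) (fun _ => 1) := by
    intro χ
    rcases Nat.eq_zero_or_pos (mult π χ.1) with h | h
    · rw [h]; exact Nat.zero_le _
    · refine Nat.le_mul_of_pos_right _ ?_
      rw [← liesOver_iff_mult_pos (irr_isCharacter χ) isCharacter_one]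
      rw [hπi, mult_ind _ isCharacter_one (irr_isCharacter χ), gt_iff_lt,
        ← liesOver_iff_mult_pos (irr_isCharacter χ) isCharacter_one] at h
      refine LiesOver.trans_le hPN (irr_isCharacter χ) (ψ := irrOne _) isCharacter_one h ?_
      exact liesOverLe_of_resLe_eq (θ := irrOne _) rfl
  set s := ∑ χ ∈ Finset.univ.erase (irrOne G), mult π χ.1 with hs
  have h4 : 1 + s ≤ r := by
    rw [h3, ← hone, hs, Finset.add_sum_erase _ (fun χ : IrrCharacter G => mult π χ.1)
      (Finset.mem_univ _)]
    exact Finset.sum_le_sum fun χ _ => hpos χ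
  have h5 : Nat.card (Sylow p G) ≤ 1 + s * (p - 1) := by
    rw [h2, ← Finset.add_sum_erase _ _ (Finset.mem_univ (irrOne G)), hone, charDegree_irrOne,
      hs, Finset.sum_mul]
    exact Nat.add_le_add le_rfl (Finset.sum_le_sum fun χ _ =>
      Nat.mul_le_mul_left _ (Nat.le_sub_one_of_lt (hb χ)))
  have h6 : s = 0 := by
    obtain ⟨q, rfl⟩ : ∃ q, p = q + 1 := ⟨p - 1, (Nat.succ_pred_eq_of_pos hp.out.pos).symm⟩
    have h7 : (q + 1) * s ≤ (q + 1) * (r - 1) := Nat.mul_le_mul_left _ (by omega)
    rw [Nat.add_sub_cancel] at h5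
    nlinarith
  rw [h6, zero_mul, add_zero] at h5
  have : Subsingleton (Sylow p G) := Finite.card_le_one_iff_subsingleton.1 h5
  exact Sylow.normal_of_subsingleton P

/-- Let p be a prime and G a finite group all of whose irreducible character degrees are less than p. Then G has a normal abelian Sylow p-subgroup. -/
theorem result {G : Type*} [Group G] [Finite G] (p : ℕ) (hp : p.Prime) (hb : ∀ χ : Cfsg.IrrCharacter G, Cfsg.charDegree (χ : G → ℂ) < p) : ∃ P : Subgroup G, P.Normal ∧ (∀ x ∈ P, ∀ y ∈ P, x * y = y * x) ∧ IsPGroup p P ∧ ¬ p ∣ P.index := by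
  have := Fact.mk hp
  obtain ⟨P⟩ : Nonempty (Sylow p G) := inferInstance
  have hn := sylow_normal hb P
  exact ⟨P, hn, GT.isMulCommutative_iff_forall.1
    (CT.isMulCommutative_of_normal_isPGroup_of_degrees
      (fun χ => Nat.not_dvd_of_pos_of_lt (CT.irr_degree_pos χ) (hb χ)) P.isPGroup'),
    P.isPGroup', P.not_dvd_index⟩

end Cfsg.Agent.S4464
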