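import Cfsg.Statements.S4463
import Cfsg.Agent.S4464
import Cfsg.Agent.Lib.Char.Degrees2
import Cfsg.Agent.Lib.Char.FrobSchur
import Cfsg.Agent.Lib.Char.Burnside

set_option autoImplicit false
open Cfsg

namespace Cfsg.Agent.S4463

open CT MulAction
open scoped commutatorElement
universe u

theorem exists_small_class {G : Type*} [Group G] [Finite G] [Nontrivial G] {b : ℕ}
    (hb : ∀ χ : IrrCharacter G, charDegree χ.1 ≤ b) :
    ∃ x : G, x ≠ 1 ∧ (Subgroup.centralizer {x}).index ≤ b ^ 2 := by
  classical
  have := Fintype.ofFinite G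
  by_contra hc
  push Not at hc
  have h1 := sum_card_centralizer_filter (G := G) (fun _ => True)
  rw [Finset.filter_true, Nat.card_congr (Equiv.subtypeUnivEquiv (fun _ => trivial)),
    ← card_irr_eq_card_conjClasses, ← Finset.add_sum_erase _ _ (Finset.mem_univ 1),
    Subgroup.centralizer_eq_top_iff_subset.2 (by simp), Subgroup.card_top] at h1
  have h2 : (∑ x ∈ Finset.univ.erase (1 : G), Nat.card (Subgroup.centralizer ({x} : Set G))) *
      (b ^ 2 + 1) ≤ (Nat.card G - 1) * Nat.card G := by
    rw [Finset.sum_mul, Nat.card_eq_fintype_card (α := G), ← Finset.card_univ,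
      ← Finset.card_erase_of_mem (Finset.mem_univ 1), ← smul_eq_mul]
    refine Finset.sum_le_card_nsmul _ _ _ fun x hx => ?_
    rw [Finset.card_univ, ← Nat.card_eq_fintype_card,
      ← (Subgroup.centralizer ({x} : Set G)).card_mul_index]
    exact Nat.mul_le_mul_left _ (hc x (Finset.mem_erase.1 hx).1)
  have h3 := sum_irr_degree_sq (G := G)
  rw [← Finset.add_sum_erase _ _ (Finset.mem_univ (irrOne G)), charDegree_irrOne] at h3
  have h4 : ∑ χ ∈ Finset.univ.erase (irrOne G), charDegree χ.1 ^ 2 ≤
      (Nat.card (IrrCharacter G) - 1) * b ^ 2 := by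
    rw [Nat.card_eq_fintype_card, ← Finset.card_univ,
      ← Finset.card_erase_of_mem (Finset.mem_univ (irrOne G)), ← smul_eq_mul]
    exact Finset.sum_le_card_nsmul _ _ _ fun χ _ => Nat.pow_le_pow_left (hb χ) 2
  have h5 : 1 < Nat.card G := Finite.one_lt_card
  have h6 : 0 < Nat.card (IrrCharacter G) := Nat.card_pos
  obtain ⟨k, hk⟩ : ∃ k, Nat.card (IrrCharacter G) = k + 1 := ⟨_, (Nat.succ_pred_eq_of_pos h6).symm⟩
  obtain ⟨n, hn⟩ : ∃ n, Nat.card G = n + 1 := ⟨_, (Nat.succ_pred_eq_of_pos h5.le).symm⟩
  rw [hk, hn] at h1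
  rw [hn] at h2 h3 h5
  rw [hk] at h4
  simp only [Nat.add_sub_cancel] at h2 h4
  generalize (∑ x ∈ Finset.univ.erase (1 : G), Nat.card (Subgroup.centralizer ({x} : Set G))) = S
    at h1 h2
  have h7 : S = k * (n + 1) := by nlinarith
  rw [h7, mul_right_comm] at h2
  have h8 := Nat.le_of_mul_le_mul_right h2 n.succ_pos
  have h9 : n ≤ k * b ^ 2 := by omega
  rcases Nat.eq_zero_or_pos k with h | h
  · rw [h] at h9; omega
  · nlinarith

theorem two_mul_le {G : Type*} [Group G] [Finite G] {b : ℕ}
    (hb : ∀ χ : IrrCharacter G, charDegree χ.1 ≤ b) {Z : Subgroup G} [Z.Normal]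
    {ψ : IrrCharacter G} (h1 : charDegree ψ.1 ≠ 1)
    (h : ∀ χ : IrrCharacter G, IsIrrCharacter Z (res Z χ.1) → IsIrrCharacter G (ψ.1 * χ.1))
    (θ : IrrCharacter Z) : charDegree θ.1 ≤ b / 2 := by
  obtain ⟨χ, hχ⟩ := exists_irr_liesOver θ
  obtain ⟨m, hm⟩ := hχ.degree_dvd
  have h2 := irr_degree_pos ψ
  have h3 := irr_degree_pos χ
  rw [Nat.le_div_iff_mul_le two_pos]
  by_cases h4 : m ≤ 1
  · have h5 := hχ.res_eq_of_degree_le (irr_isCharacter χ) (by nlinarith)
    have h6 := hb ⟨_, h χ (h5 ▸ θ.2)⟩
    rw [(irr_isCharacter ψ).charDegree_mul (irr_isCharacter χ), ← charDegree_res Z χ.1, h5] at h6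
    have : 2 ≤ charDegree ψ.1 := by omega
    nlinarith
  · have := hb χ
    have : 2 ≤ m := by omega
    nlinarith

theorem fact_le {b c : ℕ} (k : ℕ) (h : c + k ≤ b) :
    b.descFactorial k * c.factorial ≤ b.factorial := by
  rw [← Nat.factorial_mul_descFactorial (n := b) (k := k) (by omega), mul_comm]
  exact Nat.mul_le_mul_right _ (Nat.factorial_le (by omega))

theorem main (b : ℕ) : ∀ (G : Type u) [Group G] [Finite G],
    (∀ χ : IrrCharacter G, charDegree χ.1 ≤ b) →
      ∃ A : Subgroup G, (∀ x ∈ A, ∀ y ∈ A, x * y = y * x) ∧ A.index ≤ b.factorial ^ 2 := by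
  induction b using Nat.strong_induction_on with
  | _ b ih =>
  intro G _ _ hb
  have step : ∀ (H : Subgroup G) (c k : ℕ), 0 < k → c + k ≤ b →
      (∀ θ : IrrCharacter H, charDegree θ.1 ≤ c) → H.index ≤ b.descFactorial k ^ 2 →
      ∃ A : Subgroup G, (∀ x ∈ A, ∀ y ∈ A, x * y = y * x) ∧ A.index ≤ b.factorial ^ 2 := by
    intro H c k hk hc h1 h2
    obtain ⟨A, hA, h3⟩ := ih c (by omega) H h1
    refine ⟨A.map H.subtype, ?_, ?_⟩
    · rintro _ ⟨x, hx, rfl⟩ _ ⟨y, hy, rfl⟩
      exact congrArg Subtype.val (hA x hx y hy)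
    · rw [Subgroup.index_map_subtype]
      refine (Nat.mul_le_mul h3 h2).trans ?_
      rw [← mul_pow, mul_comm]
      exact Nat.pow_le_pow_left (fact_le k hc) 2
  by_cases hG : IsMulCommutative G
  · exact ⟨⊤, fun x _ y _ => GT.isMulCommutative_iff_forall'.1 hG x y, by
      rw [Subgroup.index_top]; exact Nat.one_le_pow _ _ b.factorial_pos⟩
  obtain ⟨K, hK⟩ := exists_isMaxNonab hG
  have := hK.normal
  obtain ⟨ψ, hψ, hψ1⟩ := hK.exists_irr
  have hb2 : 2 ≤ b := by
    have := hb ψ
    have := irr_degree_pos ψ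
    omega
  have hKb : ∀ θ : IrrCharacter K, charDegree θ.1 ≤ b / 2 := two_mul_le hb hψ1 fun χ hχ =>
    gallagher_isIrr' (irr_isCharacter χ) (θ := ⟨_, hχ⟩) rfl hψ.ge
  by_cases hs : Group.IsSolvable (G ⧸ K)
  · rcases hK.dichotomy_of_isSolvable with ⟨p, hp, -, h1, -⟩ | hF
    · have h2 := commutator_le_center_of_le_ker (h1.trans hψ.ge)
      refine step (center ψ.1) (b / 2) 1 one_pos (by omega)
        (two_mul_le hb hψ1 fun χ hχ => isIrr_mul_of_vanish_off le_rfl
          (fun g hg => irr_apply_eq_zero_of_commutator_le_center ψ h2 hg) hχ) ?_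
      rw [← irr_degree_sq_eq_index_center_of_commutator_le ψ h2, Nat.descFactorial_one]
      exact Nat.pow_le_pow_left (hb ψ) 2
    · set N := commutator G ⊔ K with hN
      have hne : K ≠ N := hK.isChief.lt.ne
      have hf : charDegree ψ.1 = N.index := hF.degree_eq_index hψ.ge fun h =>
        hK.not_le (le_sup_left.trans (h.trans hψ.le))
      have hf2 : 2 ≤ N.index := by
        have := irr_degree_pos ψ
        omega
      have hfb : N.index ≤ b := hf ▸ hb ψ
      by_cases h1 : ∀ θ : IrrCharacter N, N.index * charDegree θ.1 ∈ charDegrees G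
      · refine step N (b / 2) 1 one_pos (by omega) (fun θ => ?_) ?_
        · obtain ⟨χ, hχ⟩ := h1 θ
          have := hb χ
          rw [Nat.le_div_iff_mul_le two_pos]
          nlinarith
        · rw [Nat.descFactorial_one]; nlinarith
      · push Not at h1
        obtain ⟨θ, hθ⟩ := h1
        have h2 := (hF.mem_charDegrees_or_dvd θ).resolve_left hθ
        obtain ⟨χ, hχ⟩ := exists_degree_le_of_subgroup θ
        have h3 : charDegree θ.1 ≤ b := hχ.trans (hb χ)
        have h4 := Nat.le_of_dvd (pow_pos (irr_degree_pos θ) 2) h2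
        have h5 := hF.index_lt hne
        have hb3 : 3 ≤ b := by
          by_contra h6
          have h7 : N.index = 2 := by omega
          have h8 := hF.coprime
          have h9 : charDegree θ.1 = 2 := by
            have : charDegree θ.1 ≤ 2 := by omega
            have := irr_degree_pos θ
            interval_cases charDegree θ.1 <;> omega
          rw [h9] at h2 h4
          rw [h7] at h8 h5
          generalize K.relIndex N = r at h2 h4 h5 h8
          interval_cases r
          · exact absurd h2 (by norm_num)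
          · exact absurd h8 (by norm_num)
        refine step K (b / 2) 2 two_pos (by omega) hKb ?_
        rw [← Subgroup.relIndex_mul_index hF.le, Nat.descFactorial_succ, Nat.descFactorial_one]
        obtain ⟨c, rfl⟩ : ∃ c, b = c + 3 := ⟨b - 3, by omega⟩
        have h6 := h4.trans (Nat.pow_le_pow_left h3 2)
        refine (Nat.mul_le_mul h6 hfb).trans ?_
        rw [show c + 3 - 1 = c + 2 by omega, mul_pow, mul_comm]
        exact Nat.mul_le_mul_right _ (by nlinarith)
  · have hbq : ∀ χ : IrrCharacter (G ⧸ K), charDegree χ.1 ≤ b := fun χ =>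
      charDegree_inflate K χ ▸ hb (inflate K χ)
    have hns : ∀ M : Subgroup (G ⧸ K), M.Normal → Group.IsSolvable M → M = ⊥ := by
      intro M hM h1
      by_contra h2
      have := GT.isSolvable_of_le (hK.quotient_min M hM h2)
      have : Group.IsSolvable ((G ⧸ K) ⧸ commutator (G ⧸ K)) := by
        have := isMulCommutative_quotient_of_commutator_le (le_refl (commutator (G ⧸ K)))
        exact GT.isSolvable_of_isMulCommutative
      exact hs (Group.isSolvable_of_ker_le_range (commutator (G ⧸ K)).subtype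
        (QuotientGroup.mk' (commutator (G ⧸ K))) (by simp))
    have hb5 : 5 ≤ b := by
      by_contra h1
      refine hs (isSolvable_of_two_primes Nat.prime_two Nat.prime_three _ fun r hr h2 => ?_)
      by_contra h3
      have := Fact.mk hr
      have h4 : 5 ≤ r := by
        have := hr.two_le
        have h5 : r ≠ 4 := by rintro rfl; exact absurd hr (by norm_num)
        omega
      obtain ⟨P⟩ : Nonempty (Sylow r (G ⧸ K)) := inferInstance
      have h5 := S4464.sylow_normal (fun χ => lt_of_le_of_lt (hbq χ) (by omega)) P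
      exact P.ne_bot_of_dvd_card h2 (hns _ h5 (GT.IsPGroup.isSolvable' P.isPGroup'))
    have : Nontrivial (G ⧸ K) := by
      by_contra h1
      have := not_nontrivial_iff_subsingleton.1 h1
      exact hs inferInstance
    obtain ⟨x, hx1, hx⟩ := exists_small_class hbq
    set H := (Subgroup.centralizer {x}).comap (QuotientGroup.mk' K) with hH
    have hHi : H.index ≤ b ^ 2 := by rwa [hH, GT.index_comap_mk']
    have hKH : K ≤ H := GT.le_comap_mk' _ _
    by_cases h1 : ∀ θ : IrrCharacter H, charDegree θ.1 ≤ b - 1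
    · exact step H (b - 1) 1 one_pos (by omega) h1 (by rwa [Nat.descFactorial_one])
    push Not at h1
    obtain ⟨θ, hθ⟩ := h1
    have h2 : H.normalCore = K := by
      by_contra h2
      have h3 := hK.le_of_lt _ inferInstance
        (lt_of_le_of_ne (Subgroup.normal_le_normalCore.2 hKH) (Ne.symm h2))
      have h4 : commutator (G ⧸ K) ≤ Subgroup.centralizer {x} := by
        rw [← map_mk'_commutator, Subgroup.map_le_iff_le_comap]
        exact h3.trans H.normalCore_le
      have h5 : x ∈ Subgroup.centralizer (commutator (G ⧸ K) : Set (G ⧸ K)) := fun y hy =>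
        (h4 hy x rfl).symm
      have h6 := hK.quotient_min (Subgroup.centralizer (commutator (G ⧸ K) : Set (G ⧸ K)))
        inferInstance fun e => hx1 (by rwa [e] at h5)
      have : IsMulCommutative (commutator (G ⧸ K)) :=
        GT.isMulCommutative_iff_forall.2 fun a ha c hc => h6 hc a ha
      exact hK.quotient_ne (hns _ inferInstance GT.isSolvable_of_isMulCommutative)
    have h3 : (K.subgroupOf H).index ∣ charDegree θ.1 ^ 2 :=
      index_dvd_degree_sq_of_vanish fun g hg => by
        by_contra h0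
        refine hg ?_
        have := mem_normalCore_of_forall_res_eq (θ := θ) (fun χ hχ =>
          hχ.res_eq_of_degree_le (irr_isCharacter χ) ((hb χ).trans (by omega))) h0
        rwa [h2] at this
    obtain ⟨χ, hχ⟩ := exists_degree_le_of_subgroup θ
    have h4 := (Nat.le_of_dvd (pow_pos (irr_degree_pos θ) 2) h3).trans
      (Nat.pow_le_pow_left (hχ.trans (hb χ)) 2)
    refine step K (b / 2) 3 three_pos (by omega) hKb ?_
    rw [← Subgroup.relIndex_mul_index hKH, Nat.descFactorial_succ, Nat.descFactorial_succ,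
      Nat.descFactorial_one]
    refine (Nat.mul_le_mul h4 hHi).trans ?_
    obtain ⟨c, rfl⟩ : ∃ c, b = c + 5 := ⟨b - 5, by omega⟩
    rw [← mul_pow, show c + 5 - 1 = c + 4 by omega, show c + 5 - 2 = c + 3 by omega]
    exact Nat.pow_le_pow_left (by nlinarith [Nat.zero_le (c * c * c), Nat.zero_le (c * c)]) 2

/-- Let b be the largest irreducible character degree of the finite group G. Then G has an abelian subgroup of index at most (b!)². -/
theorem result {G : Type*} [Group G] [Finite G] (b : ℕ) (hb : IsGreatest {d : ℕ | ∃ χ : Cfsg.IrrCharacter G, Cfsg.charDegree (χ : G → ℂ) = d} b) : ∃ A : Subgroup G, (∀ x ∈ A, ∀ y ∈ A, x * y = y * x) ∧ A.index ≤ (Nat.factorial b) ^ 2 := by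
  exact main b G fun χ => hb.2 ⟨χ, rfl⟩

end Cfsg.Agent.S4463
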