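import Cfsg.Statements.S4467
import Cfsg.Agent.Lib.Lin.Winter

set_option autoImplicit false
open Cfsg

namespace Cfsg.Agent.S4467

/-- Let the finite solvable group G have a faithful irreducible character of degree n, and suppose that for the prime p a Sylow p-subgroup of G is not normal. Then n is divisible by a prime power q > 1 with q congruent to −1, 0 or 1 modulo p. -/
theorem result {G : Type*} [Group G] [Finite G] (χ : Cfsg.IrrCharacter G) (hfaith : ∀ g : G, (χ : G → ℂ) g = (χ : G → ℂ) 1 → g = 1) (n : ℕ) (hn : Cfsg.charDegree (χ : G → ℂ) = n) (hsolv : Group.IsSolvable G) (p : ℕ) (hp : p.Prime) (P : Sylow p G) (hP : ¬ (P : Subgroup G).Normal) : ∃ q : ℕ, IsPrimePow q ∧ q ∣ n ∧ ((q : ℤ) ≡ -1 [ZMOD p] ∨ (q : ℤ) ≡ 0 [ZMOD p] ∨ (q : ℤ) ≡ 1 [ZMOD p]) := by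
  have := Fact.mk hp
  by_contra! h
  refine hP (LG.winter_aux n (fun q h1 h2 => ⟨fun hd => (h q h1 h2).2.1 ?_, fun hm => ?_⟩) G hsolv χ
    (χ.2.isCharacter.ker_eq_bot_iff.2 hfaith) hn.dvd P)
  · exact (Int.natCast_dvd_natCast.2 hd).modEq_zero_int
  · have h3 : (p : ℤ) ∣ (1 - q) * (-1 - q) := by
      have := (Int.natCast_modEq_iff.2 hm).symm.dvd
      push_cast at this
      convert this using 1; ring
    rcases (Nat.prime_iff_prime_int.1 hp).dvd_or_dvd h3 with h4 | h4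
    exacts [(h q h1 h2).2.2 (Int.modEq_iff_dvd.2 h4), (h q h1 h2).1 (Int.modEq_iff_dvd.2 h4)]

end Cfsg.Agent.S4467
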