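import Cfsg.Statements.S4471
import Cfsg.Agent.Lib.Lin.Small

set_option autoImplicit false
open Cfsg

namespace Cfsg.Agent.S4471

/-- Let p ≥ 7 be a prime and let the finite group G have a faithful irreducible character of degree n with n < 2p and n ≠ p. If the Sylow p-subgroups of G are non-abelian then p² does not divide the index of O_p(G) in G; consequently, in every case G/O_p(G) has abelian Sylow p-subgroups. -/
theorem result {G : Type*} [Group G] [Finite G] (χ : Cfsg.IrrCharacter G) (hfaith : ∀ g : G, (χ : G → ℂ) g = (χ : G → ℂ) 1 → g = 1) (n : ℕ) (hn : Cfsg.charDegree (χ : G → ℂ) = n) (p : ℕ) (hp : p.Prime) (h7 : 7 ≤ p) (hn2 : n < 2 * p) (hnp : n ≠ p) : ((∃ P : Sylow p G, ∃ x ∈ (P : Subgroup G), ∃ y ∈ (P : Subgroup G), x * y ≠ y * x) → ¬ p ^ 2 ∣ (Cfsg.pCore p G).index) ∧ ∀ Q : Sylow p (G ⧸ Cfsg.pCore p G), ∀ x ∈ (Q : Subgroup (G ⧸ Cfsg.pCore p G)), ∀ y ∈ (Q : Subgroup (G ⧸ Cfsg.pCore p G)), x * y = y * x := by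
  have := Fact.mk hp
  subst hn
  have key : ∀ P : Subgroup G, IsPGroup p P → ∀ x ∈ P, ∀ y ∈ P, x * y ≠ y * x →
      ¬ p ^ 2 ∣ (Cfsg.pCore p G).index := fun P hP x hx y hy hxy =>
    LG.not_sq_dvd_index_pCore χ (χ.2.isCharacter.ker_eq_bot_iff.2 hfaith) h7 hn2 hnp hP fun h =>
      hxy (have := (commutator_eq_bot_iff _).1 h; setLike_mul_comm (s := P) hx hy)
  refine ⟨fun ⟨P, x, hx, y, hy, h⟩ => key P P.isPGroup' x hx y hy h, fun Q x hx y hy => ?_⟩
  by_contra hxy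
  obtain ⟨x, rfl⟩ := QuotientGroup.mk'_surjective _ x
  obtain ⟨y, rfl⟩ := QuotientGroup.mk'_surjective _ y
  have h1 := key _ (Q.isPGroup'.comap_of_ker_isPGroup (QuotientGroup.mk' _)
    (by rw [QuotientGroup.ker_mk']; exact GT.isPGroup_pCore p G)) x hx y hy
    fun h => hxy (by rw [← map_mul, h, map_mul])
  obtain ⟨k, hk⟩ := Q.isPGroup'.exists_card_eq
  have h2 : Nat.card Q ∣ p := by
    rw [hk]
    refine (pow_dvd_pow p (not_lt.1 fun h => h1 ((pow_dvd_pow p h).trans ?_))).trans (pow_one p).dvd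
    rw [← hk]; exact Subgroup.card_subgroup_dvd_card _
  have := isCyclic_of_card_dvd_prime h2
  exact hxy (setLike_mul_comm (s := (Q : Subgroup _)) hx hy)

end Cfsg.Agent.S4471
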