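import Cfsg.Statements.S4472
import Cfsg.Agent.Lib.Lin.PRat

set_option autoImplicit false
open Cfsg

namespace Cfsg.Agent.S4472

/-- Let the finite p-solvable group G have a faithful character of degree n, and let p^a be the index of O_p(G) in a Sylow p-subgroup of G (the p-part of [G : O_p(G)]). Then a ≤ Σ_{i ≥ 0} ⌊n / ((p − 1) p^i)⌋ (a finite sum; the terms vanish for p^i > n). -/
theorem result {G : Type*} [Group G] [Finite G] (χ : G → ℂ) (hχ : Cfsg.IsCharacter G χ) (hfaith : ∀ g : G, χ g = χ 1 → g = 1) (n : ℕ) (hn : Cfsg.charDegree χ = n) (p : ℕ) (hp : p.Prime) (hsolv : Cfsg.IsPSolvable p G) : ((Cfsg.pCore p G).index).factorization p ≤ ∑ i ∈ Finset.range (n + 1), n / ((p - 1) * p ^ i) := by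
  have := Fact.mk hp
  subst hn
  have hk := hχ.ker_eq_bot_iff.2 hfaith
  obtain ⟨K, P, hK, hP, hn, hC, hi⟩ := LG.exists_complement_pair hsolv
  obtain ⟨Ψ, h1, h2, h3, h4⟩ := LG.exists_rational_companion hK hP hn (hχ.res (P ⊔ K))
  have hΨ := h1.resLe (le_sup_left : P ≤ P ⊔ K)
  have := hΨ.ker_normal
  obtain ⟨η, e1, e2, e3⟩ := LG.exists_faithful_quotient hΨ _ rfl
  have hb := LG.schur_bound hp (hP.to_quotient _) e1 e2 fun g k hk => by
    obtain ⟨g, rfl⟩ := QuotientGroup.mk_surjective g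
    exact (congrFun e3 (g ^ k)).symm.trans ((h3 ⟨g, _⟩ g.2 k hk).trans (congrFun e3 g))
  have hd : Cfsg.charDegree η = Cfsg.charDegree χ := by
    rw [← CT.charDegree_res (P ⊔ K) χ, ← h2]
    exact congrArg (fun z : ℂ => ⌊z.re⌋₊) (congrFun e3 1).symm
  rw [hd] at hb
  refine le_trans ((hp.pow_dvd_iff_le_factorization Nat.card_pos.ne').1 ?_) hb
  rw [← hi]
  refine Subgroup.index_dvd_of_le fun x hx => hC ⟨x.2, fun y hy => ?_⟩
  have := h4 ⟨x, Subgroup.mem_sup_left x.2⟩ (h1.mem_ker_iff.2 (hΨ.mem_ker_iff.1 hx))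
    ⟨y, Subgroup.mem_sup_right hy⟩ hy
  rw [hχ.ker_res, hk, Subgroup.mem_subgroupOf, Subgroup.mem_bot] at this
  exact (mul_inv_eq_iff_eq_mul.1 (mul_inv_eq_one.1 this)).symm

end Cfsg.Agent.S4472
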