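import Cfsg.Statements.S4474
import Cfsg.Agent.Lib.Char.FrobSchur
import Cfsg.Agent.Lib.Char.CentralExt

set_option autoImplicit false
open Cfsg

namespace Cfsg.Agent.S4474

open CT
open scoped Matrix ComplexOrder ComplexConjugate

section
variable {n : Type*} [Fintype n] [DecidableEq n]

/-- entrywise complex conjugation -/
private noncomputable def bar (M : Matrix n n ℂ) : Matrix n n ℂ := M.map (starRingEnd ℂ)

private theorem bar_mul (M N : Matrix n n ℂ) : bar (M * N) = bar M * bar N :=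
  Matrix.map_mul

private theorem bar_bar (M : Matrix n n ℂ) : bar (bar M) = M := by
  ext i j; simp [bar]

private theorem bar_one : bar (1 : Matrix n n ℂ) = 1 := by
  simp [bar]

private theorem bar_smul (c : ℂ) (M : Matrix n n ℂ) : bar (c • M) = conj c • bar M := by
  ext i j; simp [bar]

private theorem bar_add (M N : Matrix n n ℂ) : bar (M + N) = bar M + bar N := by
  ext i j; simp [bar]

private theorem bar_transpose (M : Matrix n n ℂ) : (bar M)ᵀ = Mᴴ := rfl

private theorem bar_conjTranspose (M : Matrix n n ℂ) : bar Mᴴ = Mᵀ := by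
  ext i j; simp [bar]

private theorem conjTranspose_bar (M : Matrix n n ℂ) : (bar M)ᴴ = Mᵀ := by
  ext i j; simp [bar]

private theorem exists_det_ne_zero (A : Matrix n n ℂ) :
    ∃ l : ℂ, (l • (1 : Matrix n n ℂ) + conj l • A).det ≠ 0 := by
  let f : Polynomial ℂ := ((1 + A).map Polynomial.C +
    (Polynomial.X : Polynomial ℂ) • (Complex.I • (1 - A)).map Polynomial.C).det
  have hf : ∀ t : ℂ, f.eval t = ((1 + A) + t • (Complex.I • (1 - A))).det := by
    intro t
    have := (Polynomial.evalRingHom t).map_det ((1 + A).map Polynomial.C +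
      (Polynomial.X : Polynomial ℂ) • (Complex.I • (1 - A)).map Polynomial.C)
    rw [Polynomial.coe_evalRingHom] at this
    rw [this]
    congr 1
    ext i j
    simp
  have hf0 : f ≠ 0 := by
    intro h
    have := hf (-Complex.I)
    rw [h, Polynomial.eval_zero, smul_smul, neg_mul, Complex.I_mul_I, neg_neg, one_smul,
      add_add_sub_cancel, ← two_smul ℂ, Matrix.det_smul, Matrix.det_one, mul_one] at this
    exact pow_ne_zero _ two_ne_zero this.symm
  by_contra hc
  push Not at hc
  apply hf0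
  refine Polynomial.eq_zero_of_infinite_isRoot f
    (Set.Infinite.mono ?_ (Set.infinite_range_of_injective Complex.ofReal_injective))
  rintro _ ⟨t, rfl⟩
  rw [Set.mem_ofPred_eq, Polynomial.IsRoot, hf, ← hc (1 + t * Complex.I)]
  congr 1
  ext i j
  simp only [Matrix.add_apply, Matrix.smul_apply, Matrix.sub_apply, smul_eq_mul, map_add, map_one,
    map_mul, Complex.conj_ofReal, Complex.conj_I]
  ring

variable {G : Type*} [Group G] [Finite G]

private theorem exists_intertwiner (X : G →* Matrix n n ℂ) (hX : (matRep X).IsIrreducible)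
    {B : Matrix n n ℂ} (hB : B.det ≠ 0) (hs : Bᵀ = B) (hi : ∀ g, (X g)ᵀ * B * X g = B) :
    ∃ A : Matrix n n ℂ, A * bar A = 1 ∧ ∀ g, X g * A = A * bar (X g) := by
  obtain ⟨H, hH, hHi⟩ := exists_posDef_invariant X
  have hBu : IsUnit B.det := isUnit_iff_ne_zero.2 hB
  have hinv : ∀ g, X g * X g⁻¹ = 1 := fun g => by rw [← map_mul, mul_inv_cancel, map_one]
  have hinv' : ∀ g, X g⁻¹ * X g = 1 := fun g => by rw [← map_mul, inv_mul_cancel, map_one]
  have h1 : ∀ g, X g * (B⁻¹ * bar H) = (B⁻¹ * bar H) * bar (X g) := by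
    intro g
    have e1 : (X g)ᵀ * bar H * bar (X g) = bar H := by
      rw [← bar_conjTranspose, ← bar_mul, ← bar_mul, hHi]
    have e2 : X g * B⁻¹ * (X g)ᵀ = B⁻¹ := by
      have : (X g)ᵀ * B = B * X g⁻¹ := by
        conv_rhs => rw [← hi g, Matrix.mul_assoc, hinv, Matrix.mul_one]
      calc X g * B⁻¹ * (X g)ᵀ = X g * B⁻¹ * ((X g)ᵀ * B) * B⁻¹ := by
            rw [Matrix.mul_assoc (X g * B⁻¹), Matrix.mul_nonsing_inv_cancel_right _ _ hBu]
        _ = B⁻¹ := by
            rw [this, Matrix.mul_assoc (X g), Matrix.nonsing_inv_mul_cancel_left _ _ hBu, hinv,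
              Matrix.one_mul]
    have e3 : (X g⁻¹)ᵀ * bar H = bar H * bar (X g) := by
      have e1' : (X g⁻¹)ᵀ * bar H * bar (X g⁻¹) = bar H := by
        rw [← bar_conjTranspose, ← bar_mul, ← bar_mul, hHi]
      conv_rhs => rw [← e1', Matrix.mul_assoc, ← bar_mul, hinv', bar_one, Matrix.mul_one]
    rw [Matrix.mul_assoc B⁻¹, ← e3]
    conv_rhs => rw [← e2]
    rw [Matrix.mul_assoc (X g * B⁻¹), ← Matrix.mul_assoc (X g)ᵀ, ← Matrix.transpose_mul, hinv',
      Matrix.transpose_one, Matrix.one_mul, Matrix.mul_assoc]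
  set A := B⁻¹ * bar H with hA
  have h2 : ∀ g, bar (X g) * bar A = bar A * X g := fun g => by
    rw [← bar_mul, h1, bar_mul, bar_bar]
  obtain ⟨c, hc⟩ := rep_exists_scalar_of_commute (matRep X) hX (Matrix.toLin' (A * bar A))
    (fun g => by
      rw [matRep_apply, Module.End.mul_eq_comp, Module.End.mul_eq_comp, ← Matrix.toLin'_mul,
        ← Matrix.toLin'_mul, Matrix.mul_assoc, ← h2, ← Matrix.mul_assoc, ← h1, Matrix.mul_assoc])
  have hc' : A * bar A = c • (1 : Matrix n n ℂ) := by
    apply Matrix.toLin'.injective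
    rw [hc, map_smul, Matrix.toLin'_one]
    rfl
  have hne : Nonempty n := by
    have := ((rep_isIrreducible_iff _).1 hX).1
    by_contra h
    rw [not_nonempty_iff] at h
    exact not_subsingleton (n → ℂ) inferInstance
  obtain ⟨i⟩ := hne
  have hHu : IsUnit H.det := (Matrix.isUnit_iff_isUnit_det H).1 hH.isUnit
  have h3 : (bar B⁻¹)ᴴ * Hᵀ * bar B⁻¹ = c • H⁻¹ := by
    have : bar H = Hᵀ := by rw [← bar_conjTranspose, hH.isHermitian.eq]
    rw [conjTranspose_bar, Matrix.transpose_nonsing_inv, hs, ← this, ← hA]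
    have e : A * bar A = A * bar B⁻¹ * H := by
      have : bar A = bar B⁻¹ * H := by rw [hA, bar_mul, bar_bar]
      rw [this, Matrix.mul_assoc A]
    rw [← Matrix.mul_nonsing_inv_cancel_right H (A * bar B⁻¹) hHu, ← e, hc', Matrix.smul_mul,
      Matrix.one_mul]
  have hbu : IsUnit (bar B⁻¹) := by
    refine IsUnit.of_mul_eq_one (bar B) ?_
    rw [← bar_mul, Matrix.nonsing_inv_mul _ hBu, bar_one]
  have h4 : (c • H⁻¹).PosDef := by
    rw [← h3]
    exact hH.transpose.conjTranspose_mul_mul_same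
      (Matrix.mulVec_injective_iff_isUnit.2 hbu)
  have h5 : 0 < c := by
    have a1 : 0 < c * H⁻¹ i i := h4.diag_pos
    have a2 : 0 < H⁻¹ i i := hH.inv.diag_pos
    exact (mul_pos_iff_of_pos_right a2).1 a1
  obtain ⟨r, hr, rfl⟩ : ∃ r : ℝ, 0 < r ∧ (r : ℂ) = c := by
    refine ⟨c.re, (Complex.pos_iff.1 h5).1, ?_⟩
    exact Complex.ext rfl (by simpa using (Complex.pos_iff.1 h5).2)
  refine ⟨((√r : ℝ) : ℂ)⁻¹ • A, ?_, fun g => ?_⟩
  · rw [bar_smul, Matrix.smul_mul, Matrix.mul_smul, hc', smul_smul, smul_smul, map_inv₀,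
      Complex.conj_ofReal, ← mul_inv, ← Complex.ofReal_mul, Real.mul_self_sqrt hr.le,
      inv_mul_cancel₀ (by exact_mod_cast hr.ne'), one_smul]
  · rw [Matrix.mul_smul, Matrix.smul_mul, h1]

private theorem exists_real_form (X : G →* Matrix n n ℂ) (hX : (matRep X).IsIrreducible)
    {B : Matrix n n ℂ} (hB : B.det ≠ 0) (hs : Bᵀ = B) (hi : ∀ g, (X g)ᵀ * B * X g = B) :
    ∃ Y : G →* Matrix n n ℝ, ∀ g, (((Y g).trace : ℝ) : ℂ) = (X g).trace := by
  obtain ⟨A, hA, hAX⟩ := exists_intertwiner X hX hB hs hi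
  obtain ⟨l, hl⟩ := exists_det_ne_zero A
  set Q := l • (1 : Matrix n n ℂ) + conj l • A with hQ
  have hQu : IsUnit Q.det := isUnit_iff_ne_zero.2 hl
  have h1 : A * bar Q = Q := by
    rw [hQ, bar_add, bar_smul, bar_smul, bar_one, Complex.conj_conj, Matrix.mul_add,
      Matrix.mul_smul, Matrix.mul_smul, hA, Matrix.mul_one, add_comm]
  have h2 : ∀ g, bar (Q⁻¹ * X g * Q) = Q⁻¹ * X g * Q := by
    intro g
    have e : Q * bar (Q⁻¹ * X g * Q) = X g * Q := by
      conv_lhs => rw [← h1]
      rw [h1]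
      conv_lhs => enter [1]; rw [← h1]
      rw [Matrix.mul_assoc A, ← bar_mul, Matrix.mul_assoc Q⁻¹,
        Matrix.mul_nonsing_inv_cancel_left _ _ hQu, bar_mul, ← Matrix.mul_assoc, ← hAX,
        Matrix.mul_assoc, h1]
    conv_rhs => rw [Matrix.mul_assoc Q⁻¹ (X g), ← e, Matrix.nonsing_inv_mul_cancel_left _ _ hQu]
  have h3 : ∀ g, ((Q⁻¹ * X g * Q).map Complex.re).map Complex.ofRealHom = Q⁻¹ * X g * Q := by
    intro g
    ext i j
    have := congrFun (congrFun (h2 g) i) j
    exact Complex.conj_eq_iff_re.1 this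
  have hinj : Function.Injective (fun M : Matrix n n ℝ => M.map Complex.ofRealHom) :=
    Matrix.map_injective Complex.ofReal_injective
  refine ⟨{ toFun := fun g => (Q⁻¹ * X g * Q).map Complex.re
            map_one' := hinj ?_
            map_mul' := fun g h => hinj ?_ }, fun g => ?_⟩
  · simp only [h3]
    rw [map_one, Matrix.mul_one, Matrix.nonsing_inv_mul _ hQu]
    simp
  · simp only [Matrix.map_mul, h3]
    rw [map_mul]
    simp only [Matrix.mul_assoc]
    rw [Matrix.mul_nonsing_inv_cancel_left _ _ hQu]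
  · have := congrArg Matrix.trace (h3 g)
    rw [Matrix.trace_mul_comm, Matrix.mul_nonsing_inv_cancel_left _ _ hQu] at this
    rw [← this]
    simp [Matrix.trace]

end

/-- Let χ be an irreducible character of the finite group G. Then the Frobenius–Schur indicator of χ (the average over s ∈ G of χ(s²)) equals 1 if and only if χ is afforded by a real representation: there is a representation of G on a real coordinate space whose trace function, viewed in ℂ, is χ. -/
theorem result {G : Type*} [Group G] [Fintype G] (χ : Cfsg.IrrCharacter G) : ((Nat.card G : ℂ)⁻¹ * ∑ s : G, (χ : G → ℂ) (s * s)) = 1 ↔ ∃ (n : ℕ) (ρ : Representation ℝ G (Fin n → ℝ)), ∀ g : G, ((LinearMap.trace ℝ (Fin n → ℝ) (ρ g) : ℝ) : ℂ) = (χ : G → ℂ) g := by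
  rw [← nu2_def, irr_nu2_eq_one_iff_hasForm]
  constructor
  · rintro ⟨n, _, _, X, B, h1, h2, h3, h4⟩
    have hX : (matRep X).IsIrreducible := matRep_isIrreducible X (by rw [funext h1]; exact χ.2)
    obtain ⟨Y, hY⟩ := exists_real_form X hX h2 (by rw [h3, one_smul]) h4
    let e := Fintype.equivFin n
    refine ⟨Fintype.card n, (Matrix.toLinAlgEquiv' (R := ℝ)).toMonoidHom.comp
      ((Matrix.reindexAlgEquiv ℝ ℝ e).toMonoidHom.comp Y), fun g => ?_⟩
    change ((LinearMap.trace ℝ _ (Matrix.toLin' (Matrix.reindex e e (Y g))) : ℝ) : ℂ) = _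
    rw [Matrix.trace_toLin'_eq, ← h1, ← hY]
    congr 1
    exact Equiv.sum_comp e.symm (fun i => Y g i i)
  · rintro ⟨n, ρ, h⟩
    let Y : G →* Matrix (Fin n) (Fin n) ℝ :=
      (LinearMap.toMatrixAlgEquiv' (R := ℝ) (n := Fin n)).toMonoidHom.comp ρ
    let X : G →* Matrix (Fin n) (Fin n) ℂ :=
      (Complex.ofRealHom.mapMatrix (m := Fin n)).toMonoidHom.comp Y
    have hX : ∀ g, X g = (Y g).map Complex.ofRealHom := fun g => rfl
    have hXr : ∀ g, (X g)ᴴ = (X g)ᵀ := fun g => by
      ext i j; simp [hX]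
    have htr : ∀ g, (X g).trace = χ.1 g := fun g => by
      rw [← h g, ← Matrix.toLin'_toMatrix' (ρ g), Matrix.trace_toLin'_eq, hX]
      simp [Matrix.trace]
      rfl
    refine ⟨Fin n, inferInstance, inferInstance, X, ∑ g : G, (X g)ᵀ * X g, htr, ?_, ?_,
      fun g => ?_⟩
    · have : (∑ g : G, (X g)ᵀ * X g).PosDef := by
        classical
        rw [← Finset.add_sum_erase _ _ (Finset.mem_univ (1 : G))]
        refine Matrix.PosDef.add_posSemidef ?_ ?_
        · simpa using Matrix.PosDef.one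
        · exact Matrix.posSemidef_sum _ fun h _ =>
            hXr h ▸ Matrix.posSemidef_conjTranspose_mul_self _
      exact ((Matrix.isUnit_iff_isUnit_det _).1 this.isUnit).ne_zero
    · simp [Matrix.transpose_sum]
    · simp only [Finset.mul_sum, Finset.sum_mul]
      refine Fintype.sum_equiv (Equiv.mulRight g) _ _ fun h => ?_
      simp [Matrix.transpose_mul, mul_assoc]

end Cfsg.Agent.S4474
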