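import Cfsg.Statements.S4475
import Cfsg.Agent.Lib.Char.FrobSchur

set_option autoImplicit false
open Cfsg

namespace Cfsg.Agent.S4475

open CT
open scoped Matrix

/-- Let ρ be an irreducible representation of the finite group G on the coordinate space Fin n → ℂ whose character χ is real-valued, and let ν be the Frobenius–Schur indicator of χ (the average of χ(s²)). Writing X(g) for the matrix of ρ(g), there is a nonzero matrix M with X(g)ᵀ M X(g) = M for all g ∈ G; and every such M (zero or not) satisfies Mᵀ = ν·M. -/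
theorem result {G : Type*} [Group G] [Fintype G] (n : ℕ) (ρ : Representation ℂ G (Fin n → ℂ)) (hirr : ρ.IsIrreducible) (hreal : ∀ g : G, (ρ.character g).im = 0) : (∃ M : Matrix (Fin n) (Fin n) ℂ, M ≠ 0 ∧ ∀ g : G, (LinearMap.toMatrix' (ρ g)).transpose * M * LinearMap.toMatrix' (ρ g) = M) ∧ ∀ M : Matrix (Fin n) (Fin n) ℂ, (∀ g : G, (LinearMap.toMatrix' (ρ g)).transpose * M * LinearMap.toMatrix' (ρ g) = M) → M.transpose = ((Nat.card G : ℂ)⁻¹ * ∑ s : G, ρ.character (s * s)) • M := by
  let X : G →* Matrix (Fin n) (Fin n) ℂ :=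
    (LinearMap.toMatrixAlgEquiv' (R := ℂ) (n := Fin n)).toMonoidHom.comp ρ
  have hX : ∀ g, X g = LinearMap.toMatrix' (ρ g) := fun g => rfl
  have htr : ∀ g, (X g).trace = ρ.character g := fun g => by
    rw [hX, Representation.character, ← Matrix.trace_toLin'_eq, Matrix.toLin'_toMatrix']
  let χ : IrrCharacter G := ⟨ρ.character, isIrrCharacter_of_rep ρ hirr⟩
  have hr : IsReal χ.1 := isReal_iff_im.2 hreal
  rw [← nu2_def]
  change _ ∧ ∀ M : Matrix (Fin n) (Fin n) ℂ, _ → Mᵀ = nu2 χ.1 • M
  have hε : nu2 χ.1 * nu2 χ.1 = 1 := by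
    rcases irr_nu2_of_isReal χ hr with h | h <;> simp [h]
  have hsq : ip (fun g => (X g).trace ^ 2) (fun _ => 1) = 1 := by
    have := ip_mul_self_one χ.1
    rw [irr_ip_cbar, if_pos hr] at this
    refine Eq.trans ?_ this
    congr 1
    funext g
    rw [htr, sq]; rfl
  obtain ⟨M₀, h0, h1, h2⟩ := (ip_signSq_ne_zero_iff X hε).1 (by
    have : (fun g => ((X g).trace ^ 2 + nu2 χ.1 * (X (g * g)).trace) / 2) =
        (1 / 2 : ℂ) • ((fun g => (X g).trace ^ 2) + nu2 χ.1 • fun g => χ.1 (g * g)) := by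
      funext g
      simp only [Pi.smul_apply, Pi.add_apply, smul_eq_mul, htr (g * g)]
      change _ = _ * (_ + _ * ρ.character _)
      ring
    rw [this, ip_smul_left, ip_add_left, ip_smul_left, hsq, ← nu2_eq_ip, hε]
    norm_num)
  refine ⟨⟨M₀, h0, h2⟩, fun M hM => ?_⟩
  have hfin : Module.finrank ℂ (formRep X).invariants = 1 := by
    have := finrank_invariants_formRep X
    rw [hsq] at this
    exact_mod_cast this
  obtain ⟨c, hc⟩ := (finrank_eq_one_iff_of_nonzero'
    (⟨M₀, (mem_invariants_formRep X M₀).2 h2⟩ : (formRep X).invariants)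
    (fun h => h0 (congrArg Subtype.val h))).1 hfin ⟨M, (mem_invariants_formRep X M).2 hM⟩
  have hc' : c • M₀ = M := congrArg Subtype.val hc
  rw [← hc', Matrix.transpose_smul, h1, smul_comm]

end Cfsg.Agent.S4475
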