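import Cfsg.Statements.S4476
import Cfsg.Agent.Lib.Char.Invol

set_option autoImplicit false
open Cfsg

namespace Cfsg.Agent.S4476

open CT Cfsg MulAction

/-- Let G be a finite group of even order g with exactly t involutions, and put α = (g − 1)/t (a rational number). Then (a) some non-identity element x of G has at most α² conjugates; and (b) some non-principal real-valued irreducible character of G has degree at most α. -/
theorem result {G : Type*} [Group G] [Fintype G] (heven : Even (Nat.card G)) (t : ℕ) (ht : Nat.card {x : G // orderOf x = 2} = t) : (∃ x : G, x ≠ 1 ∧ ((Subgroup.centralizer ({x} : Set G)).index : ℚ) ≤ (((Nat.card G : ℚ) - 1) / t) ^ 2) ∧ ∃ χ : Cfsg.IrrCharacter G, (χ : G → ℂ) ≠ (fun _ => 1) ∧ (∀ g : G, ((χ : G → ℂ) g).im = 0) ∧ (Cfsg.charDegree (χ : G → ℂ) : ℚ) ≤ ((Nat.card G : ℚ) - 1) / t := by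
  classical
  set R := Finset.univ.filter fun χ : IrrCharacter G => χ ≠ irrOne G ∧ IsReal χ.1 with hR
  have ht0 : 0 < t := by
    obtain ⟨s, hs⟩ := exists_prime_orderOf_dvd_card' 2 heven.two_dvd
    have : Nonempty {x : G // orderOf x = 2} := ⟨⟨s, hs⟩⟩
    exact ht ▸ Nat.card_pos
  have h1 : t ≤ ∑ χ ∈ R, charDegree χ.1 := by
    have h2 := congrArg Complex.re (sum_nu2_mul_degree (G := G))
    rw [ht, ← Finset.add_sum_erase _ _ (Finset.mem_univ (irrOne G)), irrOne_val, nu2_one] at h2
    simp only [mul_one, Complex.add_re, Complex.natCast_re, add_right_inj, Complex.re_sum] at h2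
    rw [← Nat.cast_le (α := ℝ), ← h2, Nat.cast_sum, hR, ← Finset.filter_filter, Finset.filter_ne',
      Finset.sum_filter]
    refine Finset.sum_le_sum fun χ _ => ?_
    rw [irr_apply_one]
    split_ifs with h
    · rcases irr_nu2_of_isReal χ h with h | h <;> simp [h]
    · simp [(irr_nu2_eq_zero_iff χ).2 h]
  have h2 : ∑ χ ∈ R, charDegree χ.1 ^ 2 + 1 ≤ Nat.card G := by
    rw [← sum_irr_degree_sq, ← Finset.sum_erase_add _ _ (Finset.mem_univ (irrOne G)),
      charDegree_irrOne, one_pow, Nat.add_le_add_iff_right]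
    exact Finset.sum_le_sum_of_subset fun χ hχ =>
      Finset.mem_erase.2 ⟨(Finset.mem_filter.1 hχ).2.1, Finset.mem_univ _⟩
  have htq : (0 : ℚ) < t := Nat.cast_pos.2 ht0
  have h2q : ∑ χ ∈ R, (charDegree χ.1 : ℚ) ^ 2 ≤ (Nat.card G : ℚ) - 1 := by
    rw [le_sub_iff_add_le]
    exact_mod_cast h2
  have h1q : (t : ℚ) ≤ ∑ χ ∈ R, (charDegree χ.1 : ℚ) := by exact_mod_cast h1
  have hg1 : (0 : ℚ) < (Nat.card G : ℚ) - 1 := by
    have := Nat.le_of_dvd Nat.card_pos heven.two_dvd
    rw [sub_pos]
    exact_mod_cast this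
  constructor
  · by_contra hc
    push Not at hc
    have h3 : (R.card : ℚ) + 1 ≤ Nat.card (ConjClasses G) := by
      rw [← card_irr_eq_card_conjClasses, Nat.card_eq_fintype_card, ← Finset.card_univ,
        ← Finset.card_erase_add_one (Finset.mem_univ (irrOne G))]
      have : R.card ≤ (Finset.univ.erase (irrOne G)).card := Finset.card_le_card fun χ hχ =>
        Finset.mem_erase.2 ⟨(Finset.mem_filter.1 hχ).2.1, Finset.mem_univ _⟩
      exact_mod_cast Nat.succ_le_succ this
    have h4 : (t : ℚ) ^ 2 ≤ R.card * ((Nat.card G : ℚ) - 1) :=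
      (pow_le_pow_left₀ htq.le h1q 2).trans ((sq_sum_le_card_mul_sum_sq).trans
        (mul_le_mul_of_nonneg_left h2q (Nat.cast_nonneg _)))
    have h5 := sum_card_centralizer_filter (G := G) fun _ => True
    rw [Finset.filter_true, ← Finset.sum_erase_add _ _ (Finset.mem_univ (1 : G)),
      Nat.card_congr (Equiv.subtypeUnivEquiv fun _ => trivial),
      Subgroup.centralizer_eq_top_iff_subset.2 (by simp), Subgroup.card_top] at h5
    have h6 : ∑ x ∈ Finset.univ.erase (1 : G),
        (Nat.card (Subgroup.centralizer ({x} : Set G)) : ℚ) * (((Nat.card G : ℚ) - 1) / t) ^ 2 <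
        ∑ _x ∈ Finset.univ.erase (1 : G), (Nat.card G : ℚ) := by
      refine Finset.sum_lt_sum_of_nonempty ?_ fun x hx => ?_
      · obtain ⟨s, hs⟩ := exists_prime_orderOf_dvd_card' 2 heven.two_dvd
        exact ⟨s, Finset.mem_erase.2 ⟨fun e => by simp [e] at hs, Finset.mem_univ _⟩⟩
      · rw [← (Subgroup.centralizer {x}).card_mul_index, Nat.cast_mul]
        refine mul_lt_mul_of_pos_left ?_ (Nat.cast_pos.2 Nat.card_pos)
        rw [← Nat.cast_mul, (Subgroup.centralizer {x}).card_mul_index]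
        exact hc x (Finset.mem_erase.1 hx).1
    rw [← Finset.sum_mul, Finset.sum_const, Finset.card_erase_of_mem (Finset.mem_univ _),
      Finset.card_univ, ← Nat.card_eq_fintype_card, nsmul_eq_mul,
      Nat.cast_sub Nat.card_pos, ← Nat.cast_sum, Nat.cast_one, div_pow, ← mul_div_assoc,
      div_lt_iff₀ (pow_pos htq 2)] at h6
    have h7 := congrArg (Nat.cast : ℕ → ℚ) h5
    rw [Nat.cast_add, Nat.cast_mul] at h7
    have hg0 : (0 : ℚ) < Nat.card G := Nat.cast_pos.2 Nat.card_pos
    rw [eq_sub_of_add_eq h7] at h6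
    have h8 : ((Nat.card G : ℚ) - 1) * Nat.card G * (t : ℚ) ^ 2 ≤
        ((Nat.card G : ℚ) - 1) * Nat.card G * ((Nat.card (ConjClasses G) - 1) *
          ((Nat.card G : ℚ) - 1)) :=
      mul_le_mul_of_nonneg_left (h4.trans (mul_le_mul_of_nonneg_right (by linarith) hg1.le))
        (by positivity)
    nlinarith
  · by_contra hc
    push Not at hc
    have h3 : ∑ χ ∈ R, ((Nat.card G : ℚ) - 1) / t * charDegree χ.1 <
        ∑ χ ∈ R, (charDegree χ.1 : ℚ) ^ 2 := by
      refine Finset.sum_lt_sum_of_nonempty ?_ fun χ hχ => ?_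
      · rw [Finset.nonempty_iff_ne_empty]
        rintro h
        rw [h, Finset.sum_empty] at h1
        omega
      · obtain ⟨h4, h5⟩ := (Finset.mem_filter.1 hχ).2
        rw [sq]
        exact mul_lt_mul_of_pos_right (hc χ (fun e => h4 (Subtype.ext e)) (isReal_iff_im.1 h5))
          (Nat.cast_pos.2 (irr_degree_pos χ))
    rw [← Finset.mul_sum] at h3
    have h4 := mul_le_mul_of_nonneg_left h1q (div_pos hg1 htq).le
    rw [div_mul_cancel₀ _ htq.ne'] at h4
    linarith

end Cfsg.Agent.S4476
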