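import Cfsg.Statements.S4477
import Cfsg.Agent.Lib.Char.Invol
import Cfsg.Agent.Lib.Grp.PGrp

set_option autoImplicit false
open Cfsg

namespace Cfsg.Agent.S4477

open CT Cfsg

theorem ip_self_le {G : Type*} [Group G] [Finite G] {θ : G → ℂ} (hθ : IsCharacter G θ) {n : ℕ}
    (h : ip θ θ = n) : n ≤ charDegree θ ^ 2 := by
  rw [hθ.ip_self_eq_sum_mult_sq, Nat.cast_inj] at h
  rw [← h, hθ.degree_eq_sum_mult]
  refine le_trans (Finset.sum_le_sum fun χ _ => Nat.pow_le_pow_left
    (Nat.le_mul_of_pos_right _ (irr_degree_pos χ)) 2) ?_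
  exact Finset.sum_sq_le_sq_sum_of_nonneg fun _ _ => Nat.zero_le _

theorem card_sq_mod_two (G : Type*) [Group G] [Finite G] :
    Nat.card {x : G // x * x = 1} % 2 = Nat.card G % 2 := by
  classical
  have := Fintype.ofFinite G
  rw [Nat.card_eq_fintype_card (α := G), ← Finset.card_univ,
    card_filter_fixed_mod_two Finset.univ (fun x : G => x⁻¹) (by simp) (by simp),
    Nat.subtype_card (Finset.univ.filter fun x : G => x⁻¹ = x) (by simp [inv_eq_iff_mul_eq_one])]

universe u

theorem aux (n : ℕ) : ∀ (G : Type u) [Group G] [Finite G], Nat.card G = n → IsPGroup 2 G →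
    Nat.card {x : G // x * x = 1} % 4 = 2 → IsCyclic G ∨ (commutator G).index = 4 := by
  induction n using Nat.strong_induction_on with
  | _ n ih =>
  intro G _ _ hn hG ht
  classical
  by_cases hc : IsMulCommutative G
  · left
    have : IsMulCommutative (⊤ : Subgroup G) :=
      GT.isMulCommutative_iff_forall.2 fun a _ b _ => hc.is_comm.comm a b
    have h1 : Nat.card (GT.powKer (⊤ : Subgroup G) 2) = Nat.card {x : G // x * x = 1} :=
      Nat.card_congr (Equiv.subtypeEquivRight fun x => by simp [GT.mem_powKer, sq])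
    obtain ⟨k, hk⟩ := IsPGroup.iff_card.1 (hG.to_subgroup (GT.powKer (⊤ : Subgroup G) 2))
    have : IsCyclic (⊤ : Subgroup G) := GT.isCyclic_of_card_powKer_le (hG.to_subgroup ⊤) (by
      rw [← h1, hk] at ht
      rw [hk]
      match k, ht with
      | 0, _ => simp
      | 1, _ => simp
      | k + 2, ht => rw [pow_add] at ht; omega)
    exact isCyclic_of_surjective _ (Subgroup.topEquiv (G := G)).surjective
  right
  have hnc : ¬ IsCyclic G := fun h => hc IsCyclic.isMulCommutative
  have h1 := GT.inf_center_ne_bot_of_isPGroup hG (N := commutator G)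
    (fun e => hc (isMulCommutative_iff_forall_degree_one.2
      (commutator_eq_bot_iff_forall_degree_one.1 e)))
  obtain ⟨z, hz, hz2⟩ := GT.exists_mem_orderOf_eq (p := 2)
    ((hG.to_subgroup _).card_eq_or_dvd.resolve_left
      (fun e => h1 (Subgroup.card_eq_one.1 e)))
  set Z := Subgroup.zpowers z with hZ
  have hZ1 : Z ≤ commutator G := Subgroup.zpowers_le.2 hz.1
  have hZ2 : Z ≤ Subgroup.center G := Subgroup.zpowers_le.2 hz.2
  have : Z.Normal := ⟨fun n hn g => by
    rwa [Subgroup.mem_center_iff.1 (hZ2 hn) g, mul_inv_cancel_right]⟩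
  have hQ : ¬ IsCyclic (G ⧸ Z) := fun _ => hc (GT.isMulCommutative_of_isCyclic_quotient hZ2)
  by_cases h2 : Nat.card {x : G ⧸ Z // x * x = 1} % 4 = 2
  · have h3 := (ih _ (by
      rw [← hn, ← Z.card_mul_index, hZ, Nat.card_zpowers, hz2]
      have : 0 < (Subgroup.zpowers z).index := Nat.pos_of_ne_zero Subgroup.index_ne_zero_of_finite
      change (Subgroup.zpowers z).index < _
      omega) (G ⧸ Z) rfl (hG.to_quotient Z) h2).resolve_left hQ
    have h4 : commutator (G ⧸ Z) = (commutator G).map (QuotientGroup.mk' Z) := by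
      rw [commutator_def, commutator_def, Subgroup.map_commutator,
        Subgroup.map_top_of_surjective _ (QuotientGroup.mk'_surjective Z)]
    rwa [h4, Subgroup.index_map, QuotientGroup.ker_mk',
      sup_of_le_left hZ1, QuotientGroup.range_mk', Subgroup.index_top, mul_one] at h3
  have h3 : Nat.card {x : G ⧸ Z // x * x = 1} % 4 = 0 := by
    have h4 := card_sq_mod_two (G ⧸ Z)
    have h5 := ((hG.to_quotient Z).card_eq_or_dvd.resolve_left fun e => by
      have := (Nat.card_eq_one_iff_unique.1 e).1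
      exact hQ isCyclic_of_subsingleton)
    omega
  choose ν hν using fun χ : IrrCharacter G => (irr_isCharacter χ).isGen.exists_int_nu2
  have h4 : (Nat.card {x : G // x * x = 1} : ℤ) = Nat.card {x : G ⧸ Z // x * x = 1} +
      ∑ χ : IrrCharacter G with ¬ Z ≤ ker χ.1, ν χ * charDegree χ.1 := by
    apply Int.cast_injective (α := ℂ)
    push_cast
    rw [← sum_nu2_mul, ← sum_nu2_mul,
      ← Finset.sum_filter_add_sum_filter_not Finset.univ (fun χ : IrrCharacter G => Z ≤ ker χ.1),
      ← sum_inflate Z (fun χ => nu2 χ.1 * χ.1 1)]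
    congr 1
    · refine Finset.sum_congr rfl fun ψ _ => ?_
      rw [inflate_apply, QuotientGroup.mk_one]
      congr 1
      exact nu2_comp_of_surjective (QuotientGroup.mk' Z) (QuotientGroup.mk'_surjective Z) ψ.1
    · exact Finset.sum_congr rfl fun χ _ => by rw [hν, irr_apply_one]
  set Y := Finset.univ.filter fun χ : IrrCharacter G => ¬ Z ≤ ker χ.1 ∧ charDegree χ.1 = 2 with hY
  have h5 : ¬ 2 ∣ Y.card := by
    intro h5
    have h6 := card_filter_fixed_mod_two Y irrBar (fun χ hχ => by
      simp only [hY, Finset.mem_filter, Finset.mem_univ, true_and] at hχ ⊢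
      rw [irrBar_val, ker_cbar]
      exact ⟨hχ.1, ((irr_isCharacter χ).charDegree_gal (starRingEnd ℂ)).trans hχ.2⟩)
      (fun χ _ => irrBar_irrBar χ)
    have h7 : ((∑ χ : IrrCharacter G with ¬ Z ≤ ker χ.1, ν χ * charDegree χ.1 : ℤ) : ZMod 4) =
        (Y.filter fun χ => irrBar χ = χ).card * 2 := by
      rw [← nsmul_eq_mul, ← Finset.sum_const, hY, Finset.filter_filter, Int.cast_sum,
        Finset.sum_filter, Finset.sum_filter]
      refine Finset.sum_congr rfl fun χ _ => ?_
      by_cases hχ : Z ≤ ker χ.1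
      · simp [hχ]
      simp only [hχ, not_false_eq_true, if_true, true_and]
      obtain ⟨k, hk⟩ := IsPGroup.iff_card.1 hG
      obtain ⟨j, -, hj⟩ := (Nat.dvd_prime_pow Nat.prime_two).1 (hk ▸ irr_degree_dvd_card χ)
      have h8 : ν χ = 1 ∧ irrBar χ = χ ∨ ν χ = -1 ∧ irrBar χ = χ ∨ ν χ = 0 ∧ irrBar χ ≠ χ := by
        rw [Ne, ← irr_isReal_iff_irrBar]
        rcases irr_nu2_cases χ with h | h | h
        · exact Or.inl ⟨by rw [hν] at h; exact_mod_cast h, irr_isReal_of_nu2_eq_one χ h⟩
        · exact Or.inr (Or.inl ⟨by rw [hν] at h; exact_mod_cast h,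
            irr_isReal_of_nu2_eq_neg_one χ h⟩)
        · exact Or.inr (Or.inr ⟨by rw [hν] at h; exact_mod_cast h, (irr_nu2_eq_zero_iff χ).1 h⟩)
      match j, hj with
      | 0, hj =>
        exact absurd (hZ1.trans ((irr_degree_eq_one_iff_commutator_le_ker χ).1 hj)) hχ
      | 1, hj => rcases h8 with h | h | h <;> simp [hj, h.1, h.2] <;> decide
      | j + 2, hj =>
        rw [if_neg (fun h => by rw [hj, pow_add] at h; omega), hj, pow_add]
        push_cast
        rw [show (4 : ZMod 4) = 0 from rfl, mul_zero, mul_zero]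
    obtain ⟨c, hc⟩ : 2 ∣ (Y.filter fun χ => irrBar χ = χ).card := by omega
    rw [hc, Nat.cast_mul, mul_comm _ (c : ZMod 4), mul_assoc,
      show ((2 : ℕ) : ZMod 4) * 2 = 0 from rfl, mul_zero, ZMod.intCast_zmod_eq_zero_iff_dvd] at h7
    omega
  let S : SubMulAction (G →* ℂˣ) (IrrCharacter G) :=
    { carrier := Y
      smul_mem' := fun f χ hχ => by
        simp only [hY, Finset.coe_filter, Finset.mem_univ, true_and, Set.mem_ofPred_eq] at hχ ⊢
        refine ⟨fun h => hχ.1 ?_, (charDegree_lin_smul f χ).trans hχ.2⟩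
        have h6 := res_lin_smul_of_le_ker (hZ1.trans (Abelianization.commutator_subset_ker f)) χ
        rw [(irr_isCharacter _).le_ker_iff] at h ⊢
        rw [← h6, h]
        simp }
  have hL : IsPGroup 2 (G →* ℂˣ) := by
    obtain ⟨k, hk⟩ := IsPGroup.iff_card.1 (hG.to_quotient (commutator G))
    exact IsPGroup.of_card (card_units_hom.trans hk)
  obtain ⟨χ, hχ⟩ := hL.nonempty_fixed_point_of_prime_not_dvd_card S (by
    rwa [show Nat.card S = Y.card from Nat.card_eq_finsetCard Y])
  have h6 := ip_res_res_eq_card_lin (le_refl (commutator G)) χ.1 χ.1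
  rw [Nat.card_congr (Equiv.subtypeUnivEquiv fun f =>
    ⟨Abelianization.commutator_subset_ker f, congrArg Subtype.val (hχ f)⟩), card_units_hom] at h6
  have h7 := ip_self_le ((irr_isCharacter χ.1).res _) h6
  rw [charDegree_res, (Finset.mem_filter.1 χ.2).2.2] at h7
  exact le_antisymm h7 (Nat.le_of_dvd (Nat.pos_of_ne_zero Subgroup.index_ne_zero_of_finite)
    ((GT.sq_dvd_index_frattini hG hnc).trans
      (Subgroup.index_dvd_of_le ((GT.frattini_le_iff hG).1 le_rfl).1)))


/-- Let G be a finite 2-group whose number of involutions is congruent to 1 modulo 4. Then G is cyclic or its commutator subgroup has index 4. -/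
theorem result {G : Type*} [Group G] [Finite G] (hG : IsPGroup 2 G) (ht : Nat.card {x : G // orderOf x = 2} % 4 = 1) : IsCyclic G ∨ (commutator G).index = 4 := by
  refine aux _ G rfl hG ?_
  rw [card_sq_eq_one]
  omega

end Cfsg.Agent.S4477
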