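import Cfsg.Statements.S4478
import Cfsg.Agent.Lib.Char.RealExt

set_option autoImplicit false
open Cfsg

namespace Cfsg.Agent.S4478

open CT Cfsg MulAction

/-- Let G be a finite group of even order and χ an irreducible character of G whose degree x is divisible by the full power of 2 dividing the order of G and, for every odd prime p such that G has an element of order 2p, by the full power of p dividing the order of G. Then all involutions of G are conjugate, the centralizer of every involution has order exactly x with x coprime to its index, and the Frobenius–Schur indicator of χ equals 1. -/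
theorem result {G : Type*} [Group G] [Fintype G] (heven : Even (Nat.card G)) (χ : Cfsg.IrrCharacter G) (h2 : 2 ^ (Nat.card G).factorization 2 ∣ Cfsg.charDegree (χ : G → ℂ)) (hp : ∀ p : ℕ, p.Prime → p ≠ 2 → (∃ g : G, orderOf g = 2 * p) → p ^ (Nat.card G).factorization p ∣ Cfsg.charDegree (χ : G → ℂ)) : (∀ s t : G, orderOf s = 2 → orderOf t = 2 → IsConj s t) ∧ (∀ s : G, orderOf s = 2 → Nat.card (Subgroup.centralizer ({s} : Set G)) = Cfsg.charDegree (χ : G → ℂ) ∧ (Nat.card (Subgroup.centralizer ({s} : Set G))).Coprime (Subgroup.centralizer ({s} : Set G)).index) ∧ (Nat.card G : ℂ)⁻¹ * ∑ g : G, (χ : G → ℂ) (g * g) = 1 := by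
  classical
  have hv := fun g hg => irr_apply_eq_zero_of_defect_zero Nat.prime_two χ h2 (g := g) hg
  have hx2 : 2 ∣ charDegree χ.1 :=
    (dvd_pow_self 2 (Nat.prime_two.factorization_pos_of_dvd Nat.card_pos.ne'
      heven.two_dvd).ne').trans h2
  have hsq : ∀ g : G, 2 ∣ orderOf g → orderOf g ≠ 2 → χ.1 (g * g) = 0 := by
    intro g ⟨m, hm⟩ hg2
    have h1 : orderOf (g * g) = m := by
      rw [← sq, orderOf_pow_of_dvd two_ne_zero ⟨m, hm⟩, hm, Nat.mul_div_cancel_left _ two_pos]
    obtain ⟨p, hp1, hpm⟩ := Nat.exists_prime_and_dvd (n := m) (by rintro rfl; exact hg2 hm)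
    by_cases hp2 : p = 2
    · exact hv _ (h1 ▸ hp2 ▸ hpm)
    · refine irr_apply_eq_zero_of_defect_zero hp1 χ (hp p hp1 hp2 ⟨g ^ (orderOf g / (2 * p)), ?_⟩)
        (h1 ▸ hpm)
      exact orderOf_pow_orderOf_div (orderOf_pos g).ne' (hm ▸ Nat.mul_dvd_mul_left 2 hpm)
  have hodd : ∑ g ∈ Finset.univ.filter (fun g : G => ¬ 2 ∣ orderOf g), χ.1 (g * g) = 0 := by
    have h1 : ∑ g ∈ Finset.univ.filter (fun g : G => ¬ 2 ∣ orderOf g), χ.1 (g * g) =
        ∑ g ∈ Finset.univ.filter (fun g : G => ¬ 2 ∣ orderOf g), χ.1 g := by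
      obtain ⟨k, hk, hk'⟩ := GT.exists_forall_pRegPart_eq_pow G 2
      obtain ⟨j, rfl⟩ : ∃ j, k = j + 1 := ⟨k - 1, by omega⟩
      refine Finset.sum_nbij' (fun g => g * g) (fun g => g ^ 2 ^ j) (fun g hg => ?_)
        (fun g hg => ?_) (fun g hg => ?_) (fun g hg => ?_) (fun _ _ => rfl) <;>
        simp only [Finset.mem_filter, Finset.mem_univ, true_and] at hg ⊢
      · exact sq g ▸ IsPRegular.pow hg 2
      · exact IsPRegular.pow hg _
      · rw [← sq, ← pow_mul, ← pow_succ', ← hk', IsPRegular.pRegPart_eq hg]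
      · rw [← sq, ← pow_mul, ← pow_succ, ← hk', IsPRegular.pRegPart_eq hg]
    have h3 : χ ≠ irrOne G := by
      rintro rfl
      rw [charDegree_irrOne] at hx2
      omega
    have h4 := ip_irr_ne h3
    rw [ip_def, mul_eq_zero] at h4
    rw [h1, ← h4.resolve_left (inv_ne_zero card_cast_ne_zero), Finset.sum_filter]
    refine Finset.sum_congr rfl fun g _ => ?_
    split_ifs with h
    · simp [hv g h]
    · simp
  set t := Nat.card {x : G // orderOf x = 2} with ht
  have hsum : ∑ g : G, χ.1 (g * g) = (t * charDegree χ.1 : ℕ) := by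
    rw [← Finset.sum_filter_add_sum_filter_not Finset.univ (fun g : G => 2 ∣ orderOf g), hodd,
      add_zero, ht, Nat.subtype_card (Finset.univ.filter fun g : G => orderOf g = 2) (by simp),
      Nat.cast_mul, ← nsmul_eq_mul, ← Finset.sum_const, Finset.sum_filter, Finset.sum_filter]
    refine Finset.sum_congr rfl fun g _ => ?_
    by_cases h : orderOf g = 2
    · rw [if_pos h, if_pos (h ▸ dvd_rfl), ← sq, ← h, pow_orderOf_eq_one, irr_apply_one]
    · rw [if_neg h]
      split_ifs with h'
      · exact hsq g h' h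
      · rfl
  have ht0 : 0 < t := by
    obtain ⟨s, hs⟩ := exists_prime_orderOf_dvd_card' 2 heven.two_dvd
    have : Nonempty {x : G // orderOf x = 2} := ⟨⟨s, hs⟩⟩
    exact Nat.card_pos
  have hpos := Nat.mul_pos ht0 (irr_degree_pos χ)
  have hν : (t * charDegree χ.1 : ℕ) = nu2 χ.1 * Nat.card G := by
    rw [nu2_def, hsum, mul_comm _ (Nat.card G : ℂ), mul_inv_cancel_left₀ card_cast_ne_zero]
  have hν1 : nu2 χ.1 = 1 := by
    rcases irr_nu2_cases χ with h | h | h
    · exact h
    · rw [h, neg_one_mul, eq_neg_iff_add_eq_zero] at hν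
      norm_cast at hν
      omega
    · rw [h, zero_mul, Nat.cast_eq_zero] at hν
      omega
  rw [hν1, one_mul, Nat.cast_inj] at hν
  have hprime : ∀ s : G, orderOf s = 2 → ∀ p : ℕ, p.Prime →
      p ∣ Nat.card (Subgroup.centralizer ({s} : Set G)) →
      p ^ (Nat.card G).factorization p ∣ charDegree χ.1 := by
    intro s hs p hp1 hd
    by_cases hp2 : p = 2
    · exact hp2 ▸ h2
    have := Fact.mk hp1
    obtain ⟨y, hy⟩ := exists_prime_orderOf_dvd_card' p hd
    refine hp p hp1 hp2 ⟨s * y, ?_⟩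
    rw [Commute.orderOf_mul_eq_mul_orderOf_of_coprime
      (Subgroup.mem_centralizer_singleton_iff.1 y.2).symm, hs, Subgroup.orderOf_coe, hy]
    rw [hs, Subgroup.orderOf_coe, hy]
    exact (Nat.coprime_primes Nat.prime_two hp1).2 (Ne.symm hp2)
  have key : ∀ s : G, orderOf s = 2 →
      Nat.card (Subgroup.centralizer ({s} : Set G)) = charDegree χ.1 ∧
      ∀ u : G, orderOf u = 2 → IsConj s u := by
    intro s hs
    have h1 : Nat.card (Subgroup.centralizer ({s} : Set G)) ∣ charDegree χ.1 := by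
      refine (Nat.dvd_iff_prime_pow_dvd_dvd _ _).2 fun p k hp1 hk => ?_
      rcases k.eq_zero_or_pos with rfl | hk0
      · simp
      refine dvd_trans (pow_dvd_pow p ((hp1.pow_dvd_iff_le_factorization Nat.card_pos.ne').1
        (hk.trans (Subgroup.card_subgroup_dvd_card _))))
        (hprime s hs p hp1 ((dvd_pow_self p hk0.ne').trans hk))
    let f : {x : G // IsConj s x} → {x : G // orderOf x = 2} :=
      fun x => ⟨x.1, (GT.orderOf_eq_of_isConj x.2).symm.trans hs⟩
    have hf : Function.Injective f := fun x y e => Subtype.ext (congrArg (fun z => z.1) e)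
    have h3 := Nat.card_le_card_of_injective f hf
    rw [card_conj_eq_index, ← ht] at h3
    have h4 := (Subgroup.centralizer ({s} : Set G)).card_mul_index
    have h5 := Nat.le_of_dvd (irr_degree_pos χ) h1
    have h6 : Nat.card (Subgroup.centralizer ({s} : Set G)) = charDegree χ.1 := by
      by_contra h
      have := Nat.mul_lt_mul_of_lt_of_le (lt_of_le_of_ne h5 h) h3 ht0
      rw [h4, ← hν, mul_comm] at this
      exact lt_irrefl _ this
    refine ⟨h6, fun u hu => ?_⟩
    obtain ⟨x, hx⟩ := ((Nat.bijective_iff_injective_and_card f).2 ⟨hf, by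
      rw [card_conj_eq_index, ← ht]
      rw [h6, ← hν, mul_comm t] at h4
      exact Nat.eq_of_mul_eq_mul_left (irr_degree_pos χ) h4⟩).2 ⟨u, hu⟩
    have h7 : x.1 = u := congrArg Subtype.val hx
    exact h7 ▸ x.2
  refine ⟨fun s u hs hu => (key s hs).2 u hu, fun s hs => ⟨(key s hs).1, ?_⟩, by
    rw [← nu2_def, hν1]⟩
  refine Nat.coprime_of_dvd fun p hp1 hd hd' => ?_
  have h1 := hprime s hs p hp1 hd
  rw [← (key s hs).1] at h1
  refine Nat.pow_succ_factorization_not_dvd (Nat.card_pos (α := G)).ne' hp1 ?_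
  rw [pow_succ]
  exact (Nat.mul_dvd_mul h1 hd').trans (Subgroup.centralizer ({s} : Set G)).card_mul_index.dvd

end Cfsg.Agent.S4478
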