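import Cfsg.Statements.S4480
import Cfsg.Agent.Lib.Block.DihedralB

set_option autoImplicit false
open Cfsg

namespace Cfsg.Agent.S4480

open CT BT GT
open scoped ComplexConjugate


/-- Same setting as the Klein-four order formula: G of order 4·g₀ (g₀ odd) with no normal 2-complement, P a Sylow 2-subgroup, J an involution of P, M over 2, principal 2-block {1, χ₁, χ₂, χ₃} with χ_i(J) = ε_i = ±1. Suppose ε₁ε₂ε₃ = −1 and ε₃ = −1, and put q = x₃ = χ₃(1). Then there is a natural number m with 4·c(J) = m·c(P)·(q + 1), and the order of G equals (m³·c(P)/4)·(q³ − q)/2, that is 8·#G = m³·c(P)·(q³ − q). -/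
theorem result {G : Type*} [Group G] [Finite G] (M : Ideal Cfsg.AlgInt) (hM : Cfsg.IsPModular 2 M) (g₀ : ℕ) (hg₀ : Odd g₀) (hG : Nat.card G = 4 * g₀) (hnc : ¬ ∃ N : Subgroup G, N.Normal ∧ Nat.card N = g₀) (P : Sylow 2 G) (J : G) (hJ : J ∈ (P : Subgroup G)) (hJ2 : orderOf J = 2) (χ₁ χ₂ χ₃ : Cfsg.IrrCharacter G) (ε₁ ε₂ ε₃ : ℤ) (hB : Cfsg.principalBlock M G = {χ : Cfsg.IrrCharacter G | (χ : G → ℂ) = (fun _ => 1) ∨ χ = χ₁ ∨ χ = χ₂ ∨ χ = χ₃}) (hdist : (χ₁ : G → ℂ) ≠ (fun _ => 1) ∧ (χ₂ : G → ℂ) ≠ (fun _ => 1) ∧ (χ₃ : G → ℂ) ≠ (fun _ => 1) ∧ χ₁ ≠ χ₂ ∧ χ₁ ≠ χ₃ ∧ χ₂ ≠ χ₃) (hε : (ε₁ = 1 ∨ ε₁ = -1) ∧ (ε₂ = 1 ∨ ε₂ = -1) ∧ (ε₃ = 1 ∨ ε₃ = -1)) (hval : (χ₁ : G → ℂ) J = ε₁ ∧ (χ₂ : G → ℂ) J = ε₂ ∧ (χ₃ : G → ℂ) J = ε₃) (hprod : ε₁ * ε₂ * ε₃ = -1) (hε₃ : ε₃ = -1) : ∃ m : ℕ, 4 * Nat.card (Subgroup.centralizer ({J} : Set G)) = m * Nat.card (Subgroup.centralizer ((P : Subgroup G) : Set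 G)) * (Cfsg.charDegree (χ₃ : G → ℂ) + 1) ∧ 8 * Nat.card G = m ^ 3 * Nat.card (Subgroup.centralizer ((P : Subgroup G) : Set G)) * (Cfsg.charDegree (χ₃ : G → ℂ) ^ 3 - Cfsg.charDegree (χ₃ : G → ℂ)) := by
  obtain ⟨τ, D, hτ, hστ⟩ := exists_dihSyl_zero hg₀ hG hnc P hJ hJ2
  have h1 := D.klein_degree hM hB hdist hval
  have h2 := D.klein_order hM hB hdist hval hτ hστ
  have hx := irr_degree_pos χ₁
  have hy := irr_degree_pos χ₂
  have hz := irr_degree_pos χ₃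
  subst hε₃
  obtain ⟨rfl, rfl⟩ : ε₁ = 1 ∧ ε₂ = 1 := by
    rcases hε with ⟨rfl | rfl, rfl | rfl, -⟩ <;> omega
  have h3 := D.klein_degree_eq hM hB hdist hval rfl rfl rfl
  have h4 : charDegree χ₃.1 = 2 * charDegree χ₁.1 + 1 := by omega
  have h5 : charDegree χ₁.1 ∣ (Subgroup.centralizer ({J} : Set G)).index :=
    nat_dvd_of_isIntegral (isIntegral_centralChar χ₁ J) (by
      rw [centralChar, hval.1, irr_apply_one, Int.cast_one, mul_one,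
        mul_div_cancel₀ _ (Nat.cast_ne_zero.2 hx.ne')])
  obtain ⟨r, hr⟩ : Nat.card (Subgroup.centralizer ((P : Subgroup G) : Set G)) ∣
      Nat.card (Subgroup.centralizer ({J} : Set G)) :=
    Subgroup.card_dvd_of_le (Subgroup.centralizer_le (Set.singleton_subset_iff.2 hJ))
  obtain ⟨s, hs⟩ := h5
  rw [← h3, h4, ← (Subgroup.centralizer ({J} : Set G)).index_mul_card, hs, hr] at h2
  rw [h4, ← (Subgroup.centralizer ({J} : Set G)).index_mul_card, hs, hr]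
  have hc : 0 < Nat.card (Subgroup.centralizer ((P : Subgroup G) : Set G)) := Nat.card_pos
  have hr0 : 0 < r := Nat.pos_of_ne_zero fun h => Nat.card_pos.ne' (hr.trans (by rw [h, mul_zero]))
  generalize Nat.card (Subgroup.centralizer ((P : Subgroup G) : Set G)) = c at *
  generalize charDegree χ₁.1 = x at *
  have h6 : s * (x + 1) ^ 2 = (2 * x + 1) * (2 * r) ^ 2 := by
    have hx' : (x : ℚ) ≠ 0 := Nat.cast_ne_zero.2 hx.ne'
    have hc' : (c : ℚ) ≠ 0 := Nat.cast_ne_zero.2 hc.ne'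
    have hr' : (r : ℚ) ≠ 0 := Nat.cast_ne_zero.2 hr0.ne'
    have : (s : ℚ) * (x + 1) ^ 2 = (2 * x + 1) * (2 * r) ^ 2 := by
      push_cast at h2
      field_simp at h2
      linear_combination h2 / 2
    exact_mod_cast this
  have h7 : Nat.Coprime ((x + 1) ^ 2) (2 * x + 1) := Nat.Coprime.pow_left 2 (by
    rw [show 2 * x + 1 = x + (x + 1) by ring, Nat.coprime_add_self_right]
    simp)
  obtain ⟨m, hm⟩ := (Nat.pow_dvd_pow_iff two_ne_zero).1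
    (h7.dvd_of_dvd_mul_left (h6 ▸ dvd_mul_left _ _))
  have h8 : s = (2 * x + 1) * m ^ 2 := Nat.eq_of_mul_eq_mul_right (show 0 < (x + 1) ^ 2 by positivity)
    (by rw [h6, hm]; ring)
  refine ⟨m, by linear_combination 2 * c * hm, ?_⟩
  rw [show (2 * x + 1) ^ 3 - (2 * x + 1) = 4 * x * (x + 1) * (2 * x + 1) from
    Nat.sub_eq_of_eq_add (by ring), h8]
  linear_combination 4 * x * (2 * x + 1) * m ^ 2 * c * hm

end Cfsg.Agent.S4480
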