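import Cfsg.Statements.S4481
import Cfsg.Agent.Lib.Block.DihedralB

set_option autoImplicit false
open Cfsg

namespace Cfsg.Agent.S4481

open CT BT GT
open scoped ComplexConjugate


/-- The principal 2-block of a group with dihedral Sylow 2-subgroups. Let G be a finite group whose Sylow 2-subgroup P is dihedral of order 2^n ≥ 8, let σ be an element of P of order 2^(n−1), ζ a primitive 2^(n−1)-th root of unity, and M a maximal ideal of the algebraic integers containing 2. Then the principal 2-block consists of exactly 3 + 2^(n−2) irreducible characters, which can be labelled 1, χ₁, χ₂, χ₃ and χ^(j) for 1 ≤ j ≤ 2^(n−2) − 1 (all distinct), with signs δ₁, δ₂, δ₃ such that for 0 < λ < 2^(n−1): χ₁(σ^λ) = δ₁, χ₂(σ^λ) = δ₂(−1)^(λ+1), χ₃(σ^λ) = δ₃(−1)^(λ+1) and χ^(j)(σ^λ) = δ₁(ζ^(jλ) + ζ^(−jλ));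 and for every element ρ of odd order and every j: 1 + δ₁χ₁(ρ) = −δ₂χ₂(ρ) − δ₃χ₃(ρ) = δ₁χ^(j)(ρ). -/
theorem result {G : Type*} [Group G] [Finite G] (M : Ideal Cfsg.AlgInt) (hM : Cfsg.IsPModular 2 M) (n : ℕ) (hn : 3 ≤ n) (P : Sylow 2 G) (hP : Nonempty ((P : Subgroup G) ≃* DihedralGroup (2 ^ (n - 1)))) (σ : G) (hσ : σ ∈ (P : Subgroup G)) (hσo : orderOf σ = 2 ^ (n - 1)) (ζ : ℂ) (hζ : IsPrimitiveRoot ζ (2 ^ (n - 1))) : Nat.card (Cfsg.principalBlock M G) = 3 + 2 ^ (n - 2) ∧ ∃ (χ₁ χ₂ χ₃ : Cfsg.IrrCharacter G) (χ' : Fin (2 ^ (n - 2) - 1) → Cfsg.IrrCharacter G) (δ₁ δ₂ δ₃ : ℤ), (δ₁ = 1 ∨ δ₁ = -1) ∧ (δ₂ = 1 ∨ δ₂ = -1) ∧ (δ₃ = 1 ∨ δ₃ = -1) ∧ Function.Injective χ' ∧ (χ₁ : G → ℂ) ≠ (fun _ => 1) ∧ (χ₂ : G → ℂ) ≠ (fun _ => 1) ∧ (χ₃ : G → ℂ) ≠ (fun _ => 1) ∧ χ₁ ≠ χ₂ ∧ χ₁ ≠ χ₃ ∧ χ₂ ≠ χ₃ ∧ (∀ j, χ' j ≠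 χ₁ ∧ χ' j ≠ χ₂ ∧ χ' j ≠ χ₃ ∧ (χ' j : G → ℂ) ≠ (fun _ => 1)) ∧ Cfsg.principalBlock M G = {χ : Cfsg.IrrCharacter G | (χ : G → ℂ) = (fun _ => 1) ∨ χ = χ₁ ∨ χ = χ₂ ∨ χ = χ₃ ∨ ∃ j, χ = χ' j} ∧ (∀ l : ℕ, 0 < l → l < 2 ^ (n - 1) → (χ₁ : G → ℂ) (σ ^ l) = δ₁ ∧ (χ₂ : G → ℂ) (σ ^ l) = δ₂ * (-1) ^ (l + 1) ∧ (χ₃ : G → ℂ) (σ ^ l) = δ₃ * (-1) ^ (l + 1) ∧ ∀ j : Fin (2 ^ (n - 2) - 1), (χ' j : G → ℂ) (σ ^ l) = δ₁ * (ζ ^ (((j : ℕ) + 1) * l) + (ζ ^ (((j : ℕ) + 1) * l))⁻¹)) ∧ ∀ ρ : G, Odd (orderOf ρ) → ∀ j : Fin (2 ^ (n - 2) - 1), 1 + δ₁ * (χ₁ : G → ℂ) ρ = -δ₂ * (χ₂ : G → ℂ) ρ - δ₃ * (χ₃ : G → ℂ) ρ ∧ 1 + δ₁ * (χ₁ : G → ℂ) ρ = δ₁ * (χ' j : G → ℂ) ρ := by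
  classical
  obtain ⟨k, rfl⟩ : ∃ k, n = k + 2 := ⟨n - 2, by omega⟩
  obtain ⟨e⟩ := hP
  obtain ⟨τ, D⟩ := exists_dihSyl_of_mulEquiv (isSylowIn_sylow P) (k := k) (by omega) e hσ hσo
  obtain ⟨χ₁, χ₂, χ₃, θ, δ₁, δ₂, δ₃, h1, h2, h3, hθ, n1, n2, n3, n12, n13, n23, hθ', hB, hv, hr⟩ :=
    D.exists_struct hM (by omega) hζ
  have hne : ∀ {χ : IrrCharacter G}, χ ≠ irrOne G → (χ.1 ≠ fun _ => 1) :=
    fun h h' => h (Subtype.ext h')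
  refine ⟨?_, χ₁, χ₂, χ₃, θ, δ₁, δ₂, δ₃, h1, h2, h3, hθ, hne n1, hne n2, hne n3, n12, n13, n23,
    fun j => ⟨(hθ' j).1, (hθ' j).2.1, (hθ' j).2.2.1, hne (hθ' j).2.2.2⟩, Set.ext fun χ => ?_, hv,
    fun ρ h => hr ρ (Nat.two_dvd_ne_zero.2 (Nat.odd_iff.1 h))⟩
  · rw [← card_bset, show bset (principalBlock M G) = insert (irrOne G) (insert χ₁ (insert χ₂
      (insert χ₃ (Finset.univ.image θ)))) from Finset.ext fun χ => by simp [hB, eq_comm],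
      Finset.card_insert_of_notMem (by simp [n1.symm, n2.symm, n3.symm, hθ']),
      Finset.card_insert_of_notMem (by simp [n12, n13, hθ']),
      Finset.card_insert_of_notMem (by simp [n23, hθ']),
      Finset.card_insert_of_notMem (by simp [hθ']), Finset.card_image_of_injective _ hθ,
      Finset.card_univ, Fintype.card_fin, Nat.add_sub_cancel]
    have := Nat.one_le_two_pow (n := k)
    omega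
  · exact (hB χ).trans (or_congr ⟨fun h => h ▸ rfl, fun h => Subtype.ext h⟩ Iff.rfl)

end Cfsg.Agent.S4481
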