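import Cfsg.Statements.S4483
import Cfsg.Agent.Lib.Block.CentralDef

set_option autoImplicit false
open Cfsg

namespace Cfsg.Agent.S4483

open CT BT
open scoped MonoidAlgebra ComplexConjugate

/-- Let G be a finite group of order 2^n·g₀ with g₀ odd, and M a maximal ideal of the algebraic integers containing 2. Every real-valued irreducible character of G of odd degree lies in the principal 2-block; consequently G has at most 2^(2n) real-valued irreducible characters of odd degree. -/
theorem result {G : Type*} [Group G] [Finite G] (M : Ideal Cfsg.AlgInt) (hM : Cfsg.IsPModular 2 M) : (∀ χ : Cfsg.IrrCharacter G, (∀ g : G, ((χ : G → ℂ) g).im = 0) → Odd (Cfsg.charDegree (χ : G → ℂ)) → χ ∈ Cfsg.principalBlock M G) ∧ Nat.card {χ : Cfsg.IrrCharacter G // (∀ g : G, ((χ : G → ℂ) g).im = 0) ∧ Odd (Cfsg.charDegree (χ : G → ℂ))} ≤ 2 ^ (2 * (Nat.card G).factorization 2) := by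
  have : Fact (Nat.Prime 2) := ⟨Nat.prime_two⟩
  have key : ∀ χ : Cfsg.IrrCharacter G, (∀ g : G, ((χ : G → ℂ) g).im = 0) → Odd (Cfsg.charDegree (χ : G → ℂ)) → χ ∈ Cfsg.principalBlock M G := fun χ h1 h2 => by
    have hχ := mem_blockOf_self hM χ
    refine mem_principalBlock_of_inv hM (isPBlock_blockOf χ) ?_ hχ fun x _ => ?_
    · have h3 := factorization_degree_add_defect (p := 2) hχ
      have h4 := blockDefect_le (p := 2) (blockOf M χ.1)
      rw [Nat.factorization_eq_zero_of_not_dvd h2.not_two_dvd_nat] at h3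
      omega
    · rw [centralChar, centralChar, (irr_isCharacter χ).apply_inv, Complex.conj_eq_iff_im.2 (h1 x),
        ← eq_centralizer_inv rfl, sub_self]
      exact zero_mem _
  refine ⟨key, ?_⟩
  have h1 : Nat.card {χ : Cfsg.IrrCharacter G // (∀ g : G, ((χ : G → ℂ) g).im = 0) ∧ Odd (Cfsg.charDegree (χ : G → ℂ))} ≤ Nat.card (principalBlock M G) :=
    Nat.card_le_card_of_injective (fun χ => ⟨χ.1, key χ.1 χ.2.1 χ.2.2⟩)
      fun _ _ h => Subtype.ext (by simpa using h)
  have h2 := brauer_feit hM (isPBlock_principalBlock (G := G))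
  rw [blockDefect_principal hM] at h2
  have h3 : 1 ≤ 2 ^ (2 * (Nat.card G).factorization 2) := Nat.one_le_two_pow
  omega

end Cfsg.Agent.S4483
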