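import Cfsg.Statements.S4484
import Cfsg.Agent.Lib.Lin.BrauerSimple

set_option autoImplicit false
open Cfsg

namespace Cfsg.Agent.S4484

/-- A refinement of Burnside's result on simple groups of order divisible by only two primes. Let G be a finite simple group of order p^a · q^b · g₀ with p, q distinct primes, a > 0, g₀ coprime to p and q, and the order of G different from p. Then g₀ − 1 > log p / log 6, that is 6^(g₀ − 1) > p. -/
theorem result {G : Type*} [Group G] [Finite G] [IsSimpleGroup G] (p q a b g₀ : ℕ) (hp : p.Prime) (hq : q.Prime) (hpq : p ≠ q) (ha : 0 < a) (hg : Nat.card G = p ^ a * q ^ b * g₀) (hcop : ¬ p ∣ g₀) (hcoq : ¬ q ∣ g₀) (hne : Nat.card G ≠ p) : p < 6 ^ (g₀ - 1) := by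
  classical
  have := Fact.mk hp
  have hpG : p ∣ Nat.card G := hg ▸ ((dvd_pow_self p ha.ne').mul_right _).mul_right _
  obtain ⟨P⟩ : Nonempty (Sylow p G) := inferInstance
  have hP : Nontrivial P := (Subgroup.nontrivial_iff_ne_bot _).2 (P.ne_bot_of_dvd_card hpG)
  have hZ := P.isPGroup'.center_nontrivial
  obtain ⟨n, hn0, hn⟩ := (P.isPGroup'.to_subgroup (Subgroup.center P)).nontrivial_iff_card.1 hZ
  obtain ⟨z, hz⟩ := exists_prime_orderOf_dvd_card' (G := Subgroup.center P) p
    (hn ▸ dvd_pow_self p hn0.ne')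
  set y : G := ((z : P) : G)
  have hy : orderOf y = p := by rw [Subgroup.orderOf_coe, Subgroup.orderOf_coe, hz]
  have hle : (P : Subgroup G) ≤ Subgroup.centralizer {y} := fun x hx => by
    rw [Subgroup.mem_centralizer_singleton_iff]
    exact congrArg Subtype.val (Subgroup.mem_center_iff.1 z.2 ⟨x, hx⟩)
  have hm : (Subgroup.centralizer ({y} : Set G)).index ∣ q ^ b * g₀ := by
    refine Nat.Coprime.dvd_of_dvd_mul_left (Nat.Coprime.pow_right a
      ((Nat.Prime.coprime_iff_not_dvd hp).2 fun h =>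
        P.not_dvd_index (h.trans (Subgroup.index_dvd_of_le hle))).symm) ?_
    rw [← mul_assoc, ← hg]; exact Subgroup.index_dvd_card _
  obtain ⟨M, hM⟩ := BT.exists_isPModular hp
  obtain ⟨χ, hχ, hχ1, hχq⟩ := LG.exists_principal_not_dvd hM (y := y) (hy ▸ dvd_rfl) hq
  obtain ⟨ε, h1, h2, -⟩ := χ.2.isCharacter.exists_eigenvalues y
  rw [hy] at h1
  have hg0 : 0 < g₀ := Nat.pos_of_ne_zero fun h => hcop (h ▸ dvd_zero p)
  have hr : (Finset.univ.image ε).card ≤ g₀ := by
    refine Nat.le_of_mul_le_mul_right ?_ (CT.irr_degree_pos χ)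
    have e := Finset.card_eq_sum_card_image ε Finset.univ
    rw [Finset.card_univ, Fintype.card_fin] at e
    rw [← smul_eq_mul]
    refine (Finset.card_nsmul_le_sum _ _ _ fun ζ hζ => ?_).trans_eq
      ((Finset.mul_sum _ _ g₀).symm.trans (congrArg _ e.symm))
    obtain ⟨i, -, rfl⟩ := Finset.mem_image.1 hζ
    refine Nat.le_of_dvd (Nat.mul_pos hg0 (Finset.card_pos.2 ⟨i, by simp⟩))
      (Nat.Coprime.dvd_of_dvd_mul_left (Nat.Coprime.pow_right b
        ((Nat.Prime.coprime_iff_not_dvd hq).2 hχq).symm) ?_)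
    rw [← mul_assoc]
    exact (LG.degree_dvd_mul_card_of_mem_principal hM hχ hy h1 h2 (h1 i)).trans
      (Nat.mul_dvd_mul_right hm _)
  by_contra! hlt
  have hlt' : 6 ^ (g₀ - 1) < p := lt_of_le_of_ne hlt fun h => by
    have := (Nat.Prime.eq_one_of_pow (h ▸ hp))
    rw [this] at h; subst h; norm_num at hp
  have hy1 : ∀ d, 0 < d → d < p → y ^ d ≠ 1 := fun d h0 hd =>
    pow_ne_one_of_lt_orderOf h0.ne' (hy ▸ hd)
  obtain ⟨d, hd0, hd, hc⟩ := LG.exists_pow_mem_center_of_lt χ (y := y) (p := p)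
    (fun d h0 hd => (Subgroup.normalClosure_normal.eq_bot_or_eq_top).resolve_left fun h =>
      hy1 d h0 hd (Subgroup.mem_bot.1 (h ▸ Subgroup.subset_normalClosure rfl)))
    (fun i => CT.norm_eq_one_of_pow_eq_one' hp.ne_zero (h1 i)) h2
    ((Nat.pow_le_pow_right (by norm_num) (by omega)).trans_lt hlt')
  have h3 : CT.center χ.1 = ⊤ := (CT.irr_center_normal χ).eq_bot_or_eq_top.resolve_left fun h =>
    hy1 d hd0 hd (Subgroup.mem_bot.1 (h ▸ hc))
  have h4 : CT.ker χ.1 = ⊥ := (CT.irr_ker_normal χ).eq_bot_or_eq_top.resolve_right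
    (mt (CT.irr_ker_eq_top_iff χ).1 hχ1)
  rw [CT.irr_center_eq_of_faithful χ h4] at h3
  let _ : CommGroup G := { (inferInstance : Group G) with
    mul_comm := fun a b => Subgroup.mem_center_iff.1 (h3 ▸ Subgroup.mem_top b : b ∈ _) a }
  exact hne ((Nat.prime_dvd_prime_iff_eq hp IsSimpleGroup.prime_card).1 hpG).symm

end Cfsg.Agent.S4484
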