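import Cfsg.Statements.S4487
import Cfsg.Agent.Lib.Block.CentralDef
import Cfsg.Agent.Lib.Grp.Core

set_option autoImplicit false
open Cfsg

namespace Cfsg.Agent.S4487

open CT BT
open scoped MonoidAlgebra ComplexConjugate

/-- Let G be a finite group and p a prime such that G has no non-trivial normal subgroup of order prime to p and C_G(O_p(G)) ≤ O_p(G). Then G has a single p-block: any two irreducible characters lie in the same block relative to every maximal ideal M of the algebraic integers containing p. -/
theorem result {G : Type*} [Group G] [Finite G] (p : ℕ) [Fact p.Prime] (M : Ideal Cfsg.AlgInt) (hM : Cfsg.IsPModular p M) (hcore : Cfsg.pPrimeCore p G = ⊥) (hconstr : Subgroup.centralizer ((Cfsg.pCore p G) : Set G) ≤ Cfsg.pCore p G) (χ ψ : Cfsg.IrrCharacter G) : Cfsg.SameBlock M (χ : G → ℂ) (ψ : G → ℂ) := by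
  classical
  have hB := isPBlock_blockOf (M := M) χ
  have hP : IsPGroup p (pCore p G) := GT.isPGroup_pCore p G
  have h1 : setIdem (blockOf M χ.1) = blockCoeff (blockOf M χ.1) 1 • (1 : ℂ[G]) := by
    refine ga_ext fun g => ?_
    by_cases hg : g = 1
    · simp [hg, MonoidAlgebra.one_def]
    · have : blockCoeff (blockOf M χ.1) g = 0 := by
        by_contra h
        have h2 := suppIn_setIdem_of_suppIn_idem hM (Subgroup.centralizer (pCore p G : Set G)) hB
          (br_eq_self_iff.1 (br_eq_self_of_normal hM hP (isCentral_idem hM _)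
            (idem_mul_self hM hB))) g h
        exact h (blockCoeff_eq_zero_of_dvd_orderOf hM hB
          ((GT.isPElt_of_mem hP (hconstr h2)).dvd_orderOf hg))
      simp [this, MonoidAlgebra.one_def, MonoidAlgebra.coeff_single, hg, Ne.symm hg]
  have h2 := omega_setIdem (blockOf M χ.1) χ
  have h3 := omega_setIdem (blockOf M χ.1) ψ
  rw [h1, omega_smul, omega_one] at h2 h3
  rw [h2, if_pos (mem_blockOf_self hM χ)] at h3
  by_contra h
  rw [if_neg (show ψ ∉ blockOf M χ.1 from h)] at h3
  exact one_ne_zero h3

end Cfsg.Agent.S4487
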