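import Cfsg.Statements.S4489
import Cfsg.Agent.Lib.Lin.PField

set_option autoImplicit false
open Cfsg

namespace Cfsg.Agent.S4489

/-- Let P be a finite p-group of order p^a with a > 0, and χ a faithful irreducible character of P of degree f whose field of values ℚ(χ) has degree (p − 1)·p^t over ℚ. Then a ≤ (f − 1)/(p − 1) + (t + 1)·f; in integer form, (p − 1)·a ≤ (f − 1) + (p − 1)(t + 1)·f. -/
theorem result {P : Type*} [Group P] [Finite P] (p a : ℕ) (hp : p.Prime) (ha : 0 < a) (hP : Nat.card P = p ^ a) (χ : Cfsg.IrrCharacter P) (hfaith : ∀ g : P, (χ : P → ℂ) g = (χ : P → ℂ) 1 → g = 1) (f t : ℕ) (hf : Cfsg.charDegree (χ : P → ℂ) = f) (hfield : Module.finrank ℚ (IntermediateField.adjoin ℚ (Set.range (χ : P → ℂ))) = (p - 1) * p ^ t) : (p - 1) * a ≤ (f - 1) + (p - 1) * (t + 1) * f := by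
  have := Fact.mk hp
  have : NeZero p := ⟨hp.ne_zero⟩
  subst hf
  have hχ := χ.2.isCharacter
  have hG : IsPGroup p P := .of_card hP
  have := Module.finite_of_finrank_pos (hfield ▸ Nat.mul_pos (Nat.sub_pos_of_lt hp.one_lt)
    (pow_pos hp.pos t))
  have := hG.nontrivial_iff_card.2 ⟨a, ha, hP⟩
  obtain ⟨z, hz, hz1, hzp⟩ := GT.exists_mem_pow_eq_one (p := p) (GT.dvd_card_of_isPGroup_of_ne_bot
    (hG.to_subgroup _) ((Subgroup.nontrivial_iff_ne_bot _).1 hG.center_nontrivial))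
  obtain ⟨lam, hl, hl'⟩ := hχ.exists_monoidHom_of_le_center (CT.center_le_irr_center χ)
  have h1 : IsPrimitiveRoot (lam ⟨z, hz⟩) p := by
    rw [← orderOf_eq_prime (x := lam ⟨z, hz⟩) (p := p) (by
      rw [← map_pow, show (⟨z, hz⟩ : Subgroup.center P) ^ p = 1 from Subtype.ext hzp, map_one])
      fun h => hz1 (hfaith z (hχ.mem_ker_iff.1 ((hl' _).1 h)))]
    exact IsPrimitiveRoot.orderOf _
  have h2 := LG.pField_aux (S := MulAction.stabilizer (ℂ ≃+* ℂ) χ)
    (by rw [MulAction.index_stabilizer]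
        exact ((Set.ncard_pos).2 (MulAction.nonempty_orbit χ)).ne')
    ((LG.index_stabilizer_le_finrank χ).trans_eq hfield) (fun σ hσ ζ hζ => by
      obtain ⟨i, -, rfl⟩ := h1.eq_pow_of_pow_eq_one hζ
      have e : σ (χ.1 (z * 1)) = χ.1 (z * 1) := congrArg (fun ψ : Cfsg.IrrCharacter P => ψ.1 _) hσ
      rw [hl ⟨z, hz⟩, map_mul, hχ.apply_one, map_natCast,
        mul_left_inj' (Nat.cast_ne_zero.2 (CT.irr_degree_pos χ).ne')] at e
      rw [map_pow, e, pow_one]) P a hP χ (hχ.ker_eq_bot_iff.2 hfaith) fun σ hσ => hσ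
  have := CT.irr_degree_pos χ
  omega

end Cfsg.Agent.S4489
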