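import Cfsg.Statements.S4490
import Cfsg.Agent.Lib.Block.CentralDef

set_option autoImplicit false
open Cfsg

namespace Cfsg.Agent.S4490

open CT BT
open scoped MonoidAlgebra ComplexConjugate

/-- Let G be a finite group and M a maximal ideal of the algebraic integers containing 2. Every 2-block B of G whose defect groups are the Sylow 2-subgroups of G (a block of full defect) and which is not the principal block is different from its complex-conjugate block, the block formed by the complex conjugates of the members of B. -/
theorem result {G : Type*} [Group G] [Finite G] (M : Ideal Cfsg.AlgInt) (hM : Cfsg.IsPModular 2 M) (B : Set (Cfsg.IrrCharacter G)) (hB : Cfsg.IsPBlock M B) (P : Sylow 2 G) (hfull : Cfsg.IsDefectGroup 2 M B (P : Subgroup G)) (hnp : B ≠ Cfsg.principalBlock M G) : {ψ : Cfsg.IrrCharacter G | ∃ χ ∈ B, (ψ : G → ℂ) = fun g => (starRingEnd ℂ) ((χ : G → ℂ) g)} ≠ B := by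
  have : Fact (Nat.Prime 2) := ⟨Nat.prime_two⟩
  intro h
  obtain ⟨χ, hχ⟩ := block_nonempty hM hB
  have h1 : irrBar χ ∈ B := h ▸ ⟨χ, hχ, rfl⟩
  have hd := card_defectGroup hM hB hfull
  rw [P.card_eq_multiplicity] at hd
  refine hnp (block_eq_of_mem hM hB isPBlock_principalBlock hχ
    (mem_principalBlock_of_inv hM hB (Nat.pow_right_injective le_rfl hd).symm hχ fun x _ => ?_))
  have h2 := (mem_block_iff_sameBlock hM hB h1 χ).1 hχ x
  rw [← mem_locIdeal hM] at h2
  convert h2 using 2
  rw [centralChar, centralChar, (irr_isCharacter χ).apply_inv, ← eq_centralizer_inv rfl]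
  rw [irrBar_val, cbar_apply, cbar_apply, irr_apply_one, map_natCast]

end Cfsg.Agent.S4490
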