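import Cfsg.Statements.S4493
import Cfsg.Agent.Lib.Char.Degrees

set_option autoImplicit false
open Cfsg

namespace Cfsg.Agent.S4493

/-- Let G be a finite solvable group and p a prime. Then G has a normal abelian Sylow p-subgroup if and only if no irreducible character degree of G is divisible by p. -/
theorem result {G : Type*} [Group G] [Finite G] (hsolv : Group.IsSolvable G) (p : ℕ) (hp : p.Prime) : (∃ P : Subgroup G, P.Normal ∧ (∀ x ∈ P, ∀ y ∈ P, x * y = y * x) ∧ IsPGroup p P ∧ ¬ p ∣ P.index) ↔ ∀ χ : Cfsg.IrrCharacter G, ¬ p ∣ Cfsg.charDegree (χ : G → ℂ) := by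
  have := Fact.mk hp
  constructor
  · rintro ⟨P, h1, h2, -, h4⟩ χ
    exact CT.not_dvd_degree_of_normal_comm χ P h2 h4
  · intro h
    obtain ⟨P⟩ : Nonempty (Sylow p G) := inferInstance
    obtain ⟨h1, h2⟩ := (CT.ito_sylow_iff GT.isPSolvable_of_isSolvable P).2 h
    exact ⟨P, h1, GT.isMulCommutative_iff_forall.1 h2, P.isPGroup', P.not_dvd_index⟩

end Cfsg.Agent.S4493
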