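import Cfsg.Statements.S4495
import Cfsg.Agent.Lib.Grp.SelfCentP

set_option autoImplicit false
open Cfsg

namespace Cfsg.Agent.S4495

/-- Let the finite group G contain an element x of prime order p with C_G(x) = ⟨x⟩, and let t be the number of conjugacy classes of elements of order p. If t ≠ p − 1 then the commutator subgroup has index at most (p − 1)/t; if t = p − 1 it has index exactly p. -/
theorem result {G : Type*} [Group G] [Finite G] (p : ℕ) (hp : p.Prime) (x : G) (hx : orderOf x = p) (hC : Subgroup.centralizer ({x} : Set G) = Subgroup.zpowers x) (t : ℕ) (ht : Nat.card {C : ConjClasses G // ∃ g ∈ C.carrier, orderOf g = p} = t) : (t ≠ p - 1 → (commutator G).index * t ≤ p - 1) ∧ (t = p - 1 → (commutator G).index = p) := by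
  have := Fact.mk hp
  have S : GT.SelfCentP p x := ⟨hx, hC⟩
  have h := S.classes_mul
  rw [ht] at h
  have h2 := hp.two_le
  constructor
  · intro h1
    have := S.index_commutator_le (fun h0 => h1 (by rw [← h, h0, mul_one]))
    rw [← h, mul_comm]
    exact Nat.mul_le_mul_left _ this
  · intro h1
    have h0 : (Subgroup.zpowers x).relIndex (Subgroup.normalizer (Subgroup.zpowers x : Set G)) = 1 := by
      rw [h1] at h
      exact Nat.eq_of_mul_eq_mul_left (by omega) (h.trans (mul_one _).symm)
    rw [S.commutator_eq_of_eq h0, S.index_pPrimeCore_of_eq h0]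

end Cfsg.Agent.S4495
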