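import Cfsg.Statements.S4496
import Mathlib

set_option autoImplicit false
open Cfsg

namespace Cfsg.Agent.S4496

theorem exists_sylow_eq {G : Type*} [Group G] [Finite G] (p : ℕ) [hp : Fact p.Prime] (x : G)
    (hx : orderOf x = p) (hC : Subgroup.centralizer ({x} : Set G) = Subgroup.zpowers x) :
    ∃ P : Sylow p G, (P : Subgroup G) = Subgroup.zpowers x := by
  have h1 : IsPGroup p (Subgroup.zpowers x) :=
    IsPGroup.of_card (n := 1) (by rw [Nat.card_zpowers, hx, pow_one])
  obtain ⟨P, hP⟩ := h1.exists_le_sylow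
  refine ⟨P, le_antisymm ?_ hP⟩
  have hxP : x ∈ (P : Subgroup G) := hP (Subgroup.mem_zpowers x)
  have hx1 : x ≠ 1 := by
    rintro rfl
    rw [orderOf_one] at hx
    exact hp.out.one_lt.ne hx
  have : Nontrivial (P : Subgroup G) := ⟨⟨⟨x, hxP⟩, 1, fun h => hx1 (congrArg Subtype.val h)⟩⟩
  obtain ⟨z, hz, hz1⟩ := SetLike.exists_of_lt P.isPGroup'.bot_lt_center
  rw [Subgroup.mem_bot] at hz1
  rw [Subgroup.mem_center_iff] at hz
  have hzx : (z : G) ∈ Subgroup.zpowers x := by
    rw [← hC, Subgroup.mem_centralizer_singleton_iff]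
    exact (congrArg Subtype.val (hz ⟨x, hxP⟩)).symm
  have hzz : Subgroup.zpowers (z : G) = Subgroup.zpowers x := by
    apply Subgroup.eq_of_le_of_card_ge (Subgroup.zpowers_le.mpr hzx)
    have h2 : Nat.card (Subgroup.zpowers (z : G)) ∣ p := by
      have := Subgroup.card_dvd_of_le (Subgroup.zpowers_le.mpr hzx)
      rwa [Nat.card_zpowers x, hx] at this
    rcases (Nat.dvd_prime hp.out).mp h2 with h | h
    · rw [Nat.card_zpowers, orderOf_eq_one_iff] at h
      exact absurd (Subtype.ext h) hz1
    · rw [h, Nat.card_zpowers, hx]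
  intro y hy
  rw [← hC, Subgroup.mem_centralizer_singleton_iff]
  have : x ∈ Subgroup.zpowers (z : G) := hzz ▸ Subgroup.mem_zpowers x
  obtain ⟨k, hk⟩ := this
  have hc : Commute y (z : G) := congrArg Subtype.val (hz ⟨y, hy⟩)
  rw [← hk]
  exact hc.zpow_right k


/-- Let the finite group G contain an element x of prime order p with C_G(x) = ⟨x⟩. Then: (a) every normal subgroup of order divisible by p contains the commutator subgroup; (b) every normal subgroup S of order prime to p has order dividing the number of subgroups of order p of G and congruent to 1 modulo p, and in G/S the image of x again has prime order p and commutes only with its own powers. -/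
theorem result {G : Type*} [Group G] [Finite G] (p : ℕ) (hp : p.Prime) (x : G) (hx : orderOf x = p) (hC : Subgroup.centralizer ({x} : Set G) = Subgroup.zpowers x) (S : Subgroup G) [S.Normal] : (p ∣ Nat.card S → commutator G ≤ S) ∧ (¬ p ∣ Nat.card S → Nat.card S ∣ Nat.card {H : Subgroup G // Nat.card H = p} ∧ Nat.card S % p = 1 ∧ orderOf (QuotientGroup.mk x : G ⧸ S) = p ∧ Subgroup.centralizer ({(QuotientGroup.mk x : G ⧸ S)} : Set (G ⧸ S)) = Subgroup.zpowers (QuotientGroup.mk x : G ⧸ S)) := by
  have : Fact p.Prime := ⟨hp⟩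
  obtain ⟨P, hP⟩ := exists_sylow_eq p x hx hC
  have hcP : Nat.card (P : Subgroup G) = p := by rw [hP, Nat.card_zpowers, hx]
  have hxP : x ∈ (P : Subgroup G) := hP ▸ Subgroup.mem_zpowers x
  have hN : ∀ n ∈ Subgroup.normalizer ((P : Subgroup G) : Set G), ∃ a : ℤ, n * x * n⁻¹ = x ^ a := by
    intro n hn
    have := (Subgroup.mem_normalizer_iff.mp hn x).mp hxP
    rw [hP] at this
    obtain ⟨a, ha⟩ := this
    exact ⟨a, ha.symm⟩
  constructor
  · intro hpS
    have hPS : (P : Subgroup G) ≤ S := by
      obtain ⟨y, hy⟩ := exists_prime_orderOf_dvd_card' (G := S) p hpS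
      have h1 : IsPGroup p (Subgroup.zpowers (y : G)) :=
        IsPGroup.of_card (n := 1) (by rw [Nat.card_zpowers, Subgroup.orderOf_coe, hy, pow_one])
      obtain ⟨Q, hQ⟩ := h1.exists_le_sylow
      have hQe : Subgroup.zpowers (y : G) = Q := by
        apply Subgroup.eq_of_le_of_card_ge hQ
        rw [Nat.card_zpowers, Subgroup.orderOf_coe, hy, Q.card_eq_multiplicity,
          ← P.card_eq_multiplicity, hcP]
      obtain ⟨g, rfl⟩ := MulAction.exists_smul_eq G Q P
      rw [Sylow.coe_subgroup_smul, ← hQe]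
      intro z hz
      rw [Subgroup.mem_pointwise_smul_iff_inv_smul_mem] at hz
      have h2 := Subgroup.zpowers_le.mpr y.2 hz
      have h3 := ‹S.Normal›.conj_mem _ h2 g
      simpa [mul_assoc] using h3
    have hsup : Subgroup.normalizer ((P : Subgroup G) : Set G) ⊔ S = ⊤ :=
      P.normalizer_sup_eq_top' hPS
    rw [← Subgroup.Normal.quotient_commutative_iff_commutator_le]
    have hsurj : ∀ q : G ⧸ S, ∃ n ∈ Subgroup.normalizer ((P : Subgroup G) : Set G),
        (n : G ⧸ S) = q := by
      intro q
      obtain ⟨g, rfl⟩ := QuotientGroup.mk_surjective q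
      have hg : g ∈ ((Subgroup.normalizer ((P : Subgroup G) : Set G) ⊔ S : Subgroup G) : Set G) := by
        rw [hsup]; trivial
      rw [Subgroup.mul_normal] at hg
      obtain ⟨n, hn, s, hs, rfl⟩ := hg
      exact ⟨n, hn, by simp [(QuotientGroup.eq_one_iff s).mpr hs]⟩
    refine ⟨⟨fun a b => ?_⟩⟩
    obtain ⟨n, hn, rfl⟩ := hsurj a
    obtain ⟨m, hm, rfl⟩ := hsurj b
    rw [← QuotientGroup.mk_mul, ← QuotientGroup.mk_mul, QuotientGroup.eq]
    apply hPS
    rw [hP, ← hC, Subgroup.mem_centralizer_singleton_iff]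
    obtain ⟨a, ha⟩ := hN n hn
    obtain ⟨b, hb⟩ := hN m hm
    have h1 : n * m * x * (n * m)⁻¹ = x ^ (a * b) := by
      calc n * m * x * (n * m)⁻¹ = n * (m * x * m⁻¹) * n⁻¹ := by group
        _ = (n * x * n⁻¹) ^ b := by rw [hb, conj_zpow]
        _ = _ := by rw [ha, zpow_mul]
    have h2 : m * n * x * (m * n)⁻¹ = x ^ (a * b) := by
      calc m * n * x * (m * n)⁻¹ = m * (n * x * n⁻¹) * m⁻¹ := by group
        _ = (m * x * m⁻¹) ^ a := by rw [ha, conj_zpow]
        _ = _ := by rw [hb, mul_comm a b, zpow_mul]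
    calc (n * m)⁻¹ * (m * n) * x = (n * m)⁻¹ * (m * n * x * (m * n)⁻¹) * (m * n) := by group
      _ = (n * m)⁻¹ * (n * m * x * (n * m)⁻¹) * (m * n) := by rw [h1, h2]
      _ = _ := by group
  · intro hpS
    have hdisj : ∀ y ∈ S, y ∈ (P : Subgroup G) → y = 1 := by
      intro y hy hyP
      have h1 : orderOf y ∣ p := hcP ▸ Subgroup.orderOf_dvd_natCard _ hyP
      rcases (Nat.dvd_prime hp).mp h1 with h | h
      · exact orderOf_eq_one_iff.mp h
      · exact absurd (h ▸ Subgroup.orderOf_dvd_natCard _ hy) hpS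
    have hfix : ∀ s ∈ S, s * x = x * s → s = 1 := fun s hs h =>
      hdisj s hs (by rw [hP, ← hC, Subgroup.mem_centralizer_singleton_iff]; exact h)
    refine ⟨?_, ?_, ?_, ?_⟩
    · have e : {H : Subgroup G // Nat.card H = p} ≃ Sylow p G :=
        { toFun := fun H => Sylow.ofCard H.1 (by rw [H.2, ← P.card_eq_multiplicity, hcP])
          invFun := fun Q => ⟨Q, by rw [Q.card_eq_multiplicity, ← P.card_eq_multiplicity, hcP]⟩
          left_inv := fun H => rfl
          right_inv := fun Q => rfl }
      rw [Nat.card_congr e, P.card_eq_index_normalizer]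
      set N := Subgroup.normalizer ((P : Subgroup G) : Set G) with hNdef
      have hSN : S.subgroupOf N = ⊥ := by
        rw [eq_bot_iff]
        intro n hn
        rw [Subgroup.mem_bot]
        apply Subtype.ext
        apply hfix n hn
        have h1 : (n : G) * x * (n : G)⁻¹ * x⁻¹ = 1 := by
          apply hdisj
          · have := S.mul_mem hn (‹S.Normal›.conj_mem _ (S.inv_mem hn) x)
            simpa [mul_assoc] using this
          · exact Subgroup.mul_mem _ ((Subgroup.mem_normalizer_iff.mp n.2 x).mp hxP)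
              (Subgroup.inv_mem _ hxP)
        rw [mul_inv_eq_one, mul_inv_eq_iff_eq_mul] at h1
        exact h1
      have h1 : S.relIndex (N ⊔ S) = Nat.card N := by
        rw [Subgroup.relIndex_sup_right, Subgroup.relIndex, hSN, Subgroup.index_bot]
      have h2 := (S.subgroupOf (N ⊔ S)).card_mul_index
      rw [Nat.card_congr (Subgroup.subgroupOfEquivOfLe le_sup_right).toEquiv] at h2
      change Nat.card S * S.relIndex (N ⊔ S) = _ at h2
      rw [h1] at h2
      have h3 := Subgroup.card_subgroup_dvd_card (N ⊔ S)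
      rw [← h2, ← N.card_mul_index, mul_comm] at h3
      exact Nat.dvd_of_mul_dvd_mul_left Nat.card_pos h3
    · let _ : MulAction (P : Subgroup G) S :=
        MulAction.compHom S ((MulAut.conjNormal (H := S)).comp (P : Subgroup G).subtype)
      have h1 := P.isPGroup'.card_modEq_card_fixedPoints S
      have h2 : Nat.card (MulAction.fixedPoints (P : Subgroup G) S) = 1 := by
        rw [Nat.card_eq_one_iff_unique]
        refine ⟨⟨fun a b => ?_⟩, ⟨⟨1, fun g => map_one (MulAut.conjNormal (g : G))⟩⟩⟩
        have h3 : ∀ a : MulAction.fixedPoints (P : Subgroup G) S, ((a : S) : G) = 1 := by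
          intro a
          apply hfix _ a.1.2
          have h4 : x * ((a : S) : G) * x⁻¹ = ((a : S) : G) := congrArg Subtype.val (a.2 ⟨x, hxP⟩)
          rw [mul_inv_eq_iff_eq_mul] at h4
          exact h4.symm
        exact Subtype.ext (Subtype.ext ((h3 a).trans (h3 b).symm))
      rw [h2] at h1
      rw [h1, Nat.mod_eq_of_lt hp.one_lt]
    · apply orderOf_eq_prime
      · rw [← QuotientGroup.mk_pow, ← hx, pow_orderOf_eq_one, QuotientGroup.mk_one]
      · intro h
        rw [QuotientGroup.eq_one_iff] at h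
        rw [hdisj x h hxP, orderOf_one] at hx
        exact hp.one_lt.ne hx
    · apply le_antisymm
      · intro q hq
        obtain ⟨g, rfl⟩ := QuotientGroup.mk_surjective q
        rw [Subgroup.mem_centralizer_singleton_iff] at hq
        let f : S → S := fun s => ⟨s * x * (s : G)⁻¹ * x⁻¹, by
          have := S.mul_mem s.2 (‹S.Normal›.conj_mem _ (S.inv_mem s.2) x)
          simpa [mul_assoc] using this⟩
        have hf : Function.Injective f := by
          intro s t hst
          have h1 : (s : G) * x * (s : G)⁻¹ * x⁻¹ = t * x * (t : G)⁻¹ * x⁻¹ :=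
            congrArg Subtype.val hst
          have h2 := hfix ((t : G)⁻¹ * s) (S.mul_mem (S.inv_mem t.2) s.2) (by
            calc (t : G)⁻¹ * s * x = (t : G)⁻¹ * ((s : G) * x * (s : G)⁻¹ * x⁻¹) * x * s := by group
              _ = _ := by rw [h1]; group)
          exact Subtype.ext (inv_mul_eq_one.mp h2).symm
        have hg : g * x * g⁻¹ * x⁻¹ ∈ S := by
          rw [← QuotientGroup.eq_one_iff]
          simp only [QuotientGroup.mk_mul, QuotientGroup.mk_inv, hq]
          group
        obtain ⟨s, hs⟩ := Finite.surjective_of_injective hf ⟨_, hg⟩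
        have h1 : (s : G) * x * (s : G)⁻¹ * x⁻¹ = g * x * g⁻¹ * x⁻¹ := congrArg Subtype.val hs
        have h2 : (s : G)⁻¹ * g ∈ Subgroup.zpowers x := by
          rw [← hC, Subgroup.mem_centralizer_singleton_iff]
          calc (s : G)⁻¹ * g * x = (s : G)⁻¹ * (g * x * g⁻¹ * x⁻¹) * x * g := by group
            _ = _ := by rw [← h1]; group
        obtain ⟨k, hk⟩ := h2
        refine ⟨k, ?_⟩
        have h3 : ((x ^ k : G) : G ⧸ S) = (((s : G)⁻¹ * g : G) : G ⧸ S) := congrArg _ hk
        simpa [(QuotientGroup.eq_one_iff (s : G)).mpr s.2] using h3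
      · rw [Subgroup.zpowers_le, Subgroup.mem_centralizer_singleton_iff]

end Cfsg.Agent.S4496
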