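import Cfsg.Statements.S4497
import Cfsg.Agent.Lib.Grp.SelfCentP

set_option autoImplicit false
open Cfsg

namespace Cfsg.Agent.S4497

/-- Let the finite group G contain an element x of prime order p with C_G(x) = ⟨x⟩, let t be the number of conjugacy classes of elements of order p, and let S* = O_{p′}(G) be the largest normal subgroup of order prime to p. Then S* ≤ G′; if t ≠ p − 1 the quotient G′/S* is simple (in particular non-trivial); if t = p − 1 then G′ = S*. -/
theorem result {G : Type*} [Group G] [Finite G] (p : ℕ) (hp : p.Prime) (x : G) (hx : orderOf x = p) (hC : Subgroup.centralizer ({x} : Set G) = Subgroup.zpowers x) (t : ℕ) (ht : Nat.card {C : ConjClasses G // ∃ g ∈ C.carrier, orderOf g = p} = t) : Cfsg.pPrimeCore p G ≤ commutator G ∧ (t ≠ p - 1 → ∀ h : ((Cfsg.pPrimeCore p G).subgroupOf (commutator G)).Normal, IsSimpleGroup (↥(commutator G) ⧸ (Cfsg.pPrimeCore p G).subgroupOf (commutator G))) ∧ (t = p - 1 → commutator G = Cfsg.pPrimeCore p G) := by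
  have := Fact.mk hp
  have S : GT.SelfCentP p x := ⟨hx, hC⟩
  have h := S.classes_mul
  rw [ht] at h
  have h2 := hp.two_le
  refine ⟨S.le_commutator (GT.not_dvd_card_pPrimeCore p G), fun h1 hN => ?_, fun h1 => ?_⟩
  · have h0 : (Subgroup.zpowers x).relIndex (Subgroup.normalizer (Subgroup.zpowers x : Set G)) ≠ 1 :=
      fun h0 => h1 (by rw [← h, h0, mul_one])
    have : Nontrivial (commutator G ⧸ (pPrimeCore p G).subgroupOf (commutator G)) := by
      refine ⟨⟨(⟨x, S.le_commutator_of_ne h0 (Subgroup.mem_zpowers x)⟩ : commutator G), 1, fun h => ?_⟩⟩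
      rw [QuotientGroup.eq_one_iff] at h
      exact GT.isPRegular_of_mem_pPrimeCore (g := x) h (hx ▸ dvd_rfl)
    refine ⟨fun H hH => ?_⟩
    rcases S.normal_commutator h0 (H.comap (QuotientGroup.mk' _)) with h3 | h3
    · left
      rw [← Subgroup.map_comap_eq_self_of_surjective (QuotientGroup.mk'_surjective _) H,
        GT.map_mk'_eq_bot_iff]
      exact h3
    · right
      rw [← Subgroup.map_comap_eq_self_of_surjective (QuotientGroup.mk'_surjective _) H, h3,
        Subgroup.map_top_of_surjective _ (QuotientGroup.mk'_surjective _)]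
  · refine S.commutator_eq_of_eq ?_
    rw [h1] at h
    exact Nat.eq_of_mul_eq_mul_left (by omega) (h.trans (mul_one _).symm)

end Cfsg.Agent.S4497
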