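import Cfsg.Statements.S4731
import Cfsg.Agent.Lib.Block.CentralDef

set_option autoImplicit false
open Cfsg

namespace Cfsg.Agent.S4731

open CT BT
open scoped MonoidAlgebra ComplexConjugate

/-- Let p ≠ q be primes, M_p and M_q maximal ideals of the algebraic integers containing p and q respectively, and G a finite group with no element of order pq; let q^b be the q-part of the order of G. For a p-block B_p (relative to M_p), a q-block B_q (relative to M_q) and a p-singular element y, the sum of χ(1)χ(y) over the irreducible characters χ lying in both B_p and B_q is q^b times an algebraic integer. -/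
theorem result {G : Type*} [Group G] [Finite G] (p q : ℕ) [Fact p.Prime] [Fact q.Prime] (hpq : p ≠ q) (Mp Mq : Ideal Cfsg.AlgInt) (hMp : Cfsg.IsPModular p Mp) (hMq : Cfsg.IsPModular q Mq) (hno : ∀ g : G, orderOf g ≠ p * q) (b : ℕ) (hb : (Nat.card G).factorization q = b) (Bp : Set (Cfsg.IrrCharacter G)) (hBp : Cfsg.IsPBlock Mp Bp) (Bq : Set (Cfsg.IrrCharacter G)) (hBq : Cfsg.IsPBlock Mq Bq) (y : G) (hy : p ∣ orderOf y) : ∃ ω : Cfsg.AlgInt, ∑ᶠ χ ∈ Bp ∩ Bq, (Cfsg.charDegree (χ : G → ℂ) : ℂ) * (χ : G → ℂ) y = (q : ℂ) ^ b * (ω : ℂ) := by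
  classical
  have hp : p.Prime := Fact.out
  have hq : q.Prime := Fact.out
  have h1 : ∀ g : G, q ∣ orderOf g → ¬ p ∣ orderOf g := fun g h h' =>
    hno (g ^ (orderOf g / (p * q))) (orderOf_pow_orderOf_div (orderOf_pos g).ne'
      (((Nat.coprime_primes hp hq).2 hpq).mul_dvd_of_dvd_of_dvd h' h))
  set f : G → ℂ := ∑ χ ∈ bset Bp, χ.1 y • χ.1 with hf
  have hfc : IsClassFunction G f := isClassFunction_sum _ _ fun χ _ => (irr_isClassFunction χ).smul _
  have h2 : pRegularPart q f = f := pRegularPart_eq_self_iff.2 fun g hg => by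
    have := weak_block_orthogonality hMp hBp (h1 g hg) (y := y⁻¹) (by rwa [orderOf_inv])
    rw [hf, Finset.sum_apply, bset_eq, ← this]
    exact Finset.sum_congr rfl fun χ _ => by
      rw [(irr_isCharacter χ).apply_inv, Complex.conj_conj, mul_comm]; rfl
  have h3 : blockPart Bq f = ∑ χ ∈ bset (Bp ∩ Bq), χ.1 y • χ.1 := by
    rw [hf, blockPart_sum, show bset (Bp ∩ Bq) = (bset Bp).filter (· ∈ Bq) by ext; simp,
      Finset.sum_filter]
    refine Finset.sum_congr rfl fun χ _ => ?_
    rw [blockPart_smul]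
    split_ifs with h
    · rw [blockPart_irr_of_mem h]
    · rw [blockPart_irr_of_not_mem h, smul_zero]
  have h4 : ∀ g, q ∣ orderOf g → blockPart Bq f g = 0 := pRegularPart_eq_self_iff.1 (by
    rw [← blockPart_pRegularPart hMq hBq hfc, h2])
  obtain ⟨Q⟩ : Nonempty (Sylow q G) := inferInstance
  have := Fintype.ofFinite Q
  have h5 : IsIntegral ℤ (ip (res (Q : Subgroup G) (blockPart Bq f)) fun _ => 1) := by
    rw [h3, res_sum, ip_sum_left]
    refine IsIntegral.sum _ fun χ _ => ?_
    rw [res_smul, ip_smul_left, ((irr_isCharacter χ).res _).ip_eq_mult isCharacter_one]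
    exact (irr_isIntegral χ y).mul (isIntegral_natCast _)
  refine ⟨⟨_, h5⟩, ?_⟩
  show _ = _ * ip (res (Q : Subgroup G) (blockPart Bq f)) fun _ => 1
  rw [ip_def, Finset.sum_eq_single (1 : (Q : Subgroup G)) (fun z _ hz => by
    rw [res_apply, h4 _ ((GT.isPElt_of_mem Q.isPGroup' z.2).dvd_orderOf (by simpa using hz)),
      zero_mul]) (by simp), Q.card_eq_multiplicity, hb, h3, finsum_mem_eq_sum_bset]
  simp only [res_apply, OneMemClass.coe_one, Finset.sum_apply, Pi.smul_apply, smul_eq_mul, map_one,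
    mul_one, Nat.cast_pow, irr_apply_one]
  rw [mul_inv_cancel_left₀ (pow_ne_zero _ prime_cast_ne_zero)]
  exact Finset.sum_congr rfl fun _ _ => mul_comm _ _

end Cfsg.Agent.S4731
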