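import Cfsg.Statements.S4498
import Cfsg.Agent.S4731

set_option autoImplicit false
open Cfsg

namespace Cfsg.Agent.S4498

open CT BT
open scoped MonoidAlgebra ComplexConjugate

/-- Let p and q be distinct primes dividing the order of the finite group G, and suppose G has no element of order p·q. Fix maximal ideals M_p over p and M_q over q of the algebraic integers. Then the principal p-block and the principal q-block of G have a non-principal irreducible character in common. -/
theorem result {G : Type*} [Group G] [Finite G] (p q : ℕ) [Fact p.Prime] [Fact q.Prime] (hpq : p ≠ q) (hp : p ∣ Nat.card G) (hq : q ∣ Nat.card G) (hno : ∀ g : G, orderOf g ≠ p * q) (Mp Mq : Ideal Cfsg.AlgInt) (hMp : Cfsg.IsPModular p Mp) (hMq : Cfsg.IsPModular q Mq) : ∃ χ : Cfsg.IrrCharacter G, (χ : G → ℂ) ≠ (fun _ => 1) ∧ χ ∈ Cfsg.principalBlock Mp G ∧ χ ∈ Cfsg.principalBlock Mq G := by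
  classical
  by_contra! h
  obtain ⟨y, hy⟩ := exists_prime_orderOf_dvd_card' p hp
  obtain ⟨ω, hω⟩ := Cfsg.Agent.S4731.result p q hpq Mp Mq hMp hMq hno _ rfl _ isPBlock_principalBlock
    _ isPBlock_principalBlock y (dvd_of_eq hy.symm)
  have h1 : principalBlock Mp G ∩ principalBlock Mq G = {irrOne G} := by
    ext χ
    refine ⟨fun h' => by_contra fun h'' => h χ (fun h3 => h'' (Subtype.ext h3)) h'.1 h'.2, ?_⟩
    rintro rfl
    exact ⟨irrOne_mem_principalBlock hMp, irrOne_mem_principalBlock hMq⟩
  rw [h1, finsum_mem_singleton, ← irr_apply_one, irrOne_apply, irrOne_apply, mul_one] at hω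
  obtain ⟨k, hk⟩ := Nat.exists_eq_succ_of_ne_zero
    ((Fact.out : q.Prime).factorization_pos_of_dvd Nat.card_pos.ne' hq).ne'
  refine one_not_mem_locIdeal hMq ?_
  rw [hω, hk, pow_succ', mul_assoc]
  exact mul_mem_locIdeal_right hMq (p_mem_locIdeal hMq)
    (mul_mem (pow_mem (natCast_mem _ q) _) (algInt_mem_locRing hMq ω))

end Cfsg.Agent.S4498
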