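import Cfsg.Statements.S4500
import Cfsg.Agent.Lib.Block.CoverPrin
import Cfsg.Agent.Lib.Block.Principal
import Cfsg.Agent.Lib.Char.Burnside

set_option autoImplicit false
open Cfsg

namespace Cfsg.Agent.S4500

open CT BT Cfsg
open scoped ComplexConjugate

theorem aux {G : Type*} [Group G] [Finite G] [Nontrivial G] (p q r a b c : ℕ) (hp : p.Prime)
    (hq : q.Prime) (hr : r.Prime) (hpq : p ≠ q) (hpr : p ≠ r) (ha : a ≤ 2)
    (hG : Nat.card G = p ^ a * q ^ b * r ^ c) : ∃ χ : IrrCharacter G, χ.1 ≠ (fun _ => 1) ∧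
      ∃ k : ℕ, charDegree χ.1 = q ^ k := by
  classical
  have := Fact.mk hp
  have := Fact.mk hr
  by_cases hpG : p ∣ Nat.card G
  · obtain ⟨M, hM⟩ := exists_isPModular hp
    obtain ⟨M', hM'⟩ := exists_isPModular hr
    obtain ⟨y, hy⟩ := exists_prime_orderOf_dvd_card' p hpG
    have h1 := bker_eq_zero_of_regular' hM (isPBlock_principalBlock (M := M) (G := G))
      (x := y) (y := 1) (dvd_of_eq hy.symm) not_dvd_orderOf_one
    obtain ⟨χ, h2, h3, h4⟩ : ∃ χ ∈ principalBlock M G, χ ≠ irrOne G ∧ ¬ r ∣ charDegree χ.1 := by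
      by_contra! h
      rw [bker_def, ← Finset.add_sum_erase _ _ (mem_bset.2 (irrOne_mem_principalBlock hM)),
        irrOne_apply, irrOne_apply, map_one, one_mul, add_eq_zero_iff_eq_neg] at h1
      refine one_not_mem_locIdeal hM' (h1 ▸ neg_mem (sum_mem fun χ hχ => ?_))
      rw [irr_apply_one, map_natCast]
      exact mul_mem_locIdeal_left hM' (mem_locRing_of_isIntegral hM' (irr_isIntegral χ y))
        ((natCast_mem_locIdeal_iff hM' _).2 (h χ (mem_bset.1 (Finset.mem_of_mem_erase hχ))
          (Finset.ne_of_mem_erase hχ)))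
    have h5 : ¬ p ∣ charDegree χ.1 := (blockHeight_principal_eq_zero_iff hM χ h2).1
      (height_eq_zero_of_defect_le_two hM isPBlock_principalBlock (by
        rw [blockDefect_principal hM, hG, mul_assoc, Nat.factorization_mul_apply_of_coprime
          (Nat.Coprime.mul_right (Nat.coprime_pow_primes _ _ hp hq hpq)
            (Nat.coprime_pow_primes _ _ hp hr hpr)), hp.factorization_pow,
          Nat.factorization_eq_zero_of_not_dvd (fun h => (hp.dvd_mul.1 h).elim
            (fun h => hpq ((Nat.prime_dvd_prime_iff_eq hp hq).1 (hp.dvd_of_dvd_pow h)))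
            fun h => hpr ((Nat.prime_dvd_prime_iff_eq hp hr).1 (hp.dvd_of_dvd_pow h)))]
        simpa using ha) h2)
    have h6 := irr_degree_dvd_card χ
    rw [hG] at h6
    replace h6 := Nat.Coprime.dvd_of_dvd_mul_left
      (Nat.Coprime.pow_right _ ((Nat.Prime.coprime_iff_not_dvd hp).2 h5).symm)
      (Nat.Coprime.dvd_of_dvd_mul_right
        (Nat.Coprime.pow_right _ ((Nat.Prime.coprime_iff_not_dvd hr).2 h4).symm) h6)
    obtain ⟨k, -, hk⟩ := (Nat.dvd_prime_pow hq).1 h6
    exact ⟨χ, fun h => h3 (Subtype.ext h), k, hk⟩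
  · have : Group.IsSolvable G := isSolvable_of_card_dvd_pow_mul_pow (a := b) (b := c) hq hr
      (Nat.Coprime.dvd_of_dvd_mul_left
        (Nat.Coprime.pow_right a ((Nat.Prime.coprime_iff_not_dvd hp).2 hpG).symm)
        (by rw [hG, mul_assoc]))
    obtain ⟨g, -, hg⟩ := SetLike.exists_of_lt (Group.IsSolvable.commutator_lt_top_of_nontrivial G)
    obtain ⟨f, -, hf⟩ := exists_units_hom_apply_ne_one le_rfl hg
    exact ⟨linChar f, fun h => hf (Units.ext (congrFun h g)), 0, charDegree_linChar f⟩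

/-- Let G be a non-trivial finite group of order p^a · q^b · r^c with p, q, r distinct primes and a ≤ 2. Then G has a non-principal irreducible character whose degree is a power of q, and a non-principal irreducible character whose degree is a power of r; the power may be the zeroth, so a non-principal linear character serves for both. -/
theorem result {G : Type*} [Group G] [Finite G] [Nontrivial G] (p q r a b c : ℕ) (hp : p.Prime) (hq : q.Prime) (hr : r.Prime) (hpq : p ≠ q) (hpr : p ≠ r) (hqr : q ≠ r) (ha : a ≤ 2) (hG : Nat.card G = p ^ a * q ^ b * r ^ c) : (∃ χ : Cfsg.IrrCharacter G, (χ : G → ℂ) ≠ (fun _ => 1) ∧ ∃ k : ℕ, Cfsg.charDegree (χ : G → ℂ) = q ^ k) ∧ ∃ χ : Cfsg.IrrCharacter G, (χ : G → ℂ) ≠ (fun _ => 1) ∧ ∃ k : ℕ, Cfsg.charDegree (χ : G → ℂ) = r ^ k := by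
  exact ⟨aux p q r a b c hp hq hr hpq hpr ha hG,
    aux p r q a c b hp hr hq hpr hpq ha (by rw [hG, mul_right_comm])⟩

end Cfsg.Agent.S4500
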