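import Cfsg.Statements.S4501
import Cfsg.Agent.Lib.Block.SmallCof
import Cfsg.Agent.Lib.Block.OneBR
import Cfsg.Agent.S4500

set_option autoImplicit false
open Cfsg

namespace Cfsg.Agent.S4501

open CT BT GT Subgroup
open scoped ComplexConjugate

set_option linter.unusedSectionVars false

variable {G : Type*} [Group G] [Finite G]

theorem card_pairs_le {z x : G} (hz : orderOf z = 2) :
    Nat.card {ab : G × G // IsConj z ab.1 ∧ IsConj z ab.2 ∧ ab.1 * ab.2 = x} ≤
      Nat.card (centralizer ({x} : Set G)) := by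
  rcases isEmpty_or_nonempty {ab : G × G // IsConj z ab.1 ∧ IsConj z ab.2 ∧ ab.1 * ab.2 = x}
    with h | ⟨⟨c⟩⟩
  · rw [Nat.card_of_isEmpty]; exact Nat.zero_le _
  have h1 : ∀ a, IsConj z a → a * a = 1 := fun a h => by
    rw [← sq, ← hz, orderOf_eq_of_isConj h, pow_orderOf_eq_one]
  have h2 : ∀ ab : {ab : G × G // IsConj z ab.1 ∧ IsConj z ab.2 ∧ ab.1 * ab.2 = x},
      ab.1.1 * x = x⁻¹ * ab.1.1 ∧ ab.1.1 * x⁻¹ = x * ab.1.1 := by
    rintro ⟨⟨a, b⟩, ha, hb, rfl⟩
    have e1 := inv_eq_of_mul_eq_one_right (h1 a ha)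
    have e2 := inv_eq_of_mul_eq_one_right (h1 b hb)
    simp only [mul_inv_rev, e1, e2, mul_assoc, ← mul_assoc a a, h1 a ha, one_mul, mul_one,
      and_self]
  refine Nat.card_le_card_of_injective (fun ab => ⟨c.1.1 * ab.1.1,
    mem_centralizer_singleton_iff.2 (by
      rw [mul_assoc, (h2 ab).1, ← mul_assoc, (h2 c).2, mul_assoc])⟩) fun ab ab' h => ?_
  have h3 : ab.1.1 = ab'.1.1 := mul_left_cancel (congrArg Subtype.val h)
  refine Subtype.ext (Prod.ext h3 (mul_left_cancel (a := ab.1.1) ?_))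
  rw [ab.2.2.2, h3, ab'.2.2.2]

theorem exists_central_invol (h : 2 ∣ Nat.card G) :
    ∃ z : G, orderOf z = 2 ∧ ¬ 2 ∣ (centralizer ({z} : Set G)).index := by
  obtain ⟨P⟩ : Nonempty (Sylow 2 G) := inferInstance
  have : Nontrivial P := Finite.one_lt_card_iff_nontrivial.1
    (Nat.le_of_dvd Nat.card_pos (P.dvd_card_of_dvd_card h))
  have := P.isPGroup'.center_nontrivial
  obtain ⟨z, hz⟩ := exists_prime_orderOf_dvd_card' (G := center P) 2
    ((P.isPGroup'.to_subgroup _).card_eq_or_dvd.resolve_left Finite.one_lt_card.ne')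
  refine ⟨z, by rw [orderOf_coe, orderOf_coe, hz], fun h1 => P.not_dvd_index
    (h1.trans (index_dvd_of_le fun y hy => mem_centralizer_singleton_iff.2 ?_))⟩
  exact congrArg Subtype.val (mem_center_iff.1 z.2 ⟨y, hy⟩)

variable [IsSimpleGroup G] (hna : ∃ x y : G, x * y ≠ y * x)
include hna

theorem exists_three (h3 : 3 ∣ Nat.card G) (h9 : ¬ 3 ^ 2 ∣ Nat.card G) {χ : IrrCharacter G}
    (hd : charDegree χ.1 = 3) : ∃ (x : G) (α β : IrrCharacter G), orderOf x = 3 ∧
      Nat.card (centralizer ({x} : Set G)) = 3 ∧ α ≠ irrOne G ∧ α.1 x = 1 ∧ χ.1 x = 0 ∧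
      (∀ F : IrrCharacter G → ℂ, ∑ ψ, F ψ * ψ.1 x = F (irrOne G) + F α - F β) ∧
      (∀ F : IrrCharacter G → ℂ, ∑ ψ, F ψ * conj (ψ.1 x) = F (irrOne G) + F α - F β) ∧
      ∀ g, ¬ 3 ∣ orderOf g → β.1 g = 1 + α.1 g := by
  classical
  have := Fact.mk Nat.prime_three
  obtain ⟨A, _, _, ι, H⟩ := exists_primeSyl_of_dvd h3 h9
  have hχ : χ ≠ irrOne G := by rintro rfl; rw [charDegree_irrOne] at hd; omega
  have hC := H.centralizer_le_of_forall fun y hy hy' => by
    have := H.mem_center_of_degree hd hy hy'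
    rwa [irr_center_eq_bot_of_simple hna hχ, mem_bot] at this
  have he : Nat.card (autN ι) = 3 - 1 :=
    ((Nat.dvd_prime Nat.prime_two).1 H.card_autN_dvd).resolve_left fun h =>
      not_hasNormalPComplement_of_simple hna h3
        (H.hasNormalPComplement ((card_autN H.inj).symm.trans h))
  obtain ⟨X, Y, δ, δ₀, T, hX⟩ := H.exists_pb
  obtain ⟨l⟩ : Nonempty (HatNe A) := by
    rw [← Finite.card_pos_iff, card_hatNe, H.card]; norm_num
  obtain ⟨θ, hθ⟩ := Finset.card_eq_one.1 (show (X.erase (irrOne G)).card = 1 by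
    rw [Finset.card_erase_of_mem hX, T.card_X, he])
  have hθ' := Finset.mem_erase.1 (hθ ▸ Finset.mem_singleton_self θ : θ ∈ X.erase (irrOne G))
  have hs : ∀ F : IrrCharacter G → ℂ, ∑ ψ ∈ X, F ψ = F (irrOne G) + F θ := fun F => by
    rw [← Finset.add_sum_erase _ _ hX, hθ, Finset.sum_singleton]
  have h1 : ∀ u ≠ 1, ∀ F : IrrCharacter G → ℂ,
      ∑ ψ, F ψ * ψ.1 (ι u) = F (irrOne G) + δ θ * F θ + δ₀ * F (Y l) := fun u hu F => by
    rw [← Finset.sum_subset (Finset.subset_univ (insert (Y l) X)) fun ψ _ hψ => by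
      rw [T.apply_eq_zero_of_le_ker (by rw [H.cenReg_eq_bot hC]; exact bot_le)
        (fun h => hψ (Finset.mem_insert_of_mem h)) (fun m h => hψ (by
          rw [← h, T.eq_of_card_eq he m l]; exact Finset.mem_insert_self _ _)) hu, mul_zero],
      Finset.sum_insert (T.not_mem l), hs, T.valY_of_card_eq he l (H.dvd_orderOf hu),
      T.valX_range hθ'.2 hu, irrOne_apply]
    ring
  have h2 : ∀ g, ¬ 3 ∣ orderOf g → δ₀ * (Y l).1 g + (1 + δ θ * θ.1 g) = 0 := fun g hg => by
    have := T.reg l g hg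
    rwa [hs, T.sign_one hX, irrOne_apply, Int.cast_one, one_mul] at this
  have h4 : δ₀ * charDegree (Y l).1 + (1 + δ θ * charDegree θ.1) = 0 := by
    have := h2 1 not_dvd_orderOf_one
    simp only [irr_apply_one] at this
    exact_mod_cast this
  obtain ⟨u, hu⟩ := @exists_ne A H.nontrivial 1
  have h5 : ∀ F : IrrCharacter G → ℂ,
      ∑ ψ, F ψ * conj (ψ.1 (ι u)) = F (irrOne G) + δ θ * F θ + δ₀ * F (Y l) := fun F => by
    simp only [← (irr_isCharacter _).apply_inv, ← map_inv]
    exact h1 _ (inv_ne_one.2 hu) F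
  have h6 : orderOf (ι u) = 3 := by rw [orderOf_injective ι H.inj, H.orderOf_eq hu]
  have h7 : Nat.card (centralizer ({ι u} : Set G)) = 3 := by
    rw [H.centralizer_eq hu, H.centralizer_le_iff.1 hC]
  have h8 := H.apply_eq_zero hd.symm.dvd (H.dvd_orderOf hu)
  have h9 := irr_degree_ne_one_of_simple hna hθ'.1
  have := irr_degree_pos θ
  have := irr_degree_pos (Y l)
  rcases T.sign θ hθ'.2 with e1 | e1 <;> rcases T.sign₀ with e2 | e2 <;> rw [e1, e2] at h4
  · omega
  · refine ⟨ι u, θ, Y l, h6, h7, hθ'.1, by rw [T.valX_range hθ'.2 hu, e1, Int.cast_one], h8,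
      fun F => by rw [h1 u hu, e1, e2]; push_cast; ring,
      fun F => by rw [h5, e1, e2]; push_cast; ring, fun g hg => ?_⟩
    have := h2 g hg
    rw [e1, e2] at this
    push_cast at this
    linear_combination -this
  · refine ⟨ι u, Y l, θ, h6, h7, fun h => T.not_mem l (h ▸ hX),
      by rw [T.valY_of_card_eq he l (H.dvd_orderOf hu), e2, Int.cast_one], h8,
      fun F => by rw [h1 u hu, e1, e2]; push_cast; ring,
      fun F => by rw [h5, e1, e2]; push_cast; ring, fun g hg => ?_⟩
    have := h2 g hg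
    rw [e1, e2] at this
    push_cast at this
    linear_combination -this
  · omega

theorem exists_deg (h3 : 3 ∣ Nat.card G) (h9 : ¬ 3 ^ 2 ∣ Nat.card G) {χ : IrrCharacter G}
    (hd : charDegree χ.1 = 3) : ∃ d, (d = 4 ∨ d = 7) ∧ d ∣ Nat.card G ∧ d + 1 ∣ Nat.card G ∧
      ∀ z : G, orderOf z = 2 → ∃ N k : ℕ, N ≤ 3 ∧ 0 < k ∧ 2 * k < d ∧
        N * Nat.card (centralizer ({z} : Set G)) * (d * (d + 1)) =
          (centralizer ({z} : Set G)).index * (4 * k) ^ 2 := by
  have := Fintype.ofFinite G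
  obtain ⟨x, α, β, h1, h2, h4, h5, h6, h7, h8, h10⟩ := exists_three hna h3 h9 hd
  have hβ : charDegree β.1 = charDegree α.1 + 1 := by
    have := h10 1 (by simp)
    rw [irr_apply_one, irr_apply_one, add_comm] at this
    exact_mod_cast this
  have h11 : (1 : ℤ) ≡ charDegree α.1 [ZMOD 3] :=
    (irr_isCharacter α).isGen.int_modEq_of_commute Nat.prime_three (Commute.one_right x) (k := 1)
      (by rw [pow_one, ← h1, pow_orderOf_eq_one]) (by rw [mul_one, h5, Int.cast_one])
      (by rw [irr_apply_one, Int.cast_natCast])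
  have hθ := (irr_isCharacter χ).mul (irr_isCharacter χ).cbar
  have h12 : ip (χ.1 * cbar χ.1) (irrOne G).1 = 1 := by
    rw [ip_mul_left, irrOne_val]
    refine Eq.trans ?_ (ip_irr_self χ)
    congr 1
    ext g
    simp
  have h13 := hθ.sub_irr (irrOne G) (by rw [h12]; exact one_ne_zero)
  have h14 : charDegree (χ.1 * cbar χ.1 - (irrOne G).1) = 8 := charDegree_eq_of_apply_one (by
    simp [irr_apply_one, hd, map_ofNat]; norm_num)
  have h15 : charDegree β.1 ≤ 8 := h14 ▸ h13.degree_le_of_ip_ne_zero β (by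
    have h16 := hθ.isClassFunction.apply_eq_sum_irr x
    rw [h7, h12, Pi.mul_apply, h6, zero_mul, hθ.ip_eq_mult (irr_isCharacter α)] at h16
    rw [ip_sub_left, ip_irr_ne (by
      rintro rfl
      rw [charDegree_irrOne] at hβ
      have := irr_degree_pos α
      omega), sub_zero, show ip (χ.1 * cbar χ.1) β.1 = ((mult (χ.1 * cbar χ.1) α.1 + 1 : ℕ) : ℂ) by
        push_cast; linear_combination h16]
    exact Nat.cast_ne_zero.2 (Nat.succ_ne_zero _))
  have h16 := irr_degree_ne_one_of_simple hna h4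
  refine ⟨charDegree α.1, by have := h11.dvd; omega, irr_degree_dvd_card α,
    hβ ▸ irr_degree_dvd_card β, fun z hz => ?_⟩
  obtain ⟨k, k1, k2, k3⟩ := exists_apply_invol_of_simple hna h4 hz
  refine ⟨_, k, h2 ▸ card_pairs_le (x := x) hz, k1, k2, Nat.cast_injective (R := ℂ) ?_⟩
  have h17 := h8 fun ψ => ψ.1 z * ψ.1 z / ψ.1 1
  simp only [div_mul_eq_mul_div] at h17
  have h18 : (charDegree α.1 : ℂ) ≠ 0 := Nat.cast_ne_zero.2 (irr_degree_pos α).ne'
  have h19 : (charDegree α.1 : ℂ) + 1 ≠ 0 := Nat.cast_add_one_ne_zero _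
  have h20 : (Nat.card (centralizer ({z} : Set G)) : ℂ) ≠ 0 := Nat.cast_ne_zero.2 Nat.card_pos.ne'
  have h21 : ((centralizer ({z} : Set G)).index : ℂ) ≠ 0 :=
    Nat.cast_ne_zero.2 index_ne_zero_of_finite
  push_cast
  rw [card_mul_classes_eq, h17, h10 z (by rw [hz]; norm_num), k3, irr_apply_one α, irr_apply_one β,
    hβ, ← (centralizer ({z} : Set G)).card_mul_index]
  simp only [irrOne_apply]
  push_cast
  field_simp
  ring

theorem four (p q a b : ℕ) (hp : p.Prime) (hq : q.Prime) (hpq : p ≠ q)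
    (h : Nat.card G = 4 * p ^ a * q ^ b) : Nonempty (G ≃* alternatingGroup (Fin 5)) := by
  have h1 : ∀ r : ℕ, r.Prime → r ∣ Nat.card G → r = 2 ∨ r = p ∨ r = q := fun r hr h1 => by
    rw [h, show 4 = 2 ^ 2 from rfl, hr.dvd_mul, hr.dvd_mul, or_assoc] at h1
    exact h1.imp (fun h => (Nat.prime_dvd_prime_iff_eq hr Nat.prime_two).1 (hr.dvd_of_dvd_pow h))
      (Or.imp (fun h => (Nat.prime_dvd_prime_iff_eq hr hp).1 (hr.dvd_of_dvd_pow h))
        fun h => (Nat.prime_dvd_prime_iff_eq hr hq).1 (hr.dvd_of_dvd_pow h))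
  have h2 : p ≠ 2 := by
    rintro rfl
    exact not_isSolvable_of_simple hna (isSolvable_of_two_primes hp hq G fun r hr h => by
      have := h1 r hr h; tauto)
  have h3 : q ≠ 2 := by
    rintro rfl
    exact not_isSolvable_of_simple hna (isSolvable_of_two_primes hp hq G fun r hr h => by
      have := h1 r hr h; tauto)
  exact nonempty_mulEquiv_alternatingGroup_of_card (card_eq_sixty_of_simple hna
    ((hp.odd_of_ne_two h2).pow.mul (hq.odd_of_ne_two h3).pow) (h.trans (mul_assoc _ _ _))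
    hp hq hpq h1)

omit hna

/-- Let G be a non-abelian finite simple group and p, q distinct primes. If the order of G is 4·p^a·q^b with a ≤ 2, then G is isomorphic to the alternating group of degree 5. If the order of G is 3·p^a·q^b with a ≤ 2, then G is isomorphic to the alternating group of degree 5 or to PSL(2,7). -/
theorem result {G : Type*} [Group G] [Finite G] [IsSimpleGroup G] (hna : ∃ x y : G, x * y ≠ y * x) (p q a b : ℕ) (hp : p.Prime) (hq : q.Prime) (hpq : p ≠ q) (ha : a ≤ 2) : (Nat.card G = 4 * p ^ a * q ^ b → Nonempty (G ≃* alternatingGroup (Fin 5))) ∧ (Nat.card G = 3 * p ^ a * q ^ b → Nonempty (G ≃* alternatingGroup (Fin 5)) ∨ Nonempty (G ≃* Matrix.ProjectiveSpecialLinearGroup (Fin 2) (ZMod 7))) := by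
  refine ⟨four hna p q a b hp hq hpq, fun h => ?_⟩
  have h1 : ∀ r : ℕ, r.Prime → r ∣ Nat.card G → r = 3 ∨ r = p ∨ r = q := fun r hr h1 => by
    rw [h, hr.dvd_mul, hr.dvd_mul, or_assoc] at h1
    exact h1.imp (Nat.prime_dvd_prime_iff_eq hr Nat.prime_three).1
      (Or.imp (fun h => (Nat.prime_dvd_prime_iff_eq hr hp).1 (hr.dvd_of_dvd_pow h))
        fun h => (Nat.prime_dvd_prime_iff_eq hr hq).1 (hr.dvd_of_dvd_pow h))
  have h2 : p ≠ 3 := by
    rintro rfl
    exact not_isSolvable_of_simple hna (isSolvable_of_two_primes hp hq G fun r hr h => by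
      have := h1 r hr h; tauto)
  have h3 : q ≠ 3 := by
    rintro rfl
    exact not_isSolvable_of_simple hna (isSolvable_of_two_primes hp hq G fun r hr h => by
      have := h1 r hr h; tauto)
  have h4 : 3 ∣ Nat.card G := by rw [h, mul_assoc]; exact dvd_mul_right _ _
  have h5 : ¬ 3 ^ 2 ∣ Nat.card G := fun h5 => by
    rw [h, mul_assoc, sq, mul_dvd_mul_iff_left (by norm_num), Nat.prime_three.dvd_mul] at h5
    rcases h5 with h5 | h5
    · exact h2 ((Nat.prime_dvd_prime_iff_eq Nat.prime_three hp).1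
        (Nat.prime_three.dvd_of_dvd_pow h5)).symm
    · exact h3 ((Nat.prime_dvd_prime_iff_eq Nat.prime_three hq).1
        (Nat.prime_three.dvd_of_dvd_pow h5)).symm
  obtain ⟨χ, hχ, k, hk⟩ := S4500.aux (G := G) p 3 q a 1 b hp Nat.prime_three hq h2 hpq ha
    (by rw [h]; ring)
  replace hχ : χ ≠ irrOne G := fun h => hχ (congrArg Subtype.val h)
  have hd : charDegree χ.1 = 3 := by
    have h6 := irr_degree_ne_one_of_simple hna hχ
    have h7 : ¬ 2 ≤ k := fun h7 => h5 ((pow_dvd_pow 3 h7).trans (hk ▸ irr_degree_dvd_card χ))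
    rcases (show k = 0 ∨ k = 1 by omega) with rfl | rfl
    exacts [absurd hk h6, hk]
  obtain ⟨d, rfl | rfl, d1, d2, d3⟩ := exists_deg hna h4 h5 hd
  · obtain ⟨z, hz, hz'⟩ := exists_central_invol (G := G) (by omega)
    obtain ⟨N, k, -, k1, k2, k3⟩ := d3 z hz
    obtain rfl : k = 1 := by omega
    have h6 : ¬ 2 ^ 3 ∣ Nat.card G := fun h6 => by
      rw [← (centralizer ({z} : Set G)).card_mul_index] at h6
      obtain ⟨c, hc⟩ := (Nat.Coprime.pow_left 3
        (Nat.prime_two.coprime_iff_not_dvd.2 hz')).dvd_of_dvd_mul_right h6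
      rw [hc, mul_left_comm N] at k3
      omega
    have h7 : ∀ n m : ℕ, Nat.card G = 3 * 2 ^ n * 5 ^ m → Nat.card G = 4 * 3 ^ 1 * 5 ^ m :=
      fun n m h => by
        have h8 : ¬ 3 ≤ n := fun h8 => h6 (h ▸ ((pow_dvd_pow 2 h8).mul_left 3).mul_right _)
        have h9 : Odd (5 ^ m) := Odd.pow (by decide)
        rw [h] at d1 ⊢
        obtain ⟨t, ht⟩ := h9
        rcases (show n = 0 ∨ n = 1 ∨ n = 2 by omega) with rfl | rfl | rfl <;> omega
    left
    rcases h1 2 Nat.prime_two (by omega) with h8 | rfl | rfl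
    · omega
    · obtain rfl : 5 = q := by have := h1 5 Nat.prime_five d2; omega
      exact four hna 3 5 1 b Nat.prime_three hq (by norm_num) (h7 a b h)
    · obtain rfl : 5 = p := by have := h1 5 Nat.prime_five d2; omega
      exact four hna 3 5 1 a Nat.prime_three hp (by norm_num) (h7 b a (by rw [h]; ring))
  · right
    have h7 : Nat.Prime 7 := by norm_num
    obtain ⟨rfl, rfl⟩ : 7 = p ∧ 2 = q := by
      rcases h1 2 Nat.prime_two (by omega) with h8 | rfl | rfl
      · omega
      · obtain rfl : 7 = q := by have := h1 7 h7 d1; omega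
        obtain ⟨t, ht⟩ : Odd (7 ^ b) := Odd.pow (by decide)
        rw [h] at d2
        interval_cases a <;> omega
      · have := h1 7 h7 d1; omega
    have h6 : ¬ 7 ^ 3 ∣ Nat.card G := by
      rw [h, mul_right_comm]
      intro h8
      have := (Nat.pow_dvd_pow_iff_le_right (by norm_num)).1
        ((Nat.Coprime.pow_left 3 (Nat.Coprime.mul_right (by norm_num)
          (Nat.Coprime.pow_right b (by norm_num)))).dvd_of_dvd_mul_left h8)
      omega
    obtain ⟨z, hz, hz'⟩ := exists_central_invol (G := G) (by omega)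
    obtain ⟨N, k, k0, k1, k2, k3⟩ := d3 z hz
    have h8 : ¬ 7 ^ 2 ∣ Nat.card G ∧ ¬ 2 ^ 4 ∣ Nat.card G := by
      rw [← (centralizer ({z} : Set G)).card_mul_index] at h6 ⊢
      have h9 : (centralizer ({z} : Set G)).index ≠ 0 := index_ne_zero_of_finite
      generalize Nat.card (centralizer ({z} : Set G)) = c at *
      generalize (centralizer ({z} : Set G)).index = i at *
      refine ⟨fun h8 => ?_, fun h8 => ?_⟩
      · have h10 : Nat.Coprime 7 ((4 * k) ^ 2) := by
          rcases (show k = 1 ∨ k = 2 ∨ k = 3 by omega) with rfl | rfl | rfl <;> norm_num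
        obtain ⟨j, rfl⟩ : 7 ∣ i := h10.dvd_of_dvd_mul_right (k3 ▸ Dvd.dvd.mul_left (by norm_num) _)
        have h11 : N * 8 * c = j * (4 * k) ^ 2 := by linarith
        have h12 : Nat.Coprime 7 (N * 8) := by
          rcases (show N = 0 ∨ N = 1 ∨ N = 2 ∨ N = 3 by omega) with rfl | rfl | rfl | rfl
          · have : 0 < j * (4 * k) ^ 2 := Nat.mul_pos (by omega) (by positivity)
            omega
          all_goals norm_num
        have h13 : 7 ∣ c ↔ 7 ∣ j := by rw [← h12.dvd_mul_left, h11, h10.dvd_mul_right]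
        rw [mul_left_comm, sq, mul_dvd_mul_iff_left (by norm_num), h7.dvd_mul, h13, or_self] at h8
        obtain ⟨c, rfl⟩ := h13.2 h8
        obtain ⟨j, rfl⟩ := h8
        exact h6 ⟨c * j, by ring⟩
      · obtain ⟨c, rfl⟩ := (Nat.Coprime.pow_left 4
          (Nat.prime_two.coprime_iff_not_dvd.2 hz')).dvd_of_dvd_mul_right h8
        rw [mul_left_comm N] at k3
        rcases (show k = 1 ∨ k = 2 ∨ k = 3 by omega) with rfl | rfl | rfl <;> omega
    have h9 : Nat.card G = 168 := by
      have h9 : ¬ 4 ≤ b := fun h9 => h8.2 (h ▸ (pow_dvd_pow 2 h9).mul_left _)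
      have h10 : b < 4 := by omega
      obtain ⟨h11, -⟩ := h8
      rw [h] at d1 d2 h11 ⊢
      clear h h6 hz' k3
      interval_cases a <;> interval_cases b <;> omega
    have := Fact.mk h7
    obtain ⟨A, _, _, ι, H⟩ := exists_primeSyl_of_dvd d1 h8.1
    have hperf := commutator_eq_top_of_simple hna
    have h10 : (normalizer (ι.range : Set G)).index = 1 + 1 * 7 := by
      have h10 := H.index_normalizer_modEq
      have h11 : (normalizer (ι.range : Set G)).index ≠ 1 := fun h =>
        H.not_normal_of_perfect hperf (normalizer_eq_top_iff.1 (index_eq_one.1 h))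
      have h12 : (normalizer (ι.range : Set G)).index ∣ 24 := by
        have := ι.range.card_mul_index
        rw [H.card_range, h9] at this
        exact (index_dvd_of_le le_normalizer).trans (dvd_of_eq (by omega))
      have := Nat.le_of_dvd (by norm_num) h12
      unfold Nat.ModEq at h10
      generalize (normalizer (ι.range : Set G)).index = i at *
      clear h h6 hz' k3 h8 d1 d2 h4 h5
      interval_cases i <;> omega
    rcases (H.brauer_dichotomy hperf ((IsSimpleGroup.eq_bot_or_eq_top_of_normal _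
      inferInstance).resolve_right fun h11 => not_dvd_card_pPrimeCore 7 G (by
        rwa [h11, card_top])) h10 fun u _ _ => by omega).2 with h11 | h11
    · exact h11.1
    · exact absurd (h9.symm.trans h11.2) (by norm_num)

end Cfsg.Agent.S4501
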