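import Cfsg.Statements.S4502
import Cfsg.Agent.Lib.Block.CycOne

set_option autoImplicit false
open Cfsg

namespace Cfsg.Agent.S4502

open CT BT GT

/-- Let G be a finite group whose order is divisible by the prime p exactly once, and let P be a Sylow p-subgroup. Then the number of irreducible characters of G of degree not divisible by p equals the number of conjugacy classes of the normalizer of P. -/
theorem result {G : Type*} [Group G] [Finite G] (p : ℕ) [Fact p.Prime] (hdiv : p ∣ Nat.card G) (hsq : ¬ p ^ 2 ∣ Nat.card G) (P : Sylow p G) : Nat.card {χ : Cfsg.IrrCharacter G // ¬ p ∣ Cfsg.charDegree (χ : G → ℂ)} = Nat.card (ConjClasses (Subgroup.normalizer ((P : Subgroup G) : Set G))) := by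
  classical
  have hp : p.Prime := Fact.out
  obtain ⟨M, hM⟩ := exists_pModular hp
  have h1 : (Nat.card G).factorization p = 1 := by
    have h2 := (hp.pow_dvd_iff_le_factorization Nat.card_pos.ne').not.1 hsq
    have h3 := hp.factorization_pos_of_dvd Nat.card_pos.ne' hdiv
    omega
  obtain ⟨A, _, _, ι, H, hι⟩ := exists_primeSyl (isSylowIn_sylow P)
    (by rw [P.card_eq_multiplicity, h1, pow_one])
  have := H.isCyclic
  have := H.nontrivial
  rw [← hι]
  obtain ⟨N, hN⟩ : ∃ N, N = Subgroup.normalizer (ι.range : Set G) := ⟨_, rfl⟩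
  rw [← hN]
  have hDN : ι.range ≤ N := hN ▸ Subgroup.le_normalizer
  have hCN : Subgroup.centralizer (ι.range : Set G) ≤ N := hN ▸ Subgroup.centralizer_le_normalizer _
  have hP := H.syl.isPGroup
  choose Φ hΦ using fun c : Bl M N => inducedBlockDefined_of_normal hM hP hDN hCN hN.le c.2
  have hdef : ∀ c : Bl M N, DefGrp p N (sidem hM N c.1) ι.range := fun c => by
    obtain ⟨D, hD⟩ := (bIdem_sidem hM c.2).exists_defGrp hM
    rwa [H.syl.eq_of_le hD.pgroup le_top ((bIdem_sidem hM c.2).le_defGrp hM hDN hN.le hP hD)] at hD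
  have hbr : ∀ c : Bl M N, DefGrp p ⊤ (idem hM (Φ c)) ι.range ∧
      br ι.range (idem hM (Φ c)) = sidem hM N c.1 := fun c =>
    first_main_of_br_mul hM le_top (by rw [top_inf_eq, ← hN]; exact bIdem_sidem hM c.2)
      (by rw [top_inf_eq, ← hN]; exact hdef c) (bIdem_top_idem hM (hΦ c).2.1) (by
        rw [(isInducedBlock_iff_br hM hP hDN hCN hN.le c.2 (hΦ c).2.1).1 (hΦ c)]
        exact (bIdem_sidem hM c.2).ne_zero)
  have hkey : ∀ B : Bl M G, ∀ χ ∈ B.1, ¬ p ∣ charDegree χ.1 ↔ blockDefect p B.1 ≠ 0 := by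
    intro B χ hχ
    rw [ne_eq, blockDefect_eq_zero_iff hM B.2 hχ, h1,
      hp.dvd_iff_one_le_factorization (irr_degree_pos χ).ne']
    have h2 := factorization_degree_add_defect (p := p) hχ
    by_cases hd : blockDefect p B.1 = 0
    · rw [(blockDefect_eq_zero_iff hM B.2 hχ).1 hd, h1]; simp
    · obtain ⟨b, X, Y, δ, δ₀, ξ, O⟩ := H.exists_oneStr_of_defect hM rfl B.2 hd
      rw [O.cyc.height_eq_zero O.ab hχ, h1] at h2
      omega
  rw [← card_irr_eq_card_conjClasses, Nat.card_eq_fintype_card, Nat.card_eq_fintype_card,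
    Fintype.card_subtype, Finset.card_filter, ← Finset.card_univ, Finset.card_eq_sum_ones,
    sum_irr_eq_sum_bset hM, sum_irr_eq_sum_bset hM]
  symm
  refine Finset.sum_bij_ne_zero (fun c _ _ => ⟨Φ c, (hΦ c).2.1⟩) (fun _ _ _ => Finset.mem_univ _)
    (fun c _ _ c' _ _ h => Subtype.ext (sidem_injective hM c.2 c'.2 ?_)) (fun B _ h => ?_)
    fun c _ _ => ?_
  · rw [← (hbr c).2, ← (hbr c').2, show Φ c = Φ c' from congrArg Subtype.val h]
  · obtain ⟨χ, hχ, h⟩ := Finset.exists_ne_zero_of_sum_ne_zero h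
    have hD := defGrp_of_isDefectGroup hM B.2 (H.isDefectGroup hM B.2
      ((hkey B χ (mem_bset.1 hχ)).1 fun h' => h (if_neg (not_not.2 h'))))
    have h2 := (first_main_br hM (bIdem_top_idem hM B.2) hD).1
    rw [top_inf_eq, ← hN] at h2
    obtain ⟨c, hc, h3⟩ := h2.exists_block hM
    obtain ⟨θ, hθ⟩ := block_nonempty hM hc
    refine ⟨⟨c, hc⟩, Finset.mem_univ _, ?_, Subtype.ext (isInducedBlock_unique hM (hΦ _)
      ((isInducedBlock_iff_br hM hP hDN hCN hN.le hc B.2).2 (by rw [h3, h2.idem])))⟩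
    rw [← Finset.card_eq_sum_ones]
    exact Finset.card_ne_zero.2 ⟨θ, mem_bset.2 hθ⟩
  · have hD := (isDefectGroup_iff_defGrp hM (hΦ c).2.1 _).2 (hbr c).1
    obtain ⟨e, S, S'⟩ := exists_abSet_pair hM H.inj hD hDN hCN
      ((isDefectGroup_subgroupOf_iff_defGrp hM c.2 hDN).2 (hdef c)) (hΦ c)
    obtain ⟨X, Y, δ, δ₀, c₁, T⟩ := S.exists_cycStr
    obtain ⟨X', Y', δ', δ₀', c₂, T'⟩ := S'.exists_cycStr
    have hd : blockDefect p (Φ c) ≠ 0 := fun h =>
      hp.one_lt.ne' (by rw [← H.card, S.card_eq, h, pow_zero])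
    rw [Finset.sum_congr rfl fun χ hχ => if_pos ((hkey ⟨_, (hΦ c).2.1⟩ χ (mem_bset.1 hχ)).2 hd),
      ← Finset.card_eq_sum_ones, ← Finset.card_eq_sum_ones, card_bset, card_bset, T.card_eq S,
      T'.card_eq S', S.inert_sub_eq hDN hCN (hN ▸ NP_le_normalizer)]

end Cfsg.Agent.S4502
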