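import Cfsg.Statements.S4505
import Cfsg.Agent.Lib.Block.CentralDef

set_option autoImplicit false
open Cfsg

namespace Cfsg.Agent.S4505

open CT BT
open scoped MonoidAlgebra ComplexConjugate

attribute [local irreducible] instFieldResF

/-- Let G be a finite group, p a prime and M a maximal ideal of the algebraic integers containing p. For every σ, the number of p-blocks of defect exactly σ is at most the number of conjugacy classes of p-regular elements whose centralizer has order divisible by p^σ but not by p^(σ+1). -/
theorem result {G : Type*} [Group G] [Finite G] (p : ℕ) [Fact p.Prime] (M : Ideal Cfsg.AlgInt) (hM : Cfsg.IsPModular p M) (σ : ℕ) : Nat.card {B : Set (Cfsg.IrrCharacter G) // Cfsg.IsPBlock M B ∧ Cfsg.blockDefect p B = σ} ≤ Nat.card {C : ConjClasses G // ∃ g : G, ConjClasses.mk g = C ∧ ¬ p ∣ orderOf g ∧ (Nat.card (Subgroup.centralizer ({g} : Set G))).factorization p = σ} := by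
  classical
  have := Fintype.ofFinite (ConjClasses G)
  set S := {C : ConjClasses G // ∃ g : G, ConjClasses.mk g = C ∧ ¬ p ∣ orderOf g ∧ (Nat.card (Subgroup.centralizer ({g} : Set G))).factorization p = σ}
  set T := {B : Set (Cfsg.IrrCharacter G) // Cfsg.IsPBlock M B ∧ Cfsg.blockDefect p B = σ}
  have := Fintype.ofFinite T
  choose χ hχ using fun B : T => block_nonempty hM B.2.1
  have h : LinearIndependent (ResF hM) fun (B : T) (c : S) =>
      red hM (centralChar (χ B).1 (Quotient.out c.1)) := by
    rw [Fintype.linearIndependent_iff]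
    intro a ha B'
    have h1 : ∀ B : T, ∑ c : S, (idem hM B'.1).coeff (Quotient.out c.1) *
        red hM (centralChar (χ B).1 (Quotient.out c.1)) = if B = B' then 1 else 0 := fun B => by
      have h2 := lam_idem hM B'.2.1 (χ B)
      rw [lam_def, ← Finset.sum_subset (Finset.subset_univ (Finset.univ.filter fun C => ∃ g : G, ConjClasses.mk g = C ∧ ¬ p ∣ orderOf g ∧ (Nat.card (Subgroup.centralizer ({g} : Set G))).factorization p = σ)) fun c _ hc => ?_, Finset.sum_subtype (F := inferInstance) (p := fun C => ∃ g : G, ConjClasses.mk g = C ∧ ¬ p ∣ orderOf g ∧ (Nat.card (Subgroup.centralizer ({g} : Set G))).factorization p = σ) _ (by simp)] at h2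
      · rw [h2]
        congr 1
        exact propext ⟨fun h => Subtype.ext (block_eq_of_mem hM B.2.1 B'.2.1 (hχ B) h),
          fun h => h ▸ hχ B⟩
      · by_contra h0
        have := defect_of_coeff_mul_ne_zero hM B.2.1 B'.2.1 (hχ B) h0
        rw [B.2.2, B'.2.2] at this
        exact hc (Finset.mem_filter.2 ⟨Finset.mem_univ _, _, mk_out_conjClass c, this.1, by omega⟩)
    have h2 : ∑ c : S, (idem hM B'.1).coeff (Quotient.out c.1) * ∑ B : T, a B *
        red hM (centralChar (χ B).1 (Quotient.out c.1)) = 0 :=
      Finset.sum_eq_zero fun c _ => by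
        have := congrFun ha c
        simp only [Finset.sum_apply, Pi.smul_apply, smul_eq_mul, Pi.zero_apply] at this
        rw [this, mul_zero]
    simp only [Finset.mul_sum] at h2
    rw [Finset.sum_comm] at h2
    simp only [mul_left_comm _ (a _), ← Finset.mul_sum, h1] at h2
    rwa [Finset.sum_eq_single B' (fun B _ hB => by rw [if_neg hB, mul_zero]) (by simp), if_pos rfl,
      mul_one] at h2
  simpa using h.fintype_card_le_finrank

end Cfsg.Agent.S4505
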