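import Cfsg.Statements.S4506
import Cfsg.Agent.Lib.Block.GalTrace
import Cfsg.Agent.Lib.Block.QuotCartan

set_option autoImplicit false
open Cfsg

namespace Cfsg.Agent.S4506

open CT BT
open scoped MonoidAlgebra ComplexConjugate

/-- Let G be a finite group, p a prime, p^a the p-part of the order of G and g′ its p′-part. Call two irreducible characters p-conjugate when one is obtained from the other by applying a field automorphism of ℂ that fixes the g′-th roots of unity, and let r be the number of characters p-conjugate to the irreducible character χ (χ included). Then the exponent of p in r·χ(1) is at most a; and if p^a divides r·χ(1) then p^a already divides χ(1). -/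
theorem result {G : Type*} [Group G] [Finite G] (p : ℕ) (hp : p.Prime) (χ : Cfsg.IrrCharacter G) (r : ℕ) (hr : Nat.card {ψ : Cfsg.IrrCharacter G // ∃ σ : ℂ ≃+* ℂ, σ (Complex.exp (2 * Real.pi * Complex.I / ((Nat.card G / p ^ (Nat.card G).factorization p) : ℕ))) = Complex.exp (2 * Real.pi * Complex.I / ((Nat.card G / p ^ (Nat.card G).factorization p) : ℕ)) ∧ (ψ : G → ℂ) = fun g => σ ((χ : G → ℂ) g)} = r) : (r * Cfsg.charDegree (χ : G → ℂ)).factorization p ≤ (Nat.card G).factorization p ∧ (p ^ (Nat.card G).factorization p ∣ r * Cfsg.charDegree (χ : G → ℂ) → p ^ (Nat.card G).factorization p ∣ Cfsg.charDegree (χ : G → ℂ)) := by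
  classical
  haveI := Fact.mk hp
  obtain ⟨M, hM⟩ := exists_isPModular hp
  have h0 : Nat.card G ≠ 0 := Nat.card_pos.ne'
  let R : Set (IrrCharacter G) := {ψ | ∃ σ : ℂ ≃+* ℂ, σ (zeta (ordCompl[p] (Nat.card G))) =
    zeta (ordCompl[p] (Nat.card G)) ∧ ψ.1 = fun g => σ (χ.1 g)}
  have hR : (bset R).card = r := (card_bset R).trans hr
  have hχR : χ ∈ R := ⟨RingEquiv.refl ℂ, rfl, rfl⟩
  have hk : ∀ ψ ∈ R, ∃ k : ℕ, k.Coprime (Nat.card G) ∧ k ≡ 1 [MOD ordCompl[p] (Nat.card G)] ∧
      ∀ g, ψ.1 g = χ.1 (g ^ k) := by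
    rintro ψ ⟨σ, h1, h2⟩
    obtain ⟨k, h3, h4, h5⟩ := exists_coprime_card_of_gal (G := G) (σ : ℂ →+* ℂ)
    exact ⟨k, h3, (ringHom_zeta_eq_iff (σ : ℂ →+* ℂ) h0 (Nat.ordCompl_dvd _ p) h4).1 h1, fun g =>
      (congrFun h2 g).trans (congrFun (h5 _ (irr_isCharacter χ).isGen) g)⟩
  have hreg : ∀ k, k ≡ 1 [MOD ordCompl[p] (Nat.card G)] → ∀ g : G, ¬ p ∣ orderOf g → g ^ k = g :=
    fun k hk g hg => by
      rw [pow_eq_pow_of_modEq' (orderOf_dvd_iff_pow_eq_one.1
        (Nat.dvd_ordCompl_of_dvd_not_dvd (orderOf_dvd_natCard g) hg)) hk, pow_one]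
  have hR' : ∀ ψ ∈ R, pRegularPart p ψ.1 = pRegularPart p χ.1 := fun ψ hψ => by
    obtain ⟨k, -, h1, h2⟩ := hk ψ hψ
    exact pRegularPart_eq_iff.2 fun g hg => by rw [h2, hreg k h1 g hg]
  set q := p ^ ((Nat.card G).factorization p - (charDegree χ.1).factorization p) with hq
  have hq0 : (q : ℂ) ≠ 0 := Nat.cast_ne_zero.2 (pow_pos hp.pos _).ne'
  have hθ := isGen_pRegularPart_irr hp χ
  choose n hn using fun ψ : IrrCharacter G => hθ.exists_int_ip (irr_isCharacter ψ).isGen
  have h1 : ∀ ψ ∈ R, n ψ = n χ := fun ψ hψ => by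
    refine Int.cast_injective (α := ℂ) ?_
    rw [← hn, ← hn, ip_smul_left, ip_smul_left, ← ip_pRegularPart_both, hR' ψ hψ,
      ip_pRegularPart_both]
  have h2 : ∑ ψ, n ψ ^ 2 = q * n χ := by
    refine Int.cast_injective (α := ℂ) ?_
    have := ip_eq_sum_irr hθ.isClassFunction hθ.isClassFunction
    simp only [hn, map_intCast, ← sq] at this
    rw [ip_smul_right, ip_smul_left, ip_pRegularPart_both, ← ip_smul_left, hn,
      map_natCast] at this
    push_cast
    exact this.symm
  have h3 : n χ ≠ 0 := fun h => by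
    have := hn χ
    rw [h, ip_smul_left, Int.cast_zero, mul_eq_zero] at this
    exact this.elim hq0 (ip_pRegularPart_irr_self_ne_zero χ)
  rw [← Finset.sum_add_sum_compl (bset R),
    Finset.sum_congr rfl fun ψ hψ => by rw [h1 ψ (mem_bset.1 hψ)], Finset.sum_const, hR,
    nsmul_eq_mul] at h2
  have h4 : 0 ≤ ∑ ψ ∈ (bset R)ᶜ, n ψ ^ 2 := Finset.sum_nonneg fun _ _ => sq_nonneg _
  have hr0 : 0 < r := hR ▸ Finset.card_pos.2 ⟨χ, mem_bset.2 hχR⟩
  have hq1 : (0 : ℤ) < q := by exact_mod_cast pow_pos hp.pos _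
  have hr1 : (0 : ℤ) < r := by exact_mod_cast hr0
  have h5 : 0 < n χ := by
    have := mul_pos hr1 (sq_pos_of_ne_zero h3)
    exact (mul_pos_iff_of_pos_left hq1).1 (by linarith)
  have h6 : (r : ℤ) * n χ ≤ q := le_of_mul_le_mul_right (by nlinarith) h5
  have h7 : r ≤ q := by
    have : (r : ℤ) ≤ q := le_trans (by nlinarith) h6
    exact_mod_cast this
  have hd := factorization_degree_le (p := p) χ
  have hdeg := irr_degree_pos χ
  have h8 : r.factorization p ≤
      (Nat.card G).factorization p - (charDegree χ.1).factorization p :=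
    (Nat.pow_le_pow_iff_right hp.one_lt).1 ((Nat.ordProj_le p hr0.ne').trans h7)
  refine ⟨?_, fun h => ?_⟩
  · rw [Nat.factorization_mul hr0.ne' hdeg.ne', Finsupp.add_apply]
    omega
  rw [hp.pow_dvd_iff_le_factorization (mul_pos hr0 hdeg).ne',
    Nat.factorization_mul hr0.ne' hdeg.ne', Finsupp.add_apply] at h
  rw [hp.pow_dvd_iff_le_factorization hdeg.ne']
  have h9 : r = q := h7.antisymm (Nat.le_of_dvd hr0
    ((hp.pow_dvd_iff_le_factorization hr0.ne').2 (by omega)))
  have h10 : n χ = 1 := by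
    rw [h9] at h6
    nlinarith
  rw [h10, h9] at h2
  have h11 : ∀ ψ ∉ R, n ψ = 0 := fun ψ hψ => pow_eq_zero_iff two_ne_zero |>.1
    ((Finset.sum_eq_zero_iff_of_nonneg fun _ _ => sq_nonneg _).1 (by linarith) ψ (by simpa))
  by_contra hlt
  rcases eq_or_ne p 2 with rfl | hodd
  · obtain ⟨D, hD⟩ := exists_isDefectGroup (p := 2) hM (isPBlock_blockOf χ)
    have h12 := factorization_degree_add_defect (p := 2) (mem_blockOf_self hM χ)
    have h13 := blockHeight_le_defect (p := 2) (mem_blockOf_self hM χ)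
    obtain ⟨u, hu, ho, hc⟩ := exists_central_orderOf_eq hM (isPBlock_blockOf χ) hD (by omega)
    obtain ⟨y, hy, huy, h14⟩ := exists_apply_mul_ne_zero_of_mem_defect hM (isPBlock_blockOf χ) hD
      hu hc (mem_blockOf_self hM χ)
    have h15 : 2 ∣ orderOf (u * y) := by
      by_contra h
      have := GT.pPart_eq_one_iff.2 h
      rw [GT.pPart_mul_eq huy ⟨1, ho⟩ hy] at this
      simp [this] at ho
    have h16 := congrFun hθ.isClassFunction.eq_sum_irr (u * y)
    rw [Pi.smul_apply, pRegularPart_of_dvd _ h15, smul_zero, Finset.sum_apply,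
      ← sum_bset_eq_sum_univ R fun ψ hψ => by rw [hn, h11 ψ hψ]; simp,
      Finset.sum_congr rfl (g := fun _ => χ.1 (u * y)) fun ψ hψ => ?_, Finset.sum_const, hR,
      nsmul_eq_mul, eq_comm, mul_eq_zero] at h16
    · exact h16.elim (Nat.cast_ne_zero.2 hr0.ne') h14
    · obtain ⟨k, h17, h18, h19⟩ := hk ψ (mem_bset.1 hψ)
      rw [hn, h1 ψ (mem_bset.1 hψ), h10, Int.cast_one, one_smul, h19, huy.mul_pow, hreg k h18 y hy,
        ← pow_mod_orderOf, ho, Nat.odd_iff.1 (Nat.coprime_two_right.1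
          (h17.coprime_dvd_right (ho ▸ orderOf_dvd_natCard u))), pow_one]
  · obtain ⟨k₀, h12, h13, h14⟩ := exists_generator_modEq_one hp hodd h0
    have h15 := (blockRank_pos ⟨χ, mem_blockOf_self hM χ⟩).trans_le
      (blockRank_le_card_irrPow_fixed hM (isPBlock_blockOf χ) h12 (hreg k₀ h13))
    obtain ⟨ψ, hψ, h16⟩ := (Nat.card_ne_zero.1 h15.ne').1
    have h17 : IsInt hM (setIdem R) := isInt_setIdem_of_ip_pRegularPart hM fun ξ hξ η hη => by
      have := hn η
      rw [h11 η hη, ip_smul_left, Int.cast_zero, mul_eq_zero] at this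
      rw [hR' ξ hξ, this.resolve_left hq0]
    obtain ⟨σ, -, h18⟩ := mem_of_isInt_setIdem hM h17 hχR hψ
    have h19 : ∀ g, χ.1 (g ^ k₀) = χ.1 g := fun g => σ.injective
      ((congrFun h18 _).symm.trans ((congrFun (congrArg Subtype.val h16) g).trans (congrFun h18 g)))
    have h20 : ∀ j g, χ.1 (g ^ k₀ ^ j) = χ.1 g := fun j => by
      induction j with
      | zero => simp
      | succ j ih => exact fun g => by rw [pow_succ, pow_mul, h19, ih]
    have h21 : bset R = {χ} := Finset.eq_singleton_iff_unique_mem.2 ⟨mem_bset.2 hχR, fun ξ hξ => by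
      obtain ⟨k, h21, h22, h23⟩ := hk ξ (mem_bset.1 hξ)
      obtain ⟨j, hj⟩ := h14 k h21 h22
      exact Subtype.ext (funext fun g => by
        rw [h23, pow_eq_pow_of_modEq' (pow_card_eq_one' (x := g)) hj, h20])⟩
    rw [h21, Finset.card_singleton] at hR
    rw [← hR, Nat.factorization_one, Finsupp.zero_apply] at h
    omega

end Cfsg.Agent.S4506
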