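import Cfsg.Statements.S4507
import Cfsg.Agent.Lib.Block.CycOne

set_option autoImplicit false
open Cfsg

namespace Cfsg.Agent.S4507

open CT BT GT

/-- Let G be a finite group whose order g is divisible by the prime p exactly once, g′ = g/p, and fix a maximal ideal M of the algebraic integers containing p. Call two irreducible characters p-conjugate when a field automorphism of ℂ fixing the g′-th roots of unity carries one to the other. Let B be a p-block of positive defect (its defect group is a Sylow p-subgroup). Then B contains a subset Y (the exceptional family) such that: Y is a full p-conjugacy class (its members are pairwise p-conjugate and every p-conjugate of a member of Y lies in Y); every member of B outside Y is p-conjugate only to itself; the size t of Y divides p − 1 and B has exactly t + (p − 1)/t members; and there are signs δ_χ = ±1 (χ ∈ B) such that for every p-regular element x and every θ ∈ Y, Σ_{χ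 ∈ B ∖ Y} δ_χ χ(x) + δ_θ θ(x) = 0. -/
theorem result {G : Type*} [Group G] [Finite G] (p : ℕ) [Fact p.Prime] (M : Ideal Cfsg.AlgInt) (hM : Cfsg.IsPModular p M) (hdiv : p ∣ Nat.card G) (hsq : ¬ p ^ 2 ∣ Nat.card G) (B : Set (Cfsg.IrrCharacter G)) (hB : Cfsg.IsPBlock M B) (hd : 0 < Cfsg.blockDefect p B) : ∃ Y : Set (Cfsg.IrrCharacter G), Y ⊆ B ∧ Y.Nonempty ∧ (∀ θ ∈ Y, ∀ ψ : Cfsg.IrrCharacter G, (∃ σ : ℂ ≃+* ℂ, σ (Complex.exp (2 * Real.pi * Complex.I / ((Nat.card G / p ^ (Nat.card G).factorization p) : ℕ))) = Complex.exp (2 * Real.pi * Complex.I / ((Nat.card G / p ^ (Nat.card G).factorization p) : ℕ)) ∧ (ψ : G → ℂ) = fun g => σ ((θ : G → ℂ) g)) ↔ ψ ∈ Y) ∧ (∀ χ ∈ B, χ ∉ Y → ∀ ψ : Cfsg.IrrCharacter G, (∃ σ : ℂ ≃+* ℂ, σ (Complex.exp (2 * Real.pi * Complex.I / ((Nat.card G / p ^ (Nat.card G).factorization p) : ℕ))) = Complex.exp (2 * Real.pi * Complex.I / ((Nat.card G / p ^ (Nat.card G).factorization p) : ℕ)) ∧ (ψ : G → ℂ) =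 fun g => σ ((χ : G → ℂ) g)) → ψ = χ) ∧ Nat.card Y ∣ p - 1 ∧ Nat.card B = Nat.card Y + (p - 1) / Nat.card Y ∧ ∃ δ : Cfsg.IrrCharacter G → ℤ, (∀ χ ∈ B, δ χ = 1 ∨ δ χ = -1) ∧ ∀ x : G, ¬ p ∣ orderOf x → ∀ θ ∈ Y, (∑ᶠ χ ∈ B \ Y, (δ χ : ℂ) * (χ : G → ℂ) x) + (δ θ : ℂ) * (θ : G → ℂ) x = 0 := by
  classical
  have hp : p.Prime := Fact.out
  obtain ⟨P⟩ : Nonempty (Sylow p G) := inferInstance
  have h1 : (Nat.card G).factorization p = 1 := by
    have h2 := (hp.pow_dvd_iff_le_factorization Nat.card_pos.ne').not.1 hsq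
    have h3 := hp.factorization_pos_of_dvd Nat.card_pos.ne' hdiv
    omega
  obtain ⟨A, _, _, ι, H, -⟩ := exists_primeSyl (isSylowIn_sylow P)
    (by rw [P.card_eq_multiplicity, h1, pow_one])
  obtain ⟨b, X, Y, δ, δ₀, ξ, O⟩ := H.exists_oneStr_of_defect hM rfl hB hd.ne'
  have := H.isCyclic
  have := H.nontrivial
  have T := O.cyc
  have h0 : ordCompl[p] (Nat.card G) ≠ 0 := (Nat.ordCompl_pos p Nat.card_pos.ne').ne'
  have hfix : ∀ σ : ℂ ≃+* ℂ, σ (zeta (ordCompl[p] (Nat.card G))) = zeta _ →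
      ∀ ζ : ℂ, ζ ^ ordCompl[p] (Nat.card G) = 1 → (σ : ℂ →+* ℂ) ζ = ζ := fun σ h ζ hζ =>
    (ringHom_pow_of_zeta (σ : ℂ →+* ℂ) (k := 1) h0 (by rwa [pow_one]) hζ).trans (pow_one ζ)
  have hX : B \ Set.range Y = X := by
    rw [T.eq_union, Set.union_sdiff_cancel_right T.disjoint.le_bot]
  have hc := T.card_range_mul O.ab
  rw [H.card] at hc
  have hne : Nonempty (HatNe A) := (Nat.card_ne_zero.1 (by
    rw [card_hatNe, H.card]; exact (Nat.sub_pos_of_lt hp.one_lt).ne')).1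
  refine ⟨Set.range Y, Set.range_subset_iff.2 T.mem, Set.range_nonempty Y, ?_,
    fun χ hχ hχ' ψ ⟨σ, hσ, h⟩ => Subtype.ext (h.trans (funext fun g => ?_)), Dvd.intro _ hc, ?_,
    fun χ => if χ ∈ X then δ χ else δ₀, fun χ _ => ?_, ?_⟩
  · rintro _ ⟨l, rfl⟩ ψ
    constructor
    · rintro ⟨σ, hσ, h⟩
      exact ⟨l.gal σ, Subtype.ext (funext fun g => by
        rw [h, ← T.gal_Y O.ab (hfix σ hσ)]; rfl)⟩
    · rintro ⟨m, rfl⟩
      obtain ⟨σ, hσ, rfl⟩ := l.exists_gal_eq H.card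
        (Nat.not_dvd_ordCompl hp (Nat.card_pos (α := G)).ne') m
      exact ⟨σ, hσ _ (zeta_pow_self h0), funext fun g => (T.gal_Y O.ab hσ l g).symm⟩
  · exact T.gal_X O.ab (hfix σ hσ) (hX ▸ ⟨hχ, hχ'⟩) g
  · rw [T.card_eq O.ab, ← T.card_range O.ab, ← hc, Nat.mul_div_cancel_left, add_comm]
    exact Nat.pos_of_mul_pos_right (hc ▸ Nat.sub_pos_of_lt hp.one_lt)
  · beta_reduce
    split_ifs with h
    · exact T.sign χ h
    · exact T.sign₀
  · rintro x hx _ ⟨l, rfl⟩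
    beta_reduce
    rw [hX, finsum_mem_eq_sum_bset, if_neg (T.not_mem l), add_comm,
      Finset.sum_congr rfl fun χ hχ => by rw [if_pos (mem_bset.1 hχ)]]
    exact T.reg l x hx

end Cfsg.Agent.S4507
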