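import Cfsg.Statements.S4508
import Cfsg.Agent.Lib.Block.OneSelf

set_option autoImplicit false
open Cfsg

namespace Cfsg.Agent.S4508

open CT GT BT Cfsg

/-- Let the finite group G contain an element x of prime order p with C_G(x) = ⟨x⟩, and let t be the number of conjugacy classes of elements of order p. If G has an irreducible character of degree p − 1, then t is even or the commutator subgroup has even index. -/
theorem result {G : Type*} [Group G] [Finite G] (p : ℕ) (hp : p.Prime) (x : G) (hx : orderOf x = p) (hC : Subgroup.centralizer ({x} : Set G) = Subgroup.zpowers x) (t : ℕ) (ht : Nat.card {C : ConjClasses G // ∃ g ∈ C.carrier, orderOf g = p} = t) (χ : Cfsg.IrrCharacter G) (hχ : Cfsg.charDegree (χ : G → ℂ) + 1 = p) : Even t ∨ Even (commutator G).index := by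
  have := Fact.mk hp
  have S : SelfCentP p x := ⟨hx, hC⟩
  have h1 := S.classes_mul
  rw [ht] at h1
  by_cases h2 : (Subgroup.zpowers x).relIndex (Subgroup.normalizer (Subgroup.zpowers x : Set G)) = 1
  · rcases hp.eq_two_or_odd' with rfl | h
    · right
      rw [S.commutator_eq_of_eq h2, S.index_pPrimeCore_of_eq h2]
      exact even_two
    · left
      rw [h2, mul_one] at h1
      rw [h1]
      exact Nat.Odd.sub_odd h odd_one
  by_contra h
  rw [not_or, Nat.not_even_iff_odd, Nat.not_even_iff_odd] at h
  obtain ⟨A, _, _, ι, H, hr, hc, he⟩ := exists_primeSyl_of_selfCentP S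
  rw [← he] at h1 h2
  have := Fintype.ofFinite A
  obtain ⟨X, Y, δ, δ₀, T, -⟩ := H.exists_pb
  have h0 := H.card_autN_pos
  have h3 : Even (Nat.card (autN ι)) := by
    rcases hp.eq_two_or_odd' with rfl | h4
    · exact absurd (Nat.eq_one_of_mul_eq_one_left h1) h2
    · have h5 : Even (t * Nat.card (autN ι)) := h1 ▸ Nat.Odd.sub_odd h4 odd_one
      exact (Nat.even_mul.1 h5).resolve_left (Nat.not_even_iff_odd.2 h.1)
  have hd : (charDegree χ.1 : ℂ) + 1 = p := by exact_mod_cast hχ
  have h4 : ∑ u, χ.1 (ι u) = 0 := by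
    rw [H.sum_eq fun u hu => T.apply_eq_neg_one hc.le h2 hχ hu, map_one, irr_apply_one, ← hd]
    ring
  obtain ⟨g, hg, hr, hk, -⟩ := H.exists_gen
  have h5 := detChar_of_regular (irr_isCharacter χ) (g := g) (t := t) h0.ne' h3 fun k => by
    split_ifs with h6
    · rw [H.eq_one_of_mem_range (hc.le ((hk k).2 h6)) (IsPRegular.pow hr k), irr_apply_one, h1]
      congr 1
      omega
    · have h7 := (irr_isCharacter χ).sum_coset_eq_zero ι h4 (g ^ k)
      rw [H.card_mul_apply (irr_isClassFunction χ) (pow_mem hg k) (mt (hk k).1 h6)] at h7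
      exact (mul_eq_zero.1 h7).resolve_left (Nat.cast_ne_zero.2 hp.ne_zero)
  have h6 := (detOrder_dvd_iff χ.1 _).1 (detOrder_dvd_index_commutator χ.1) g
  rw [h5, h.1.neg_one_pow, h.2.neg_one_pow] at h6
  norm_num at h6
end Cfsg.Agent.S4508
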