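import Cfsg.Statements.S4509
import Cfsg.Agent.Lib.Grp.SelfCentP

set_option autoImplicit false
open Cfsg

namespace Cfsg.Agent.S4509

/-- Let the finite group G contain an element x of prime order p with C_G(x) = ⟨x⟩; let t be the number of conjugacy classes of elements of order p and 1 + n·p the number of subgroups of order p. Then G has a normal subgroup of order 1 + n·p if and only if either t = p − 1, or t < p − 1 and G″ ≠ G′. Moreover, if t = p − 1 then G′ has order 1 + n·p and G/G′ is cyclic of order p; and if t < p − 1 and G″ ≠ G′ then G″ has order 1 + n·p and G′ has order p·(1 + n·p). -/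
theorem result {G : Type*} [Group G] [Finite G] (p : ℕ) (hp : p.Prime) (x : G) (hx : orderOf x = p) (hC : Subgroup.centralizer ({x} : Set G) = Subgroup.zpowers x) (t : ℕ) (ht : Nat.card {C : ConjClasses G // ∃ g ∈ C.carrier, orderOf g = p} = t) (n : ℕ) (hn : Nat.card {H : Subgroup G // Nat.card H = p} = 1 + n * p) : ((∃ S : Subgroup G, S.Normal ∧ Nat.card S = 1 + n * p) ↔ (t = p - 1 ∨ (t < p - 1 ∧ derivedSeries G 2 ≠ derivedSeries G 1))) ∧ (t = p - 1 → Nat.card (commutator G) = 1 + n * p ∧ IsCyclic (G ⧸ commutator G) ∧ (commutator G).index = p) ∧ (t < p - 1 → derivedSeries G 2 ≠ derivedSeries G 1 → Nat.card (derivedSeries G 2) = 1 + n * p ∧ Nat.card (commutator G) = p * (1 + n * p)) := by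
  have := Fact.mk hp
  have S : GT.SelfCentP p x := ⟨hx, hC⟩
  have h := S.classes_mul
  rw [ht] at h
  have h2 := hp.two_le
  rw [S.card_subgroups] at hn
  have he := GT.relIndex_pos (Subgroup.zpowers x) (Subgroup.normalizer (Subgroup.zpowers x : Set G))
  have hO := GT.not_dvd_card_pPrimeCore p G
  have hG : Nat.card G = p * (Subgroup.zpowers x).relIndex
      (Subgroup.normalizer (Subgroup.zpowers x : Set G)) * (1 + n * p) := by
    rw [← hn, ← (Subgroup.normalizer (Subgroup.zpowers x : Set G)).card_mul_index,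
      ← GT.card_mul_relIndex Subgroup.le_normalizer, S.card_zp]
  have hd1 : derivedSeries G 1 = commutator G := derivedSeries_one G
  have hd2 : derivedSeries G 2 = ⁅commutator G, commutator G⁆ := by
    rw [derivedSeries_succ, hd1]
  have hA : t = p - 1 → Nat.card (commutator G) = 1 + n * p ∧ IsCyclic (G ⧸ commutator G) ∧
      (commutator G).index = p := by
    intro h1
    have h0 : (Subgroup.zpowers x).relIndex (Subgroup.normalizer (Subgroup.zpowers x : Set G)) = 1 := by
      rw [h1] at h
      exact Nat.eq_of_mul_eq_mul_left (by omega) (h.trans (mul_one _).symm)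
    have h3 : (commutator G).index = p := by
      rw [S.commutator_eq_of_eq h0, S.index_pPrimeCore_of_eq h0]
    refine ⟨?_, isCyclic_of_prime_card h3, h3⟩
    have h4 := (commutator G).card_mul_index
    rw [h3, hG, h0, mul_one, mul_comm] at h4
    exact Nat.eq_of_mul_eq_mul_left hp.pos h4
  have hB : t < p - 1 → derivedSeries G 2 ≠ derivedSeries G 1 →
      Nat.card (derivedSeries G 2) = 1 + n * p ∧ Nat.card (commutator G) = p * (1 + n * p) := by
    intro h1 h3
    have h0 : (Subgroup.zpowers x).relIndex (Subgroup.normalizer (Subgroup.zpowers x : Set G)) ≠ 1 :=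
      fun h0 => h1.ne (by rw [← h, h0, mul_one])
    have hx1 := S.le_commutator_of_ne h0
    rw [hd1, hd2] at h3
    have hle : ⁅commutator G, commutator G⁆ ≤ commutator G := Subgroup.commutator_le_left _ _
    have h4 : ⁅commutator G, commutator G⁆ ≤ pPrimeCore p G := by
      rcases S.normal_commutator h0 (⁅commutator G, commutator G⁆.subgroupOf (commutator G)) with h4 | h4
      · exact fun y hy => h4 (x := ⟨y, hle hy⟩) hy
      · exact absurd (le_antisymm hle (Subgroup.subgroupOf_eq_top.1 h4)) h3
    have h5 : ⁅commutator G, commutator G⁆ = pPrimeCore p G := by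
      refine le_antisymm h4 ?_
      rw [← S.eq_commutator hO]
      exact Subgroup.commutator_mono (S.le_commutator hO) hx1
    have h6 : Subgroup.zpowers x ⊔ pPrimeCore p G = commutator G := by
      refine le_antisymm (sup_le hx1 (S.le_commutator hO)) ?_
      have : ((Subgroup.zpowers x ⊔ pPrimeCore p G).subgroupOf (commutator G)).Normal := by
        refine ⟨fun a ha b => ?_⟩
        have h7 : (b : G) * a * b⁻¹ * a⁻¹ ∈ pPrimeCore p G :=
          h4 (Subgroup.commutator_mem_commutator b.2 a.2)
        have := mul_mem (Subgroup.mem_sup_right (S := Subgroup.zpowers x) h7) ha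
        simpa [Subgroup.mem_subgroupOf] using this
      rcases S.normal_commutator h0 ((Subgroup.zpowers x ⊔ pPrimeCore p G).subgroupOf
        (commutator G)) with h7 | h7
      · exact absurd (hx ▸ dvd_rfl) (GT.isPRegular_of_mem_pPrimeCore (g := x)
          (h7 (x := ⟨x, hx1 (Subgroup.mem_zpowers x)⟩)
            (Subgroup.mem_sup_left (Subgroup.mem_zpowers x))))
      · exact Subgroup.subgroupOf_eq_top.1 h7
    have h7 : pPrimeCore p G ⊔ Subgroup.normalizer (Subgroup.zpowers x : Set G) = ⊤ := by
      rw [← (S.sylow.of_le hx1 le_top).frattini_top, ← h6, sup_comm (Subgroup.zpowers x), sup_assoc,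
        sup_eq_right.2 Subgroup.le_normalizer]
    have h8 : Nat.card (pPrimeCore p G) = 1 + n * p := by
      rw [← hn]
      exact (GT.isComplement'_of_disjoint_of_sup_eq_top
        (disjoint_iff.2 (S.inf_normalizer_eq_bot hO)) h7).index_eq_card.symm
    refine ⟨by rw [hd2, h5, h8], ?_⟩
    rw [← h6, GT.card_sup_of_disjoint (GT.disjoint_of_isPGroup_of_not_dvd S.pgroup hO), S.card_zp, h8]
  refine ⟨⟨?_, ?_⟩, hA, hB⟩
  · rintro ⟨K, hK, hK1⟩
    have ht' : t ≤ p - 1 := h ▸ Nat.le_mul_of_pos_right _ he
    rcases ht'.eq_or_lt with h1 | h1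
    · exact Or.inl h1
    refine Or.inr ⟨h1, fun h3 => ?_⟩
    have h0 : (Subgroup.zpowers x).relIndex (Subgroup.normalizer (Subgroup.zpowers x : Set G)) ≠ 1 :=
      fun h0 => h1.ne (by rw [← h, h0, mul_one])
    have hx1 := S.le_commutator_of_ne h0
    have hKp : ¬ p ∣ Nat.card K := by
      rw [hK1]
      intro h4
      exact hp.one_lt.ne' (Nat.dvd_one.1 ((Nat.dvd_add_left (dvd_mul_left p n)).1 h4))
    have h4 : Subgroup.normalizer (Subgroup.zpowers x : Set G) ⊔ K = ⊤ := by
      rw [← Subgroup.card_eq_iff_eq_top, GT.card_sup_of_disjoint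
        (disjoint_iff.2 (S.inf_normalizer_eq_bot hKp)).symm, hK1, ← hn, Subgroup.card_mul_index]
    have h5 : (commutator G).map (QuotientGroup.mk' K) ≤
        (Subgroup.zpowers x).map (QuotientGroup.mk' K) := by
      rw [commutator_def, Subgroup.map_commutator,
        Subgroup.map_top_of_surjective _ (QuotientGroup.mk'_surjective _),
        ← GT.map_mk'_eq_top_iff.2 h4, ← Subgroup.map_commutator]
      exact Subgroup.map_mono S.commutator_normalizer_le
    have h6 : ⁅commutator G, commutator G⁆ ≤ K := by
      rw [← GT.map_mk'_eq_bot_iff, Subgroup.map_commutator, ← le_bot_iff]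
      refine (Subgroup.commutator_mono h5 h5).trans ?_
      rw [← Subgroup.map_commutator, le_bot_iff,
        Subgroup.commutator_eq_bot_iff_le_centralizer.2 S.cent'.ge, Subgroup.map_bot]
    rw [hd1, hd2] at h3
    rw [h3] at h6
    exact hKp (S.card_zp ▸ Subgroup.card_dvd_of_le (hx1.trans h6))
  · rintro (h1 | ⟨h1, h3⟩)
    · exact ⟨_, inferInstance, (hA h1).1⟩
    · exact ⟨_, inferInstance, (hB h1 h3).1⟩

end Cfsg.Agent.S4509
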