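import Cfsg.Statements.S4510
import Cfsg.Agent.Lib.Block.CentralDef

set_option autoImplicit false
open Cfsg

namespace Cfsg.Agent.S4510

open CT BT
open scoped MonoidAlgebra ComplexConjugate

/-- Let G be a finite group, p a prime, M a maximal ideal of the algebraic integers containing p, and call the defect of a conjugacy class the exponent of p in the order of the centralizer of its elements. Two irreducible characters lying in p-blocks of defect exactly d lie in the same block if and only if their central characters (class size times χ(x)/χ(1)) agree modulo the local ideal at M at every p-regular element x whose class has defect exactly d. -/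
theorem result {G : Type*} [Group G] [Finite G] (p : ℕ) [Fact p.Prime] (M : Ideal Cfsg.AlgInt) (hM : Cfsg.IsPModular p M) (d : ℕ) (χ ψ : Cfsg.IrrCharacter G) (hχ : Cfsg.blockDefect p (Cfsg.blockOf M (χ : G → ℂ)) = d) (hψ : Cfsg.blockDefect p (Cfsg.blockOf M (ψ : G → ℂ)) = d) : Cfsg.SameBlock M (χ : G → ℂ) (ψ : G → ℂ) ↔ ∀ x : G, ¬ p ∣ orderOf x → (Nat.card (Subgroup.centralizer ({x} : Set G))).factorization p = d → Cfsg.MemLocalIdeal M (Cfsg.centralChar (χ : G → ℂ) x - Cfsg.centralChar (ψ : G → ℂ) x) := by
  classical
  refine ⟨fun h x _ _ => h x, fun h => ?_⟩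
  have := Fintype.ofFinite (ConjClasses G)
  have hB := isPBlock_blockOf (M := M) χ
  have hB' := isPBlock_blockOf (M := M) ψ
  have h1 : lam hM χ.1 (idem hM (blockOf M χ.1)) = lam hM ψ.1 (idem hM (blockOf M χ.1)) := by
    rw [lam_def, lam_def]
    refine Finset.sum_congr rfl fun c _ => ?_
    by_contra hne
    have key : ¬ p ∣ orderOf (Quotient.out c : G) ∧ (Nat.card (Subgroup.centralizer
        ({Quotient.out c} : Set G))).factorization p = d := by
      by_cases h0 : (idem hM (blockOf M χ.1)).coeff (Quotient.out c) *
          red hM (centralChar χ.1 (Quotient.out c)) = 0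
      · have := defect_of_coeff_mul_ne_zero hM hB' hB (mem_blockOf_self hM ψ)
          (x := Quotient.out c) (by rw [← h0]; exact Ne.symm hne)
        exact ⟨this.1, by omega⟩
      · have := defect_of_coeff_mul_ne_zero hM hB hB (mem_blockOf_self hM χ) h0
        exact ⟨this.1, by omega⟩
    exact hne (by rw [(red_eq_iff hM (centralChar_mem_locRing hM χ _)
      (centralChar_mem_locRing hM ψ _)).2 (h _ key.1 key.2)])
  rw [lam_idem_of_mem hM hB (mem_blockOf_self hM χ), lam_idem hM hB] at h1
  by_contra hn
  rw [if_neg (show ψ ∉ blockOf M χ.1 from hn)] at h1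
  exact one_ne_zero h1

end Cfsg.Agent.S4510
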