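import Cfsg.Statements.S4512
import Cfsg.Agent.Lib.Block.Klein

set_option autoImplicit false
open Cfsg

namespace Cfsg.Agent.S4512

open CT BT GT
open scoped ComplexConjugate


/-- If G is a finite group with a Sylow 2-subgroup that is a Klein four-group and a single conjugacy class of involutions, then its principal 2-block (relative to a maximal ideal M of the algebraic integers containing 2) has 2-regular rank 3: the restrictions of its irreducible characters to the elements of odd order span a space of dimension 3 (it has three irreducible Brauer characters). -/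
theorem result {G : Type*} [Group G] [Finite G] (M : Ideal Cfsg.AlgInt) (hM : Cfsg.IsPModular 2 M) (P : Sylow 2 G)
    (hP : Nat.card P = 4) (hexp : ∀ x : P, x * x = 1)
    (hone : ∀ s t : G, orderOf s = 2 → orderOf t = 2 → IsConj s t) :
    Cfsg.blockRank 2 (Cfsg.principalBlock M G) = 3 := by
  have hnt : Nontrivial P := Finite.one_lt_card_iff_nontrivial.1 (by omega)
  have hV : IsKleinFour (P : Subgroup G) :=
    ⟨hP, (Monoid.exponent_eq_prime_iff Nat.prime_two).2 fun g hg =>
      orderOf_eq_prime (by rw [pow_two]; exact hexp g) hg⟩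
  obtain ⟨m, hm, hQ⟩ := exists_maxP (hM := hM) isPBlock_principalBlock
    ((isDefectGroup_principal_iff hM _).2 ⟨P, rfl⟩)
  have hV' : IsKleinFour m.Q := hQ ▸ hV
  obtain ⟨-, h2, h3, -⟩ := hm.klein
  rcases h2 with h2 | h2
  swap
  · rw [h3, h2]
  exfalso
  have h4 := hasNormalPComplement_of_blockRank_principal hM (h3.trans h2)
  obtain ⟨s, hs⟩ := exists_ne (1 : (P : Subgroup G))
  obtain ⟨t, ht1, hts⟩ : ∃ t : (P : Subgroup G), t ≠ 1 ∧ t ≠ s := by
    classical
    have := Fintype.ofFinite (P : Subgroup G)
    obtain ⟨t, -, ht⟩ := Finset.exists_mem_notMem_of_card_lt_card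
      (s := ({1, s} : Finset (P : Subgroup G))) (t := Finset.univ) (by
        rw [Finset.card_univ, ← Nat.card_eq_fintype_card, hP]
        exact lt_of_le_of_lt Finset.card_le_two (by norm_num))
    simp only [Finset.mem_insert, Finset.mem_singleton, not_or] at ht
    exact ⟨t, ht⟩
  have ho : ∀ x : (P : Subgroup G), x ≠ 1 → orderOf (x : G) = 2 := fun x hx => by
    rw [Subgroup.orderOf_coe]
    exact orderOf_eq_prime (by rw [pow_two]; exact hexp x) hx
  obtain ⟨g, hg⟩ := isConj_iff.1 (hone s t (ho s hs) (ho t ht1))
  obtain ⟨u, hu, h5⟩ := exists_conj_eq_of_hasNormalPComplement h4 P s.2 (hg ▸ t.2)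
  rw [hg, ← le_centralizer_of_klein (P : Subgroup G) hu s s.2, mul_inv_cancel_right] at h5
  exact hts (Subtype.ext h5.symm)

end Cfsg.Agent.S4512
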