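import Cfsg.Statements.S4513
import Cfsg.Agent.Lib.Block.Klein

set_option autoImplicit false
open Cfsg

namespace Cfsg.Agent.S4513

open CT BT GT
open scoped ComplexConjugate


/-- Blocks of defect one for p = 2. Let M be a maximal ideal of the algebraic integers containing 2, B a 2-block of the finite group G whose defect group is the subgroup generated by an involution x, C = C_G(x), b a block of C inducing B and θ a member of b taking the same value at x as at 1 (there is exactly one). Then B consists of exactly two irreducible characters, which agree on every element of odd order, and they can be labelled χ₁, χ₂ with signs ε₁, ε₂ = ±1, ε₁ε₂ = −1, such that χᵢ(x y) = εᵢ θ(y) for every element y of C of odd order. -/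
theorem result {G : Type*} [Group G] [Finite G] (M : Ideal Cfsg.AlgInt) (hM : Cfsg.IsPModular 2 M) (x : G) (hx : orderOf x = 2)
    (B : Set (Cfsg.IrrCharacter G)) (hB : Cfsg.IsPBlock M B) (hBD : Cfsg.IsDefectGroup 2 M B (Subgroup.zpowers x))
    (b : Set (Cfsg.IrrCharacter ↥(Subgroup.centralizer ({x} : Set G)))) (hb : Cfsg.IsInducedBlock M (Subgroup.centralizer ({x} : Set G)) b B)
    (θ : Cfsg.IrrCharacter ↥(Subgroup.centralizer ({x} : Set G))) (hθ : θ ∈ b)
    (hθx : ∀ z : ↥(Subgroup.centralizer ({x} : Set G)), (z : G) = x → (θ : ↥(Subgroup.centralizer ({x} : Set G)) → ℂ) z = (θ : ↥(Subgroup.centralizer ({x} : Set G)) → ℂ) 1) :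
    Nat.card B = 2 ∧ (∀ χ ∈ B, ∀ ψ ∈ B, ∀ g : G, ¬ 2 ∣ orderOf g → (χ : G → ℂ) g = (ψ : G → ℂ) g) ∧
      ∃ χ₁ ∈ B, ∃ χ₂ ∈ B, χ₁ ≠ χ₂ ∧ ∃ ε₁ ε₂ : ℤ, (ε₁ = 1 ∨ ε₁ = -1) ∧ (ε₂ = 1 ∨ ε₂ = -1) ∧ ε₁ * ε₂ = -1 ∧
        ∀ y : ↥(Subgroup.centralizer ({x} : Set G)), ¬ 2 ∣ orderOf y →
          (χ₁ : G → ℂ) (x * y) = (ε₁ : ℂ) * (θ : ↥(Subgroup.centralizer ({x} : Set G)) → ℂ) y ∧ (χ₂ : G → ℂ) (x * y) = (ε₂ : ℂ) * (θ : ↥(Subgroup.centralizer ({x} : Set G)) → ℂ) y := by
  classical
  revert b θ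
  generalize hC' : Subgroup.centralizer ({x} : Set G) = C
  intro b hb θ hθ hθx
  have hC := hC'.symm
  have hu : IsPElt 2 x := ⟨1, by rw [hx, pow_one]⟩
  have hxx : x * x = 1 := by rw [← pow_two, ← hx, pow_orderOf_eq_one]
  have hQ : IsPGroup 2 (Subgroup.zpowers x) := hu.isPGroup_zpowers
  have hxC : x ∈ C := mem_of_eq_centralizer hC
  have hQC : Subgroup.zpowers x ≤ C := by rwa [Subgroup.zpowers_le]
  have hCC : Subgroup.centralizer (Subgroup.zpowers x : Set G) = C :=
    (centralizer_zpowers_eq' x).trans hC'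
  have hN : Subgroup.normalizer (Subgroup.zpowers x : Set G) = C := by
    refine le_antisymm (fun g hg => ?_) (hCC ▸ Subgroup.centralizer_le_normalizer _)
    have h1 := conj_mem_of_mem_normalizer hg (Subgroup.mem_zpowers x)
    rw [mem_zpowers_iff_mem_range_orderOf, hx, Finset.mem_image] at h1
    obtain ⟨i, hi, h1⟩ := h1
    have hx1 : x ≠ 1 := by rintro rfl; simp at hx
    rw [Finset.mem_range] at hi
    interval_cases i
    · exact absurd (by simpa using h1.symm) hx1
    · rw [pow_one, eq_mul_inv_iff_mul_eq] at h1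
      exact hC' ▸ Subgroup.mem_centralizer_singleton_iff.2 h1.symm
  have hdB : blockDefect 2 B = 1 := by
    have := card_defectGroup hM hB hBD
    rw [Nat.card_zpowers, hx] at this
    exact (Nat.pow_right_injective le_rfl ((pow_one 2).trans this)).symm
  -- every block of `C` inducing `B` is the Brauer correspondent
  have hfm := first_main_br hM (bIdem_top_idem hM hB) (defGrp_of_isDefectGroup hM hB hBD)
  rw [top_inf_eq, hN] at hfm
  have huniq : ∀ b' : Set (IrrCharacter C), IsInducedBlock M C b' B →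
      sidem hM C b' = br (Subgroup.zpowers x) (idem hM B) := fun b' hb' => by
    have h1 := (isInducedBlock_iff_br hM hQ hQC hCC.le hN.ge hb'.1 hB).1 hb'
    refine ((hfm.1.eq_or_mul_eq_zero (bIdem_sidem hM hb'.1)).resolve_right ?_).symm
    rw [h1]; exact (bIdem_sidem hM hb'.1).ne_zero
  have hbD : IsDefectGroup 2 M b ((Subgroup.zpowers x).subgroupOf C) :=
    (isDefectGroup_subgroupOf_iff_defGrp hM hb.1 hQC).2 (by rw [huniq b hb]; exact hfm.2)
  have hZc : (Subgroup.zpowers x).subgroupOf C ≤ Subgroup.center C := by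
    intro z hz
    rw [Subgroup.mem_center_iff]
    intro g
    exact Subtype.ext ((hCC.ge g.2) z (Subgroup.mem_subgroupOf.1 hz)).symm
  have hZn : ((Subgroup.zpowers x).subgroupOf C).Normal :=
    (Subgroup.normal_subgroupOf_iff_le_normalizer hQC).2 hN.ge
  have hZp := isPGroup_of_isDefectGroup hbD
  have hv : ∀ χ ∈ b, ∀ g, pPart 2 g ∉ (Subgroup.zpowers x).subgroupOf C → χ.1 g = 0 :=
    fun χ hχ g hg => apply_eq_zero_of_normal_defect hM hb.1 hbD hχ hg
  have hdb : blockDefect 2 b = 1 := by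
    have := card_defectGroup hM hb.1 hbD
    rw [card_subgroupOf_of_le hQC, Nat.card_zpowers, hx] at this
    exact (Nat.pow_right_injective le_rfl ((pow_one 2).trans this)).symm
  have hU : UniB 2 b (pRegularPart 2 θ.1) := fun ξ hξ =>
    pRegularPart_eq_of_central hM hb.1 hZp hZc hv hξ hθ
  have hcb : Nat.card b = 2 := by
    rw [(blockRank_eq_one_and_card_of_central hM hb.1 hZp hZc hv).2, hdb, pow_one]
  choose d hd using fun χ : IrrCharacter G =>
    exists_int_udec (b := b) hC (irr_isCharacter χ).isGen hxx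
  have h1 := hU.sum_udec_mul_conj hC hM hu hb
  simp only [hd, map_intCast, hcb] at h1
  obtain ⟨h2, h3⟩ := sign_of_sum_mul_self (s := bset B) (f := d) (q := 2) (fun χ hχ h0 =>
    hU.udec_ne_zero hC hM hu hb (hdb.trans hdB.symm) (mem_bset.1 hχ) (by rw [hd, h0, Int.cast_zero]))
    (by exact_mod_cast h1) (by omega)
  obtain ⟨χ₁, χ₂, hne, h4⟩ := Finset.card_eq_two.1 h2
  have hm1 : χ₁ ∈ bset B := by rw [h4]; simp
  have hm2 : χ₂ ∈ bset B := by rw [h4]; simp
  have h5 : ∀ g, ¬ 2 ∣ orderOf g → d χ₁ * χ₁.1 g + d χ₂ * χ₂.1 g = 0 := fun g hg => by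
    have := hU.sum_conj_udec_mul_of_not_isConj hC hM hu hb (g := g) (by
      rw [pPart_eq_one_iff.2 hg, isConj_one_left]; rintro rfl; simp at hx)
    rwa [h4, Finset.sum_pair hne, hd, hd, map_intCast, map_intCast] at this
  have h6 : d χ₁ * d χ₂ = -1 := by
    have h7 := h5 1 not_dvd_orderOf_one
    rw [irr_apply_one, irr_apply_one] at h7
    have h8 : d χ₁ * charDegree χ₁.1 + d χ₂ * charDegree χ₂.1 = 0 := by exact_mod_cast h7
    have := irr_degree_pos χ₁
    have := irr_degree_pos χ₂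
    rcases h3 χ₁ hm1 with h | h <;> rcases h3 χ₂ hm2 with h' | h' <;> rw [h, h'] at h8 ⊢ <;> omega
  have h7 : ∀ g, ¬ 2 ∣ orderOf g → χ₁.1 g = χ₂.1 g := fun g hg => by
    have h8 := h5 g hg
    rcases h3 χ₁ hm1 with h | h <;> rcases h3 χ₂ hm2 with h' | h' <;> rw [h, h'] at h8 h6
    · omega
    · push_cast at h8; linear_combination h8
    · push_cast at h8; linear_combination -h8
    · omega
  have h8 : ∀ χ ∈ B, ∀ y : C, ¬ 2 ∣ orderOf y → χ.1 (x * y) = d χ * θ.1 y := by
    intro χ hχ y hy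
    rw [irr_apply_mul_eq_sum_blocks hM hC hu hB hχ hy, Finset.sum_eq_single ⟨b, hb.1⟩, if_pos hb,
      ← subsec_apply_of_not_dvd _ hy, hU.subsec_eq, hd, Pi.smul_apply,
      pRegularPart_of_not_dvd _ hy, smul_eq_mul]
    · intro b' _ hne
      exact if_neg fun hb' => hne (Subtype.ext (sidem_injective hM hb'.1 hb.1
        ((huniq _ hb').trans (huniq _ hb).symm)))
    · exact fun h => absurd (Finset.mem_univ _) h
  refine ⟨by rw [← card_bset, h2], fun χ hχ ψ hψ g hg => ?_, χ₁, mem_bset.1 hm1, χ₂,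
    mem_bset.1 hm2, hne, d χ₁, d χ₂, h3 _ hm1, h3 _ hm2, h6,
    fun y hy => ⟨h8 _ (mem_bset.1 hm1) y hy, h8 _ (mem_bset.1 hm2) y hy⟩⟩
  rw [← mem_bset, h4, Finset.mem_insert, Finset.mem_singleton] at hχ hψ
  rcases hχ with rfl | rfl <;> rcases hψ with rfl | rfl
  exacts [rfl, h7 g hg, (h7 g hg).symm, rfl]

end Cfsg.Agent.S4513
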