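import Cfsg.Statements.S4633
import Cfsg.Agent.Lib.Block.PairsLoc

set_option autoImplicit false
open Cfsg

namespace Cfsg.Agent.S4633

open BT CT GT
open scoped MonoidAlgebra Pointwise

/-- Let B be a block of the finite group G relative to a maximal ideal M of the algebraic integers containing the prime p, with a nontrivial cyclic defect group P. Let c be a block of C_G(P) inducing B and T the stabilizer of c in N_G(P) (the elements of N_G(P) conjugating c to itself); T contains C_G(P). Then T/C_G(P) is cyclic of order dividing p − 1, and it acts freely on the non-identity elements of P: an element of T fixing some non-identity element of P under conjugation lies in C_G(P). -/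
theorem result {G : Type*} [Group G] [Finite G] (p : ℕ) [Fact p.Prime] (M : Ideal Cfsg.AlgInt) (hM : Cfsg.IsPModular p M) (B : Set (Cfsg.IrrCharacter G)) (hB : Cfsg.IsPBlock M B) (P : Subgroup G) (hPD : Cfsg.IsDefectGroup p M B P) (hP1 : P ≠ ⊥) (hcyc : IsCyclic P) (c : Set (Cfsg.IrrCharacter (Subgroup.centralizer (P : Set G)))) (hc : Cfsg.IsInducedBlock M (Subgroup.centralizer (P : Set G)) c B) (T : Subgroup G) (hT : ∀ g : G, g ∈ T ↔ (g ∈ Subgroup.normalizer (P : Set G) ∧ Cfsg.StabilizesBlock (Subgroup.centralizer (P : Set G)) c g)) [hn : ((Subgroup.centralizer (P : Set G)).subgroupOf T).Normal] : IsCyclic (T ⧸ (Subgroup.centralizer (P : Set G)).subgroupOf T) ∧ (Subgroup.centralizer (P : Set G)).relIndex T ∣ p - 1 ∧ ∀ g ∈ T, ∀ x ∈ P, x ≠ 1 → g * x * g⁻¹ = x → g ∈ Subgroup.centralizer (P : Set G) := by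
  have hP := isPGroup_of_isDefectGroup hPD
  have hmax := (isMaximalBrauerPair_iff_isDefectGroup hM).2
    ⟨(isBrauerPairOf_iff_isInducedBlock hM hP).2 hc, hPD⟩
  have h := IsMaximalBrauerPair.maxBP' hM hmax
  obtain rfl := eq_NP_of_forall hM hc.1 hT
  have hfree : ∀ g ∈ NP ⊤ P (sidem hM _ c), ∀ x ∈ P, x ≠ 1 → g * x * g⁻¹ = x →
      g ∈ Subgroup.centralizer (P : Set G) := fun g hg x hx hx1 hgx =>
    h.mem_centralizer_of_isCyclic hM hg hx hx1 hgx
  obtain ⟨k, hk⟩ := hP.exists_card_eq
  have hdvd : p ∣ Nat.card P := by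
    rw [hk]
    refine dvd_pow_self p fun h0 => hP1 ?_
    rw [h0, pow_zero] at hk
    exact Subgroup.card_eq_one.1 hk
  obtain ⟨x, hx, hx1, hxp⟩ := exists_mem_pow_eq_one hdvd
  have hle : NP ⊤ P (sidem hM _ c) ≤
      Subgroup.normalizer ((Subgroup.zpowers x : Subgroup G) : Set G) :=
    NP_le_normalizer.trans (normalizer_le_normalizer_of_le_isCyclic (Subgroup.zpowers_le.2 hx))
  let φ := (Subgroup.zpowers x).normalizerMonoidHom.comp (Subgroup.inclusion hle)
  have hker : φ.ker = (Subgroup.centralizer (P : Set G)).subgroupOf (NP ⊤ P (sidem hM _ c)) := by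
    ext g
    rw [MonoidHom.mem_ker, Subgroup.mem_subgroupOf]
    constructor
    · intro hg
      have := congrArg Subtype.val
        (DFunLike.congr_fun hg (⟨x, Subgroup.mem_zpowers x⟩ : Subgroup.zpowers x))
      exact hfree g g.2 x hx hx1 this
    · intro hg
      refine MulEquiv.ext fun y => Subtype.ext ?_
      change (g : G) * y * (g : G)⁻¹ = y
      rw [← hg y (Subgroup.zpowers_le.2 hx y.2), mul_inv_cancel_right]
  have hcard := card_zpowers_of_pow_eq_one hxp hx1
  have hcyc' : IsCyclic (MulAut (Subgroup.zpowers x)) := by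
    have e := IsCyclic.mulAutMulEquiv (Subgroup.zpowers x)
    rw [hcard] at e
    exact isCyclic_of_injective e.toMonoidHom e.injective
  refine ⟨?_, ?_, hfree⟩
  · exact isCyclic_of_injective (QuotientGroup.lift _ φ hker.ge) (by
      rw [← MonoidHom.ker_eq_bot_iff, QuotientGroup.ker_lift, hker, QuotientGroup.map_mk'_self])
  · have h1 : Nat.card (MulAut (Subgroup.zpowers x)) = p - 1 := by
      rw [IsCyclic.card_mulAut, hcard, Nat.totient_prime Fact.out]
    rw [Subgroup.relIndex, ← hker, Subgroup.index_ker, ← h1]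
    exact Subgroup.card_subgroup_dvd_card _

end Cfsg.Agent.S4633
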