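import Cfsg.Statements.S4634
import Cfsg.Agent.Lib.Block.CycPerf
import Cfsg.Agent.Lib.Grp.PGrp
import Cfsg.Agent.Lib.Block.Fong
import Cfsg.Agent.Lib.Grp.Frob

set_option autoImplicit false
open Cfsg

namespace Cfsg.Agent.S4634

open CT BT GT

/-- Let B be a block of the finite group G relative to a maximal ideal M of the algebraic integers containing the prime p, with a nontrivial cyclic defect group P, let c be a block of C_G(P) inducing B, T the stabilizer of c in N_G(P) and e the index of C_G(P) in T. Let F be any finite group of order #P · e having a cyclic subgroup Q of order #P that is its own centralizer (F is then the semidirect product of Q by a cyclic group of order e acting faithfully). Then there is a perfect isometry from the set of all irreducible characters of F onto B whose signs agree on all the characters of F that do not contain Q in their kernel. -/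
theorem result {G : Type*} [Group G] [Finite G] (p : ℕ) [Fact p.Prime] (M : Ideal Cfsg.AlgInt) (hM : Cfsg.IsPModular p M) (B : Set (Cfsg.IrrCharacter G)) (hB : Cfsg.IsPBlock M B) (P : Subgroup G) (hPD : Cfsg.IsDefectGroup p M B P) (hP1 : P ≠ ⊥) (hcyc : IsCyclic P) (c : Set (Cfsg.IrrCharacter (Subgroup.centralizer (P : Set G)))) (hc : Cfsg.IsInducedBlock M (Subgroup.centralizer (P : Set G)) c B) (T : Subgroup G) (hT : ∀ g : G, g ∈ T ↔ (g ∈ Subgroup.normalizer (P : Set G) ∧ Cfsg.StabilizesBlock (Subgroup.centralizer (P : Set G)) c g)) (e : ℕ) (he : (Subgroup.centralizer (P : Set G)).relIndex T = e) (F : Type*) [Group F] [Finite F] (hF : Nat.card F = Nat.card P * e) (Q : Subgroup F) (hQ : IsCyclic Q) (hQcard : Nat.card Q = Nat.card P) (hQC : Subgroup.centralizer (Q : Set F) = Q) : ∃ (I : Cfsg.IrrCharacter F → Cfsg.IrrCharacter G) (ε : Cfsg.IrrCharacter F → ℤ), Cfsg.IsPerfectIsometry p M (Set.univ : Set (Cfsg.IrrCharacter F)) B I ε ∧ ∀ η η' : Cfsg.IrrCharacter F, (∃ x ∈ Q, (η : F → ℂ) x ≠ (η : F → ℂ) 1)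 → (∃ x ∈ Q, (η' : F → ℂ) x ≠ (η' : F → ℂ) 1) → ε η = ε η' := by
  classical
  have hp : p.Prime := Fact.out
  obtain ⟨A, _, _, _, ι, hι, rfl⟩ := exists_cyc_param hcyc
  have := nontrivial_of_range_ne_bot hP1
  have S := AbSet.of_induced hM hι hPD hc
  rw [eq_NP_of_forall hM hc.1 hT, ← card_inert hι] at he
  obtain ⟨κ, hκ, rfl⟩ := exists_param_of_card_eq hQ (S.card_range.symm.trans hQcard.symm)
  have hi : κ.range.index = e := Nat.eq_of_mul_eq_mul_left Nat.card_pos
    (by rw [Subgroup.card_mul_index, hF, hQcard])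
  have hQp : IsPGroup p κ.range := IsPGroup.of_card (by rw [hQcard, S.card_range, S.card_eq])
  have hS : IsSylowIn p κ.range ⊤ :=
    isSylowIn_top_iff'.2 ⟨hQp, hi ▸ he ▸ S.not_dvd_card_inert⟩
  have hlt : e < p := (Nat.le_of_dvd (Nat.sub_pos_of_lt hp.one_lt)
    (he ▸ S.card_inert_dvd)).trans_lt (Nat.sub_lt hp.pos one_pos)
  have hn : κ.range.Normal := by
    have h1 := card_sylow_modEq_one p F
    have h2 : Nat.card (Sylow p F) < p := (Nat.le_of_dvd
      (Nat.pos_of_ne_zero Subgroup.index_ne_zero_of_finite)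
      hS.toSylowTop.card_dvd_index).trans_lt (by rwa [hS.coe_toSylowTop, hi])
    have : Subsingleton (Sylow p F) :=
      Finite.card_le_one_iff_subsingleton.1 (h1.eq_of_lt_of_lt h2 hp.one_lt).le
    exact Sylow.normal_of_subsingleton hS.toSylowTop
  have hU : principalBlock M F = Set.univ := Set.eq_univ_of_forall fun χ => by
    obtain ⟨θ, hθ⟩ := exists_irr_liesUnder κ.range χ
    refine mem_principal_of_liesOver_of_centralizer_le hM hQp le_rfl hQC.le ?_ hθ
    rw [mem_principal_iff_of_isPSolvable hM (isPSolvable_of_isPGroup hQp)]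
    exact ((disjoint_of_isPGroup_of_not_dvd (hQp.to_subgroup ⊤)
      (not_dvd_card_pPrimeCore p _)).le_bot.trans' (le_inf le_top le_rfl)).trans bot_le
  obtain ⟨f, S'⟩ := exists_abSet hM hκ isPBlock_principalBlock
    ((isDefectGroup_principal_iff hM _).2 (isSylowIn_top_iff.1 hS))
  have hNP : NP ⊤ κ.range f = ⊤ := by rw [S'.NP_principal, Subgroup.normalizer_eq_top]
  have hE : inert κ f = inert ι (sidem hM _ c) := by
    have h1 : Nat.card (inert κ f) = Nat.card (inert ι (sidem hM _ c)) := by
      rw [card_inert hκ, hNP, hQC, Subgroup.relIndex_top_right, hi, he]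
    by_cases h2 : p = 2
    · have h3 : e = 1 := by have : 0 < e := he ▸ Nat.card_pos; omega
      rw [Subgroup.card_eq_one.1 (he.trans h3), Subgroup.card_eq_one.1 (h1.trans (he.trans h3))]
    · have : IsCyclic (ZMod (Nat.card A))ˣ := by
        rw [S.card_eq]
        exact ZMod.isCyclic_units_of_prime_pow p hp h2 _
      have : IsCyclic (MulAut A) :=
        isCyclic_of_surjective _ (IsCyclic.mulAutMulEquiv A).symm.surjective
      exact eq_of_card_eq_of_isCyclic (A := ⊤) le_top le_top h1
  rw [hU] at S'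
  obtain ⟨X, Y, δ, δ₀, c₁, T₁⟩ := S.exists_cycStr
  obtain ⟨X', Y', δ', δ₀', c₂, T₂⟩ := S'.exists_cycStr
  obtain ⟨I, ε, h⟩ := T₁.exists_perfectIsometry S T₂ S' hE
  refine ⟨I, ε, h, ?_⟩
  have := Fintype.ofFinite F
  have := Fintype.ofFinite κ.range
  let θ : F → ℂ := ∑ η : IrrCharacter F, ((ε η * charDegree (I η).1 : ℤ) : ℂ) • η.1
  have hθ : ∀ y, p ∣ orderOf y → θ y = 0 := fun y hy => by
    have h1 := ((h.2.2 1 y).2.2).resolve_left fun h' => h'.1 not_dvd_orderOf_one hy
    rw [signedBijectionKernel, finsum_mem_univ, finsum_eq_sum_of_fintype] at h1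
    simpa [θ, irr_apply_one] using h1
  have key : ∀ η : IrrCharacter F, (∃ x ∈ κ.range, η.1 x ≠ η.1 1) →
      ((Nat.card F * (ε η * charDegree (I η).1) : ℤ) : ℂ) = θ 1 * charDegree η.1 := by
    rintro η ⟨x, hx, hη⟩
    have h1 := ip_sum_irr_left (fun η => ((ε η * charDegree (I η).1 : ℤ) : ℂ)) η
    rw [Int.cast_mul, ← h1, ip_def, Int.cast_natCast, Nat.card_eq_fintype_card,
      mul_inv_cancel_left₀ (by simp), Finset.sum_eq_single 1 (fun g _ hg => ?_) (by simp),
      irr_apply_one, map_natCast]
    by_cases hgp : p ∣ orderOf g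
    · exact mul_eq_zero_of_left (hθ g hgp) _
    have h2 : ∀ n ∈ κ.range, n * g = g * n → n = 1 := by
      rintro _ ⟨u, rfl⟩ hu
      by_contra hu1
      obtain ⟨σ, hσ⟩ := exists_mulAut_of_mem_normalizer hκ (t := g)
        (by rw [Subgroup.normalizer_eq_top]; trivial)
      have h3 := S'.eq_one_of_apply_eq (mem_inert.2 ⟨g, by rw [hNP]; trivial, hσ⟩) (u := u)
        (fun h => hu1 (by rw [h, map_one])) (hκ (by rw [hσ, ← hu, mul_inv_cancel_right]))
      have h4 : g ∈ κ.range := by
        rw [← hQC]
        rintro _ ⟨v, rfl⟩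
        have := hσ v
        rw [h3, MulAut.one_apply] at this
        exact mul_inv_eq_iff_eq_mul.1 this.symm |>.symm
      exact hgp ((isPElt_of_mem hQp h4).dvd_orderOf hg)
    have h3 := sum_normal_irr_eq_zero κ.range (χ := η) (fun h => hη (ker_apply_eq (h hx))) g
    rw [Finset.sum_congr rfl (g := fun _ => η.1 g) fun n _ => by
      obtain ⟨k, -, hk⟩ := exists_conj_eq_mul_of_fpf (by rw [Subgroup.normalizer_eq_top]; trivial)
        h2 n.2
      rw [(irr_isClassFunction η).mul_comm, ← hk, irr_isClassFunction η]] at h3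
    simp only [Finset.sum_const, nsmul_eq_mul, mul_eq_zero, Nat.cast_eq_zero, Finset.card_univ,
      Fintype.card_ne_zero, false_or] at h3
    rw [h3, map_zero, mul_zero]
  intro η η' hη hη'
  have h1 : (Nat.card F * (ε η * charDegree (I η).1) : ℤ) * charDegree η'.1 =
      (Nat.card F * (ε η' * charDegree (I η').1) : ℤ) * charDegree η.1 := by
    apply Int.cast_injective (α := ℂ)
    rw [Int.cast_mul, Int.cast_mul _ (charDegree η.1 : ℤ), key η hη, key η' hη']
    push_cast
    ring
  have h2 : 0 < Nat.card F := Nat.card_pos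
  have h3 := irr_degree_pos η
  have h4 := irr_degree_pos η'
  have h5 := irr_degree_pos (I η)
  have h6 := irr_degree_pos (I η')
  rcases h.2.1 η trivial with h7 | h7 <;> rcases h.2.1 η' trivial with h8 | h8 <;>
    rw [h7, h8] at h1 ⊢ <;> exfalso
  · have : (0 : ℤ) < Nat.card F * (charDegree (I η).1 * charDegree η'.1 +
      charDegree (I η').1 * charDegree η.1) := by positivity
    linarith
  · have : (0 : ℤ) < Nat.card F * (charDegree (I η).1 * charDegree η'.1 +
      charDegree (I η').1 * charDegree η.1) := by positivity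
    linarith

end Cfsg.Agent.S4634
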