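import Cfsg.Statements.S4635
import Cfsg.Agent.Lib.Block.CycPerf
import Cfsg.Agent.Lib.Grp.PGrp

set_option autoImplicit false
open Cfsg

namespace Cfsg.Agent.S4635

open CT BT GT

/-- Let B be a block of the finite group G relative to a maximal ideal M of the algebraic integers containing the prime p, with a nontrivial cyclic defect group P; let Z be the subgroup of order p of P and H = N_G(Z), which contains N_G(P). Let c be the block of H with defect group P that induces B. Then B and c contain the same number of irreducible characters, have the same p-regular rank, and there is a perfect isometry from c onto B. -/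
theorem result {G : Type*} [Group G] [Finite G] (p : ℕ) [Fact p.Prime] (M : Ideal Cfsg.AlgInt) (hM : Cfsg.IsPModular p M) (B : Set (Cfsg.IrrCharacter G)) (hB : Cfsg.IsPBlock M B) (P : Subgroup G) (hPD : Cfsg.IsDefectGroup p M B P) (hP1 : P ≠ ⊥) (hcyc : IsCyclic P) (Z : Subgroup G) (hZ : Z ≤ P) (hZcard : Nat.card Z = p) (H : Subgroup G) (hH : H = Subgroup.normalizer (Z : Set G)) (c : Set (Cfsg.IrrCharacter H)) (hcD : Cfsg.IsDefectGroup p M c (P.subgroupOf H)) (hc : Cfsg.IsInducedBlock M H c B) : Nat.card c = Nat.card B ∧ Cfsg.blockRank p c = Cfsg.blockRank p B ∧ ∃ (I : Cfsg.IrrCharacter H → Cfsg.IrrCharacter G) (ε : Cfsg.IrrCharacter H → ℤ), Cfsg.IsPerfectIsometry p M c B I ε := by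
  obtain ⟨A, _, _, _, ι, hι, rfl⟩ := exists_cyc_param hcyc
  have := nontrivial_of_range_ne_bot hP1
  have hN : Subgroup.normalizer (ι.range : Set G) ≤ H :=
    hH ▸ normalizer_le_normalizer_of_le_isCyclic hZ
  obtain ⟨e, S, S'⟩ := exists_abSet_pair hM hι hPD (Subgroup.le_normalizer.trans hN)
    ((Subgroup.centralizer_le_normalizer _).trans hN) hcD hc
  have hE := S.inert_sub_eq (Subgroup.le_normalizer.trans hN)
    ((Subgroup.centralizer_le_normalizer _).trans hN) (NP_le_normalizer.trans hN)
  obtain ⟨X, Y, δ, δ₀, c₁, T⟩ := S.exists_cycStr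
  obtain ⟨X', Y', δ', δ₀', c₂, T'⟩ := S'.exists_cycStr
  exact ⟨by rw [T.card_eq S, T'.card_eq S', hE], by rw [T.rank, T'.rank, hE],
    T.exists_perfectIsometry S T' S' hE⟩

end Cfsg.Agent.S4635
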