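import Cfsg.Statements.S4636
import Mathlib

set_option autoImplicit false
open scoped Pointwise
open Cfsg

namespace Cfsg.Agent.S4636

theorem card_pow_eq_one_le {G : Type*} [Group G] [Finite G] (P : Subgroup G) (hcyc : IsCyclic P)
    (p : ℕ) (hp : 0 < p) (Z : Subgroup G) (hZ : Z ≤ P) (hZcard : Nat.card Z = p) (y : G) (hy : y ∈ P)
    (hyp : y ^ p = 1) : y ∈ Z := by
  classical
  have := Fintype.ofFinite P
  have h1 := IsCyclic.card_pow_eq_one_le (α := P) hp
  have h2 : (Finset.univ.filter fun a : P => (a : G) ∈ Z) ⊆ Finset.univ.filter fun a : P => a ^ p = 1 := by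
    intro a ha
    simp only [Finset.mem_filter, Finset.mem_univ, true_and] at ha ⊢
    apply Subtype.ext
    have := pow_card_eq_one' (G := Z) (x := ⟨a, ha⟩)
    rw [hZcard] at this
    simpa using congrArg Subtype.val this
  have h3 : (Finset.univ.filter fun a : P => (a : G) ∈ Z).card = p := by
    rw [← hZcard, ← Fintype.card_subtype, ← Nat.card_eq_fintype_card]
    exact Nat.card_congr (Subgroup.subgroupOfEquivOfLe hZ).toEquiv
  have h4 := Finset.eq_of_subset_of_card_le h2 (by rw [h3]; exact h1)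
  have h5 : (⟨y, hy⟩ : P) ∈ Finset.univ.filter fun a : P => a ^ p = 1 := by
    simp only [Finset.mem_filter, Finset.mem_univ, true_and]
    exact Subtype.ext hyp
  rw [← h4] at h5
  simpa using h5


/-- Let P be a nontrivial cyclic p-subgroup of the finite group G and Z its subgroup of order p. For every x outside N_G(Z), P meets its conjugate xPx⁻¹ trivially; consequently N_G(Q) ≤ N_G(Z) for every nontrivial subgroup Q of P. -/
theorem result {G : Type*} [Group G] [Finite G] (p : ℕ) [Fact p.Prime] (P : Subgroup G) (hP : IsPGroup p P) (hP1 : P ≠ ⊥) (hcyc : IsCyclic P) (Z : Subgroup G) (hZ : Z ≤ P) (hZcard : Nat.card Z = p) : (∀ x : G, x ∉ Subgroup.normalizer (Z : Set G) → P ⊓ MulAut.conj x • P = ⊥) ∧ ∀ Q : Subgroup G, Q ≤ P → Q ≠ ⊥ → Subgroup.normalizer (Q : Set G) ≤ Subgroup.normalizer (Z : Set G) := by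
  have hp : p.Prime := Fact.out
  have key : ∀ x : G, ∀ y : G, y ≠ 1 → y ∈ P → x⁻¹ * y * x ∈ P → x ∈ Subgroup.normalizer (Z : Set G) := by
    intro x y hy1 hy hxy
    -- an element of order `p` in `zpowers y`
    obtain ⟨k, hk⟩ := (IsPGroup.iff_orderOf.mp hP) ⟨y, hy⟩
    have hk' : orderOf y = p ^ k := by rw [← hk]; exact (Subgroup.orderOf_mk y hy).symm
    have hk0 : k ≠ 0 := by
      rintro rfl
      exact hy1 (by simpa using hk')
    obtain ⟨j, rfl⟩ := Nat.exists_eq_succ_of_ne_zero hk0
    set z := y ^ (p ^ j) with hz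
    have hzp : z ^ p = 1 := by rw [hz, ← pow_mul, ← pow_succ, ← hk', pow_orderOf_eq_one]
    have hz1 : z ≠ 1 := by
      intro h
      have := orderOf_dvd_of_pow_eq_one h
      rw [hk'] at this
      have := (Nat.pow_dvd_pow_iff_le_right hp.one_lt).mp this
      omega
    have hzP : z ∈ P := P.pow_mem hy _
    have hxz : x⁻¹ * z * x ∈ P := by
      have : x⁻¹ * z * x = (x⁻¹ * y * x) ^ (p ^ j) := by
        have := conj_pow (a := x⁻¹) (b := y) (i := p ^ j)
        rw [inv_inv] at this
        rw [this]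
      rw [this]; exact P.pow_mem hxy _
    have hzZ : z ∈ Z := card_pow_eq_one_le P hcyc p hp.pos Z hZ hZcard z hzP hzp
    have hxzZ : x⁻¹ * z * x ∈ Z := by
      refine card_pow_eq_one_le P hcyc p hp.pos Z hZ hZcard _ hxz ?_
      have := conj_pow (a := x⁻¹) (b := z) (i := p)
      rw [inv_inv] at this
      rw [this, hzp]; simp
    have hZeq : Subgroup.zpowers z = Z := by
      apply Subgroup.eq_of_le_of_card_ge (Subgroup.zpowers_le.mpr hzZ)
      rw [hZcard, Nat.card_zpowers, orderOf_eq_prime hzp hz1]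
    have : x⁻¹ ∈ Subgroup.normalizer (Z : Set G) := by
      apply Subgroup.mem_normalizer_fintype
      intro n hn
      have hn' : n ∈ Subgroup.zpowers z := by rw [hZeq]; exact hn
      obtain ⟨m, rfl⟩ := hn'
      have := conj_zpow (a := x⁻¹) (b := z) (i := m)
      show x⁻¹ * z ^ m * x⁻¹⁻¹ ∈ Z
      rw [← this, inv_inv]
      exact Z.zpow_mem hxzZ _
    simpa using inv_mem this
  refine ⟨fun x hx => ?_, fun Q hQ hQ1 x hx => ?_⟩
  · rw [eq_bot_iff]
    intro y hy
    by_contra hy1
    apply hx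
    refine key x y hy1 hy.1 ?_
    have := (Subgroup.mem_inf.mp hy).2
    rw [Subgroup.mem_pointwise_smul_iff_inv_smul_mem] at this
    simpa using this
  · obtain ⟨⟨y, hy⟩, hy1⟩ := Subgroup.ne_bot_iff_exists_ne_one.mp hQ1
    refine key x y (fun h => hy1 (Subtype.ext h)) (hQ hy) (hQ ?_)
    rw [Subgroup.mem_normalizer_iff''] at hx
    exact (hx y).mp hy

end Cfsg.Agent.S4636
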