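import Cfsg.Statements.S4638
import Cfsg.Agent.Lib.Block.Klein
import Cfsg.Agent.Lib.Block.KerPairs

set_option autoImplicit false
open Cfsg

namespace Cfsg.Agent.S4638

open CT BT GT
open scoped ComplexConjugate


/-- Let B be a block of the finite group G relative to a maximal ideal M of the algebraic integers containing 2, with a Klein four defect group P, and let c be its Brauer correspondent: the block of N_G(P) with defect group P that induces B. Then there is a perfect isometry from c onto B. -/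
theorem result {G : Type*} [Group G] [Finite G] (M : Ideal Cfsg.AlgInt) (hM : Cfsg.IsPModular 2 M) (B : Set (Cfsg.IrrCharacter G)) (hB : Cfsg.IsPBlock M B) (P : Subgroup G) (hPD : Cfsg.IsDefectGroup 2 M B P) (hV : IsKleinFour P) (c : Set (Cfsg.IrrCharacter (Subgroup.normalizer (P : Set G)))) (hcD : Cfsg.IsDefectGroup 2 M c (P.subgroupOf (Subgroup.normalizer (P : Set G)))) (hc : Cfsg.IsInducedBlock M (Subgroup.normalizer (P : Set G)) c B) : ∃ (I : Cfsg.IrrCharacter (Subgroup.normalizer (P : Set G)) → Cfsg.IrrCharacter G) (ε : Cfsg.IrrCharacter (Subgroup.normalizer (P : Set G)) → ℤ), Cfsg.IsPerfectIsometry 2 M c B I ε := by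
  have hP := isPGroup_of_isDefectGroup hPD
  have hV' : IsKleinFour (P.subgroupOf (Subgroup.normalizer (P : Set G))) := by
    have e := Subgroup.subgroupOfEquivOfLe (Subgroup.le_normalizer (H := P))
    exact ⟨by rw [Nat.card_congr e.toEquiv, hV.card_four],
      by rw [Monoid.exponent_eq_of_mulEquiv e, hV.exponent_two]⟩
  refine exists_isPerfectIsometry_of_klein hM hB hc.1 hPD hcD ?_
  obtain ⟨m, hm, rfl⟩ := exists_maxP (hM := hM) hB hPD
  obtain ⟨m', hm', hQ⟩ := exists_maxP (hM := hM) hc.1 hcD
  have hV'' : IsKleinFour m'.Q := hQ ▸ hV'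
  obtain ⟨-, h2, h3, -⟩ := hm.klein
  obtain ⟨-, h2', h3', -⟩ := hm'.klein
  have hab := le_centralizer_of_klein m.Q
  have h4 := hm.inIdx_eq_one_iff hab
  have h4' := hm'.inIdx_eq_one_iff (le_centralizer_of_klein m'.Q)
  have h5 : IsNilpotentBlock 2 M B ↔ IsNilpotentBlock 2 M c := by
    have h6 : br m.Q (sidem hM _ c) * m.e = m.e := by
      rw [← sidem_eq_br_of_corr hM hP hc hcD, br_br_of_le le_rfl]; exact hm.of
    have h7 : MaxBP 2 (Subgroup.normalizer (m.Q : Set G)) m.Q m.e :=
      maxBP_of_defGrp (bIdem_sidem hM hc.1).toCIdem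
        ((isDefectGroup_subgroupOf_iff_defGrp hM hc.1 Subgroup.le_normalizer).1 hcD)
        (m.bp.congr_base (inf_centralizer_eq_of_le le_top
          (inf_le_right.trans (Subgroup.centralizer_le_normalizer _))) le_rfl
          (Subgroup.le_normalizer.trans Subgroup.le_normalizer)) h6
    rw [isNilpotentBlock_iff hM hB, isNilpotentBlock_sub_iff hM hc.1,
      hm.max.nilId_iff_of_abelian hM (bIdem_top_idem hM hB) hm.of hab,
      h7.nilId_iff_of_abelian hM (bIdem_sidem hM hc.1) h6 hab]
    rw [NP, NP, top_inf_eq, inf_idem]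
  have h8 : m.inIdx = 1 ↔ m'.inIdx = 1 := h4.trans (h5.trans h4'.symm)
  omega

end Cfsg.Agent.S4638
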