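import Cfsg.Statements.S4640
import Cfsg.Agent.Lib.Block.Major
-- import your own Cfsg.Agent.* helpers here

set_option autoImplicit false
open Cfsg

namespace Cfsg.Agent.S4640

open BT CT GT
open scoped Pointwise ComplexConjugate commutatorElement

/-- Let N be a normal subgroup of the finite group G of index a power of the prime p, M a maximal ideal of the algebraic integers containing p, b a block of N stabilized by every element of G, and B a block of G covering b (some member of B has a member of b as a constituent of its restriction to N). Suppose that B has a commutative defect group P. Then G = NP and P ∩ N is a defect group of b; every member of B restricts to a member of b; every member of b is the restriction of exactly [G : N] members of B; B contains exactly [G : N] times as many irreducible characters as b; and B and b have the same p-regular rank. -/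
theorem result {G : Type*} [Group G] [Fintype G] (p : ℕ) [Fact p.Prime] (M : Ideal Cfsg.AlgInt) (hM : Cfsg.IsPModular p M) (N : Subgroup G) [N.Normal] [Fintype N] (hNi : ∃ k : ℕ, N.index = p ^ k) (b : Set (Cfsg.IrrCharacter N)) (hb : Cfsg.IsPBlock M b) (hstab : ∀ g : G, Cfsg.StabilizesBlock N b g) (B : Set (Cfsg.IrrCharacter G)) (hB : Cfsg.IsPBlock M B) (hcov : ∃ χ ∈ B, ∃ θ ∈ b, Cfsg.classInner (fun n : N => (χ : G → ℂ) n) (θ : N → ℂ) ≠ 0) (P : Subgroup G) (hPD : Cfsg.IsDefectGroup p M B P) (hPab : ∀ x ∈ P, ∀ y ∈ P, x * y = y * x) : N ⊔ P = ⊤ ∧ Cfsg.IsDefectGroup p M b ((P ⊓ N).subgroupOf N) ∧ (∀ χ ∈ B, ∃ θ ∈ b, ∀ n : N, (χ : G → ℂ) n = (θ : N → ℂ) n) ∧ (∀ θ ∈ b, Nat.card {χ : Cfsg.IrrCharacter G // χ ∈ B ∧ ∀ n : N, (χ : G → ℂ) n = (θ : N → ℂ) n} = N.index) ∧ Nat.card B = N.index * Nat.card b ∧ Cfsg.blockRank p B = Cfsg.blockRank p b := by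
  classical
  obtain ⟨k, hk⟩ := hNi
  have hk' : N.relIndex ⊤ = p ^ k := by rwa [Subgroup.relIndex_top_right]
  have hc : Covers N B b := (covers_iff_classInner N B b).2 hcov
  have hf := bIdem_sidem hM hb
  have hs : ∀ g : G, g • b = b := fun g =>
    (smul_block_eq_iff hM hb g).2 ((stabilizesBlock_iff_forall_smul_mem b g).1 (hstab g))
  have hfix : IsFixed ⊤ (sidem hM N b) :=
    isFixed_iff_cj.2 fun g _ => (cj_sidem_eq_iff hM hb g).2 (hs g)
  have h1 : idem hM B = sidem hM N b := by
    rw [(bIdem_top_idem hM hB).eq_orbSum_of_relIndex_eq_pow hM le_top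
      Subgroup.le_normalizer_of_normal hk' hf ((covers_iff_mul hM hB hb).1 hc),
      orbSum_of_isFixed hfix]
  have h2 := (isDefectGroup_iff_defGrp hM hB P).1 hPD
  rw [h1] at h2
  obtain ⟨h3, h4⟩ := h2.sup_eq_of_relIndex_eq_pow hM le_top Subgroup.le_normalizer_of_normal hk'
    hf hfix
  have hres : ∀ χ ∈ B, ∃ θ ∈ b, res N χ.1 = θ.1 := by
    intro χ hχ
    have h5 := (isIrr_res_of_abelian_defect hM hk hB hPD hPab h3 hχ).2
    exact ⟨⟨_, h5⟩, hc.mem_of_liesOver hM hB hb hs hχ (liesOver_of_res_eq rfl), rfl⟩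
  have hres' : ∀ χ ∈ B, ∀ θ : IrrCharacter N, LiesOver N χ.1 θ.1 → res N χ.1 = θ.1 := by
    intro χ hχ θ hl
    obtain ⟨θ', -, h⟩ := hres χ hχ
    rw [h, eq_of_liesOver_of_res_eq_smul (e := 1) (by rw [h, one_smul]) hl]
  have hext : ∀ θ ∈ b, ∃ χ ∈ B, res N χ.1 = θ.1 := by
    intro θ hθ
    obtain ⟨χ, hχ, hl⟩ := hc.exists_liesOver hM hB hb hθ
    exact ⟨χ, hχ, hres' χ hχ θ hl⟩
  have hcard : ∀ θ ∈ b, ((bset B).filter fun χ => res N χ.1 = θ.1).card = N.index := by
    intro θ hθ
    obtain ⟨χ, hχ, h⟩ := hext θ hθ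
    have hcomm := (isIrr_res_of_abelian_defect hM hk hB hPD hPab h3 hχ).1
    have h6 := card_irrOver_mul_mult_sq hcomm (liesOver_of_res_eq h)
    have h7 : MulAction.stabilizer G θ = ⊤ :=
      forall_smul_iff_inertia_eq_top.1 (smul_eq_of_res_eq (irr_isClassFunction χ) h)
    rw [h, mult_eq_of_ip_eq (n := 1) (by rw [ip_irr_self, Nat.cast_one]), h7,
      Subgroup.relIndex_top_right, one_pow, mul_one] at h6
    rw [← h6]
    congr 1
    ext ψ
    rw [Finset.mem_filter, mem_bset, mem_irrOver]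
    refine ⟨fun h => liesOver_of_res_eq h.2, fun hl => ?_⟩
    have := mem_of_liesOver_of_index_eq_pow hM hk hc hB hb hθ hl
    exact ⟨this, hres' ψ this θ hl⟩
  refine ⟨h3, (isDefectGroup_subgroupOf_iff_defGrp hM hb inf_le_right).2 h4, fun χ hχ => ?_,
    fun θ hθ => ?_, ?_, ?_⟩
  · obtain ⟨θ, hθ, h⟩ := hres χ hχ
    exact ⟨θ, hθ, congrFun h⟩
  · rw [← hcard θ hθ, ← Nat.card_eq_finsetCard]
    refine Nat.card_congr (Equiv.subtypeEquivRight fun χ => ?_)
    rw [Finset.mem_filter, mem_bset]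
    exact and_congr_right fun _ => ⟨fun h => funext h, fun h => congrFun h⟩
  · choose! r hr using hres
    rw [← card_bset, ← card_bset, Finset.card_eq_sum_card_fiberwise (f := r) (t := bset b)
      (fun χ hχ => mem_bset.2 (hr χ (mem_bset.1 hχ)).1), mul_comm, ← smul_eq_mul,
      ← Finset.sum_const]
    refine Finset.sum_congr rfl fun θ hθ => ?_
    rw [← hcard θ (mem_bset.1 hθ)]
    congr 1
    refine Finset.filter_congr fun χ hχ => ?_
    rw [(hr χ (mem_bset.1 hχ)).2]
    exact ⟨fun h => by rw [h], fun h => Subtype.ext h⟩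
  · exact blockRank_eq_of_res (fun g hg => (isPRegular_iff.2 hg).mem_of_index_eq_pow N hk)
      hres hext

end Cfsg.Agent.S4640
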