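import Cfsg.Statements.S4641
import Cfsg.Agent.Lib.Block.IBr
import Cfsg.Agent.Lib.Block.Heights

set_option autoImplicit false
open Cfsg

namespace Cfsg.Agent.S4641

open CT BT
open scoped MonoidAlgebra ComplexConjugate

/-- Let B be a block of the finite group G relative to a maximal ideal M of the algebraic integers containing the prime p, let p^a be the p-part of the order of G and p^d the order of a defect group D of B, and let g be the greatest common divisor of the degrees of the members of B. Then the p-part of g is exactly p^(a−d), and writing g = p^(a−d)·u there is a positive integer v, prime to p and at least the p-regular rank of B (its number of irreducible Brauer characters), with Σ_{χ ∈ B} χ(1)² = p^(2a−d)·u²·v. -/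
theorem result {G : Type*} [Group G] [Finite G] (p : ℕ) [Fact p.Prime] (M : Ideal Cfsg.AlgInt) (hM : Cfsg.IsPModular p M) (B : Set (Cfsg.IrrCharacter G)) (hB : Cfsg.IsPBlock M B) (D : Subgroup G) (hD : Cfsg.IsDefectGroup p M B D) (a d : ℕ) (ha : (Nat.card G).factorization p = a) (hd : Nat.card D = p ^ d) (g : ℕ) (hg1 : ∀ χ ∈ B, g ∣ Cfsg.charDegree (χ : G → ℂ)) (hg2 : ∀ g' : ℕ, (∀ χ ∈ B, g' ∣ Cfsg.charDegree (χ : G → ℂ)) → g' ∣ g) : g.factorization p = a - d ∧ ∃ v : ℕ, 0 < v ∧ ¬ p ∣ v ∧ Cfsg.blockRank p B ≤ v ∧ ∑ᶠ χ ∈ B, Cfsg.charDegree (χ : G → ℂ) ^ 2 = p ^ (2 * a - d) * (g / p ^ (a - d)) ^ 2 * v := by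
  classical
  have hp : p.Prime := Fact.out
  obtain ⟨W⟩ := exists_wed hM G
  have hd' : blockDefect p B = d :=
    (Nat.pow_right_injective hp.two_le (hd.symm.trans (card_defectGroup hM hB hD))).symm
  have hda : d ≤ a := by rw [← hd', ← ha]; exact blockDefect_le B
  obtain ⟨χ₀, h₀, h₀'⟩ := exists_height_zero hM hB
  have hg0 : g ≠ 0 := fun h => (irr_degree_pos χ₀).ne' (by simpa [h] using hg1 χ₀ h₀)
  have hfac : ∀ χ ∈ B, (charDegree χ.1).factorization p = a - d + blockHeight p B χ.1 :=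
    fun χ hχ => by have := factorization_degree_add_defect (p := p) hχ; omega
  have h1 : g.factorization p = a - d := by
    refine le_antisymm ?_ ((hp.pow_dvd_iff_le_factorization hg0).1 (hg2 _ fun χ hχ =>
      (hp.pow_dvd_iff_le_factorization (irr_degree_pos χ).ne').2 (by rw [hfac χ hχ]; omega)))
    have := (Nat.factorization_le_iff_dvd hg0 (irr_degree_pos χ₀).ne').2 (hg1 χ₀ h₀) p
    rwa [hfac χ₀ h₀, h₀'] at this
  refine ⟨h1, ?_⟩
  set u := g / p ^ (a - d) with hu
  have hgu : g = p ^ (a - d) * u := by rw [hu, ← h1, Nat.ordProj_mul_ordCompl_eq_self]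
  have hup : Nat.Coprime (p ^ a) u := by
    rw [hu, ← h1]; exact (Nat.coprime_ordCompl hp hg0).pow_left _
  let I := Finset.univ.filter fun i => W.blk i = B
  have hI : I.card = blockRank p B := by
    rw [← W.card_blk hB, Nat.card_eq_fintype_card, Fintype.card_subtype]
  have h2 : ∀ i ∈ I, ∃ v, 0 < v ∧ W.n i * charDegree (W.Φ i) = p ^ (2 * a - d) * u ^ 2 * v := by
    intro i hi
    have hi' : W.blk i = B := (Finset.mem_filter.1 hi).2
    have h3 : g ∣ W.n i := by
      have := W.φ_one i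
      rw [W.φ_eq_sum, hi'] at this
      simp only [Finset.sum_apply, Pi.smul_apply, pRegularPart_apply_one, smul_eq_mul,
        irr_apply_one] at this
      have h4 : (W.n i : ℤ) = ∑ χ ∈ bset B, W.a i χ * charDegree χ.1 := by exact_mod_cast this.symm
      rw [← Int.natCast_dvd_natCast, h4]
      exact Finset.dvd_sum fun χ hχ => Dvd.dvd.mul_left
        (Int.natCast_dvd_natCast.2 (hg1 χ (mem_bset.1 hχ))) _
    have h4 : g ∣ charDegree (W.Φ i) := by
      rw [(W.isCharacter_Φ i).degree_eq_sum_mult]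
      refine Finset.dvd_sum fun χ _ => ?_
      by_cases hχ : χ ∈ B
      · exact Dvd.dvd.mul_left (hg1 χ hχ) _
      · rw [show mult (W.Φ i) χ.1 = 0 from W.d_eq_zero_of_not_mem (hi' ▸ hχ), zero_mul]
        exact dvd_zero _
    have h5 : p ^ a ∣ charDegree (W.Φ i) := by
      obtain ⟨k, hk⟩ := (W.isCharacter_Φ i).isGen.pPart_dvd_of_vanish hp fun x hx ⟨k, hk⟩ =>
        W.Φ_apply_of_dvd i (by
          rw [hk]; exact dvd_pow_self p fun h => hx (orderOf_eq_one_iff.1 (by rw [hk, h, pow_zero])))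
      rw [(W.isCharacter_Φ i).apply_one, ha] at hk
      exact Int.natCast_dvd_natCast.1 ⟨k, by exact_mod_cast hk⟩
    obtain ⟨x, hx⟩ := h3
    obtain ⟨y, hy⟩ := hup.mul_dvd_of_dvd_of_dvd h5 ((Dvd.intro_left _ hgu.symm).trans h4)
    have hx0 : x ≠ 0 := fun h => (W.n_pos i).ne' (by rw [hx, h, mul_zero])
    have hy0 : y ≠ 0 := fun h => W.Φ_ne_zero i
      ((W.isCharacter_Φ i).eq_zero_of_degree_eq_zero (by rw [hy, h, mul_zero]))
    refine ⟨x * y, by positivity, ?_⟩
    rw [hx, hy, hgu, show 2 * a - d = a - d + a by omega]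
    ring
  choose! v hv hv' using h2
  have h3 : ∑ χ ∈ bset B, charDegree χ.1 ^ 2 = p ^ (2 * a - d) * u ^ 2 * ∑ i ∈ I, v i := by
    rw [Finset.mul_sum, ← Finset.sum_congr rfl hv']
    have : ∀ χ ∈ bset B, charDegree χ.1 ^ 2 = ∑ i ∈ I, W.n i * (W.d χ i * charDegree χ.1) := by
      intro χ hχ
      rw [Finset.sum_subset (Finset.subset_univ I) fun i _ hi => by
        rw [W.d_eq_zero_of_ne hB (mem_bset.1 hχ) (by simpa [I] using hi), zero_mul, mul_zero], sq]
      conv_lhs => arg 1; rw [W.degree_eq_sum]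
      rw [Finset.sum_mul]
      exact Finset.sum_congr rfl fun i _ => by ring
    rw [Finset.sum_congr rfl this, Finset.sum_comm]
    refine Finset.sum_congr rfl fun i hi => ?_
    rw [← Finset.mul_sum, (W.isCharacter_Φ i).degree_eq_sum_mult, sum_bset_eq_sum_univ B
      fun χ hχ => by
        rw [W.d_eq_zero_of_not_mem ((Finset.mem_filter.1 hi).2 ▸ hχ), zero_mul]]
    rfl
  have h4 : blockRank p B ≤ ∑ i ∈ I, v i := by
    rw [← hI, Finset.card_eq_sum_ones]
    exact Finset.sum_le_sum hv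
  have h5 := (blockRank_pos (p := p) ⟨χ₀, h₀⟩).trans_le h4
  refine ⟨_, h5, fun h => ?_, h4, by rw [finsum_mem_eq_sum_bset, h3]⟩
  have h6 := factorization_sum_degree_sq hM hB
  have hu0 : u ≠ 0 := fun h => hg0 (by rw [hgu, h, mul_zero])
  rw [h3, ha, hd'] at h6
  have h7 := (hp.pow_dvd_iff_le_factorization (k := 2 * a - d + 1) (mul_ne_zero (mul_ne_zero
    (pow_ne_zero (2 * a - d) hp.ne_zero) (pow_ne_zero 2 hu0)) h5.ne')).1 (by
      rw [pow_succ, mul_assoc]; exact mul_dvd_mul_left _ (h.mul_left _))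
  omega

end Cfsg.Agent.S4641
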