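import Cfsg.Statements.S4642
import Cfsg.Agent.Lib.Block.Fong
-- import your own Cfsg.Agent.* helpers here

set_option autoImplicit false
open Cfsg

namespace Cfsg.Agent.S4642

open BT CT GT
open scoped Pointwise

/-- Let G be a finite group, p a prime, M a maximal ideal of the algebraic integers containing p, K the largest normal subgroup of G of order prime to p, and L the preimage in G of the largest normal p-subgroup of G/K. Let Q be a Sylow p-subgroup of L and suppose C_G(Q) ≤ L. Let θ be an irreducible character of K invariant under conjugation by every element of G, and let B be the set of irreducible characters of G whose restriction to K contains θ. Then B is a block of G, every Sylow p-subgroup of G is a defect group of B, and B is of principal type: for every p-subgroup R of G exactly one block of C_G(R) induces B. -/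
theorem result {G : Type*} [Group G] [Fintype G] (p : ℕ) [Fact p.Prime] (M : Ideal Cfsg.AlgInt) (hM : Cfsg.IsPModular p M) (K : Subgroup G) (hK : K = Cfsg.pPrimeCore p G) [Fintype K] (L : Subgroup G) (hL : L = Cfsg.pPrimePCore p G) (Q : Subgroup G) (hQL : Q ≤ L) (hQp : IsPGroup p Q) (hQS : ¬ p ∣ Q.relIndex L) (hCQ : Subgroup.centralizer (Q : Set G) ≤ L) (θ : Cfsg.IrrCharacter K) (hθ : ∀ g : G, Cfsg.IsConjCharOf K g (θ : K → ℂ) (θ : K → ℂ)) (B : Set (Cfsg.IrrCharacter G)) (hBdef : ∀ χ : Cfsg.IrrCharacter G, χ ∈ B ↔ Cfsg.classInner (fun k : K => (χ : G → ℂ) k) (θ : K → ℂ) ≠ 0) : Cfsg.IsPBlock M B ∧ (∀ S : Sylow p G, Cfsg.IsDefectGroup p M B S) ∧ ∀ R : Subgroup G, IsPGroup p R → ∃! f : Set (Cfsg.IrrCharacter (Subgroup.centralizer (R : Set G))), Cfsg.IsInducedBlock M (Subgroup.centralizer (R : Set G)) f B := by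
  subst hK hL
  have hQ : IsSylowIn p Q (pPrimePCore p G) := ⟨hQL, hQp, hQS⟩
  have hθ' : ∀ g : G, g • θ = θ := fun g => isConjCharOf_iff_smul.1 (hθ g)
  obtain ⟨B', hB, h0, h1, h2⟩ := exists_block_over_pPrimeCore hM hQ hCQ hθ'
  obtain rfl : B = B' := Set.ext fun χ => by rw [hBdef, h1, classInner_eq_ip]; rfl
  refine ⟨hB, fun P => (h2 P).2 (isSylowIn_sylow P), fun R hR => ?_⟩
  have h3 := bIdem_br_sidem_pPrimeCore hM hQ hCQ hR hθ'
  rw [← h0] at h3
  obtain ⟨f, hf, h4⟩ := h3.exists_block hM
  refine ⟨f, (isInducedBlock_centralizer_iff_br hM hR hf hB).2 (by rw [h4, h3.idem]),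
    fun f' hf' => sidem_injective hM hf'.1 hf ?_⟩
  have h5 := (isInducedBlock_centralizer_iff_br hM hR hf'.1 hB).1 hf'
  rw [h4]
  refine ((h3.eq_or_mul_eq_zero (bIdem_sidem hM hf'.1)).resolve_right ?_).symm
  rw [h5]
  exact (bIdem_sidem hM hf'.1).ne_zero

end Cfsg.Agent.S4642
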