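import Cfsg.Statements.S4644
import Cfsg.Agent.Lib.Block.Watanabe

set_option autoImplicit false
open Cfsg

namespace Cfsg.Agent.S4644

open BT CT GT
open scoped MonoidAlgebra Pointwise

/-- Let B be a block of the finite group G relative to a maximal ideal M of the algebraic integers containing the prime p, with a commutative defect group P; let c be a block of C_G(P) inducing B and T the stabilizer of c in N_G(P). Let u be an element of P fixed under conjugation by every element of T, H = C_G(u) (so C_G(P) ≤ H), and f the block of H induced by c inside H. Then B and f have the same p-regular rank and the same number of irreducible characters. -/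
theorem result {G : Type*} [Group G] [Finite G] (p : ℕ) [Fact p.Prime] (M : Ideal Cfsg.AlgInt) (hM : Cfsg.IsPModular p M) (B : Set (Cfsg.IrrCharacter G)) (hB : Cfsg.IsPBlock M B) (P : Subgroup G) (hPD : Cfsg.IsDefectGroup p M B P) (hPab : ∀ x ∈ P, ∀ y ∈ P, x * y = y * x) (c : Set (Cfsg.IrrCharacter (Subgroup.centralizer (P : Set G)))) (hc : Cfsg.IsInducedBlock M (Subgroup.centralizer (P : Set G)) c B) (T : Subgroup G) (hT : ∀ g : G, g ∈ T ↔ (g ∈ Subgroup.normalizer (P : Set G) ∧ Cfsg.StabilizesBlock (Subgroup.centralizer (P : Set G)) c g)) (u : G) (hu : u ∈ P) (huT : ∀ g ∈ T, g * u * g⁻¹ = u) (H : Subgroup G) (hH : H = Subgroup.centralizer ({u} : Set G)) (f : Set (Cfsg.IrrCharacter H)) (hf : Cfsg.IsInducedBlockIn M H (Subgroup.centralizer (P : Set G)) c f) : Cfsg.blockRank p B = Cfsg.blockRank p f ∧ Nat.card B = Nat.card f := by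
  rw [← centralizer_zpowers_eq'] at hH
  subst hH
  have hP := isPGroup_of_isDefectGroup hPD
  have hmax := (isMaximalBrauerPair_iff_isDefectGroup hM).2
    ⟨(isBrauerPairOf_iff_isInducedBlock hM hP).2 hc, hPD⟩
  have hm : MaxP B (SPair.ofBlock hM hP hc.1) := maxP_ofBlock (hM := hM) hmax
  have hab : P ≤ Subgroup.centralizer (P : Set G) := fun x hx y hy => hPab y hy x hx
  have huP := Subgroup.zpowers_le.2 hu
  have h1 := (isInducedBlockIn_centralizer_iff_ple hM hP huP (hab.trans (centralizer_anti huP))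
    hc.1 hf.2.1).1 hf
  have h2 : (SPair.ofBlock hM (hP.to_le huP) hf.2.1).Le (SPair.ofBlock hM hP hc.1) := h1
  have h3 := h2.eq_at (u := u) (mem_pairsAt.2 rfl)
  have h4 : ∀ t : G, t • SPair.ofBlock hM hP hc.1 = SPair.ofBlock hM hP hc.1 →
      t * u * t⁻¹ = u := fun t ht =>
    huT t (eq_NP_of_forall hM hc.1 hT ▸
      (SPair.smul_eq_iff_mem_NP (m := SPair.ofBlock hM hP hc.1) (t := t)).1 ht)
  have h5 := hm.blockRank_eq_at hab (z := u) hu h4
  have h6 := hm.card_eq_at hab (z := u) hu h4
  obtain ⟨φ, -, hφ⟩ := exists_mapSet_of_sidem_eq hM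
    (centralizer_eq_of_mem_pairsAt (SPair.at_mem (m := SPair.ofBlock hM hP hc.1) hu)
      |>.trans (centralizer_zpowers_eq' u).symm) (SPair.isPBlock_blk _) hf.2.1
      ((SPair.sidem_blk _).trans (congrArg SPair.e h3).symm)
  rw [← hφ, blockRank_mapSet, card_mapSet]
  exact ⟨h5, h6⟩

end Cfsg.Agent.S4644
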