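import Cfsg.Statements.S4645
import Cfsg.Agent.Lib.Block.Nilp
import Cfsg.Agent.Lib.Block.PairsLoc
import Cfsg.Agent.Lib.Grp.PGrp

set_option autoImplicit false
open Cfsg

namespace Cfsg.Agent.S4645

open BT CT GT
open scoped MonoidAlgebra Pointwise

/-- Let B be a block of the finite group G relative to a maximal ideal M of the algebraic integers containing the prime p, with a nontrivial cyclic defect group P; let c be a block of C_G(P) inducing B and T the stabilizer of c in N_G(P). Let Q be a nontrivial subgroup of P (so C_G(P) ≤ C_G(Q)), f the block of C_G(Q) induced by c inside C_G(Q), and T' the stabilizer of f in N_G(Q). Then T' = T·C_G(Q), the index of C_G(Q) in T' equals the index of C_G(P) in T, f has p-regular rank 1, and f is a nilpotent block of C_G(Q). -/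
theorem result {G : Type*} [Group G] [Finite G] (p : ℕ) [Fact p.Prime] (M : Ideal Cfsg.AlgInt) (hM : Cfsg.IsPModular p M) (B : Set (Cfsg.IrrCharacter G)) (hB : Cfsg.IsPBlock M B) (P : Subgroup G) (hPD : Cfsg.IsDefectGroup p M B P) (hP1 : P ≠ ⊥) (hcyc : IsCyclic P) (c : Set (Cfsg.IrrCharacter (Subgroup.centralizer (P : Set G)))) (hc : Cfsg.IsInducedBlock M (Subgroup.centralizer (P : Set G)) c B) (T : Subgroup G) (hT : ∀ g : G, g ∈ T ↔ (g ∈ Subgroup.normalizer (P : Set G) ∧ Cfsg.StabilizesBlock (Subgroup.centralizer (P : Set G)) c g)) (Q : Subgroup G) (hQP : Q ≤ P) (hQ1 : Q ≠ ⊥) (f : Set (Cfsg.IrrCharacter (Subgroup.centralizer (Q : Set G)))) (hf : Cfsg.IsInducedBlockIn M (Subgroup.centralizer (Q : Set G)) (Subgroup.centralizer (P : Set G)) c f) (T' : Subgroup G) (hT' : ∀ g : G, g ∈ T' ↔ (g ∈ Subgroup.normalizer (Q : Set G) ∧ Cfsg.StabilizesBlock (Subgroup.centralizer (Q : Set G)) f g)) : T' = T ⊔ Subgroup.centralizer (Q : Set G) ∧ (Subgroup.centralizer (Q : Set G)).relIndex T' =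 (Subgroup.centralizer (P : Set G)).relIndex T ∧ Cfsg.blockRank p f = 1 ∧ Cfsg.IsNilpotentBlock p M f := by
  have hP := isPGroup_of_isDefectGroup hPD
  have h := IsMaximalBrauerPair.maxBP' hM ((isMaximalBrauerPair_iff_isDefectGroup hM).2
    ⟨(isBrauerPairOf_iff_isInducedBlock hM hP).2 hc, hPD⟩)
  have hab := le_centralizer_self_of_isCyclic P
  have h1 := (isInducedBlockIn_centralizer_iff_ple hM hP hQP (hab.trans (centralizer_anti hQP))
    hc.1 hf.2.1).1 hf
  obtain rfl := eq_NP_of_forall hM hc.1 hT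
  obtain rfl := eq_NP_of_forall hM hf.2.1 hT'
  have hN : NP ⊤ P (sidem hM _ c) ≤ Subgroup.normalizer (Q : Set G) :=
    NP_le_normalizer.trans (normalizer_le_normalizer_of_le_isCyclic hQP)
  have h2 := h.NP_eq_sup_of_abelian hM h1 hab
  rw [inf_eq_left.2 hN, top_inf_eq] at h2
  have h3 : NP ⊤ P (sidem hM _ c) ⊓ Subgroup.centralizer (Q : Set G) ≤
      Subgroup.centralizer (P : Set G) := fun x hx => by
    obtain ⟨u, hu⟩ := (Subgroup.ne_bot_iff_exists_ne_one).1 hQ1
    refine h.mem_centralizer_of_isCyclic hM hx.1 (hQP u.2) (fun h => hu (Subtype.ext h)) ?_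
    rw [← hx.2 u u.2, mul_inv_cancel_right]
  have h4 : IsNilpotentBlock p M f := by
    have h5 := (h.nilId_centralizer_iff_of_abelian hM h1 hab).2 h3
    rw [top_inf_eq] at h5
    exact (isNilpotentBlock_sub_iff hM hf.2.1).2 h5
  refine ⟨h2, ?_, blockRank_of_nilpotent hM h4, h4⟩
  rw [h2, relIndex_sup_of_le_normalizer (hN.trans (normalizer_le_normalizer_centralizer Q)),
    ← Subgroup.inf_relIndex_right, ← Subgroup.inf_relIndex_right (Subgroup.centralizer (P : Set G))]
  congr 1
  exact le_antisymm (le_inf (by rwa [inf_comm]) inf_le_right)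
    (inf_le_inf_right _ (centralizer_anti hQP))

end Cfsg.Agent.S4645
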