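import Cfsg.Statements.S4648
import Cfsg.Agent.Lib.Block.RankOne

set_option autoImplicit false
open Cfsg

namespace Cfsg.Agent.S4648

/-- Let B be a block of the finite group G relative to a maximal ideal M of the algebraic integers containing the prime p, with a nontrivial defect group D. If B has p-regular rank 1 and at most four irreducible characters, then B is nilpotent, D has exactly as many elements as B has irreducible characters, and p is 2 or 3. -/
theorem result {G : Type*} [Group G] [Finite G] (p : ℕ) [Fact p.Prime] (M : Ideal Cfsg.AlgInt) (hM : Cfsg.IsPModular p M) (B : Set (Cfsg.IrrCharacter G)) (hB : Cfsg.IsPBlock M B) (D : Subgroup G) (hD : Cfsg.IsDefectGroup p M B D) (hD1 : D ≠ ⊥) (hl : Cfsg.blockRank p B = 1) (hk : Nat.card B ≤ 4) : Cfsg.IsNilpotentBlock p M B ∧ Nat.card D = Nat.card B ∧ (p = 2 ∨ p = 3) := by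
  have hc := BT.card_defectGroup hM hB hD
  obtain ⟨h1, d, hd⟩ := (BT.rank_one_card_le_five hM hB hl (by omega)).resolve_right (by omega)
  refine ⟨BT.nilpotent_of_degree_eq hM hB hd, hc.trans h1, ?_⟩
  have hp : p.Prime := Fact.out
  have h2 : blockDefect p B ≠ 0 := fun h => hD1 (Subgroup.eq_bot_of_card_eq _ (by rw [hc, h, pow_zero]))
  have h3 : p ≤ 4 := (Nat.le_self_pow h2 p).trans (h1.le.trans hk)
  have := hp.two_le
  interval_cases p
  · exact .inl rfl
  · exact .inr rfl
  · exact absurd hp (by decide)

end Cfsg.Agent.S4648
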