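import Cfsg.Statements.S4649
import Cfsg.Agent.Lib.Block.CycBridge
import Cfsg.Agent.Lib.Block.Nilp

set_option autoImplicit false
open Cfsg

namespace Cfsg.Agent.S4649

/-- A block with cyclic defect group, of a finite group relative to a maximal ideal M of the algebraic integers containing the prime p, is nilpotent if and only if its p-regular rank is 1 (it has a unique irreducible Brauer character). -/
theorem result {G : Type*} [Group G] [Finite G] (p : ℕ) [Fact p.Prime] (M : Ideal Cfsg.AlgInt) (hM : Cfsg.IsPModular p M) (B : Set (Cfsg.IrrCharacter G)) (hB : Cfsg.IsPBlock M B) (P : Subgroup G) (hPD : Cfsg.IsDefectGroup p M B P) (hcyc : IsCyclic P) : Cfsg.IsNilpotentBlock p M B ↔ Cfsg.blockRank p B = 1 := by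
  refine ⟨BT.blockRank_of_nilpotent hM, fun h => ?_⟩
  obtain ⟨A, _, _, _, ι, hι, rfl⟩ := BT.exists_cyc_param hcyc
  obtain ⟨e, S⟩ := BT.exists_abSet hM hι hB hPD
  rw [BT.isNilpotentBlock_iff hM hB, S.max.nilId_iff_of_abelian hM (BT.bIdem_top_idem hM hB) S.brm
    (BT.range_le_centralizer ι), ← Subgroup.relIndex_eq_one, ← BT.card_inert hι]
  cases subsingleton_or_nontrivial A
  · have : Subsingleton (MulAut A) := ⟨fun a b => MulEquiv.ext fun _ => Subsingleton.elim _ _⟩
    exact Nat.card_unique
  · obtain ⟨X, Y, δ, δ₀, c, T⟩ := S.exists_cycStr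
    rw [← T.rank, h]

end Cfsg.Agent.S4649
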