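import Cfsg.Statements.S4650
import Cfsg.Agent.Lib.Block.PairsLoc

set_option autoImplicit false
open Cfsg

namespace Cfsg.Agent.S4650

open BT CT GT
open scoped MonoidAlgebra Pointwise

/-- Let B be a block of the finite group G relative to a maximal ideal M of the algebraic integers containing the prime p, with a nontrivial commutative defect group P; let c be a block of C_G(P) inducing B and T the stabilizer of c in N_G(P). Then T/C_G(P) acts freely on the non-identity elements of P (an element of T fixing a non-identity element of P under conjugation lies in C_G(P)) if and only if, for every nontrivial subgroup Q of P, the block of C_G(Q) induced by c inside C_G(Q) is a nilpotent block of C_G(Q). -/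
theorem result {G : Type*} [Group G] [Finite G] (p : ℕ) [Fact p.Prime] (M : Ideal Cfsg.AlgInt) (hM : Cfsg.IsPModular p M) (B : Set (Cfsg.IrrCharacter G)) (hB : Cfsg.IsPBlock M B) (P : Subgroup G) (hPD : Cfsg.IsDefectGroup p M B P) (hPab : ∀ x ∈ P, ∀ y ∈ P, x * y = y * x) (hP1 : P ≠ ⊥) (c : Set (Cfsg.IrrCharacter (Subgroup.centralizer (P : Set G)))) (hc : Cfsg.IsInducedBlock M (Subgroup.centralizer (P : Set G)) c B) (T : Subgroup G) (hT : ∀ g : G, g ∈ T ↔ (g ∈ Subgroup.normalizer (P : Set G) ∧ Cfsg.StabilizesBlock (Subgroup.centralizer (P : Set G)) c g)) : (∀ g ∈ T, ∀ x ∈ P, x ≠ 1 → g * x * g⁻¹ = x → g ∈ Subgroup.centralizer (P : Set G)) ↔ ∀ Q : Subgroup G, Q ≤ P → Q ≠ ⊥ → ∀ f : Set (Cfsg.IrrCharacter (Subgroup.centralizer (Q : Set G))), Cfsg.IsInducedBlockIn M (Subgroup.centralizer (Q : Set G)) (Subgroup.centralizer (P : Set G)) c f → Cfsg.IsNilpotentBlock p M f := by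
  have hP := isPGroup_of_isDefectGroup hPD
  have hmax := (isMaximalBrauerPair_iff_isDefectGroup hM).2
    ⟨(isBrauerPairOf_iff_isInducedBlock hM hP).2 hc, hPD⟩
  have h := IsMaximalBrauerPair.maxBP' hM hmax
  have hab' : P ≤ Subgroup.centralizer (P : Set G) := fun x hx y hy => hPab y hy x hx
  obtain rfl := eq_NP_of_forall hM hc.1 hT
  constructor
  · intro h1 Q hQP hQ1 f hf
    have h2 := (isInducedBlockIn_centralizer_iff_ple hM hP hQP
      (hab'.trans (Subgroup.centralizer_le hQP)) hc.1 hf.2.1).1 hf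
    have h3 := (h.nilId_centralizer_iff_of_abelian hM h2 hab').2 fun g hg => by
      obtain ⟨x, hx, hx1⟩ := (Subgroup.bot_or_exists_ne_one Q).resolve_left hQ1
      exact h1 g hg.1 x (hQP hx) hx1 (by rw [← hg.2 x hx, mul_inv_cancel_right])
    rw [top_inf_eq] at h3
    exact (isNilpotentBlock_sub_iff hM hf.2.1).2 h3
  · intro h1 g hg x hx hx1 hgx
    have hQP : Subgroup.zpowers x ≤ P := Subgroup.zpowers_le.2 hx
    obtain ⟨y, hy⟩ := h.bp.exists_ple hM hQP
    obtain ⟨f, hf, rfl⟩ := hy.left.exists_isBrauerPair hM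
    have h2 := (isNilpotentBlock_sub_iff hM hf.2).1 (h1 _ hQP (by simpa using hx1) f
      ((isInducedBlockIn_centralizer_iff_ple hM hP hQP
        (hab'.trans (Subgroup.centralizer_le hQP)) hc.1 hf.2).2 hy))
    refine (h.nilId_centralizer_iff_of_abelian hM hy hab').1 (by rwa [top_inf_eq]) ⟨hg, ?_⟩
    rw [GT.centralizer_zpowers]
    exact Subgroup.mem_centralizer_singleton_iff.2 (mul_inv_eq_iff_eq_mul.1 hgx)

end Cfsg.Agent.S4650
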