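import Cfsg.Statements.S4651
import Cfsg.Agent.Lib.Block.UnionRank

set_option autoImplicit false
open Cfsg

namespace Cfsg.Agent.S4651

open BT CT GT
open scoped MonoidAlgebra Pointwise

/-- An alternating-sum identity over chains of p-subgroups (the character-count form behind the chain reformulation of Alperin's weight conjecture, which holds unconditionally for the difference k − l). Let b be a block of the finite group G relative to a maximal ideal M of the algebraic integers containing the prime p. Consider the nonempty chains s = {Q_0 < Q_1 < ⋯ < Q_m} of nontrivial p-subgroups of G in which every member is normal in the largest member; let N_G(s) be the intersection of the normalizers of the members (the stabilizer of the chain), and let b_s be the set of irreducible characters of N_G(s) lying in blocks of N_G(s) that induce b. Then #G · (k(b) − l(b)) equals the sum over all such chains s of (−1)^m · #N_G(s) · (k(b_s) − l(b_s)), where k counts irreducible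 characters and l is the p-regular rank; equivalently, k(b) − l(b) is the alternating sum of k(b_s) − l(b_s) over representatives of the conjugacy classes of such chains. -/
theorem result {G : Type*} [Group G] [Finite G] (p : ℕ) [Fact p.Prime] (M : Ideal Cfsg.AlgInt) (hM : Cfsg.IsPModular p M) (b : Set (Cfsg.IrrCharacter G)) (hb : Cfsg.IsPBlock M b) : (Nat.card G : ℤ) * ((Nat.card b : ℤ) - (Cfsg.blockRank p b : ℤ)) = ∑ᶠ s ∈ {s : Finset (Subgroup G) | s.Nonempty ∧ (∀ Q ∈ s, ∀ R ∈ s, Q ≤ R ∨ R ≤ Q) ∧ (∀ Q ∈ s, Q ≠ ⊥ ∧ IsPGroup p Q) ∧ ∃ T ∈ s, ∀ Q ∈ s, Q ≤ T ∧ T ≤ Subgroup.normalizer ((Q : Subgroup G) : Set G)}, (-1 : ℤ) ^ (s.card - 1) * (Nat.card (((⨅ Q ∈ s, Subgroup.normalizer ((Q : Subgroup G) : Set G) : Subgroup G))) : ℤ) * ((Nat.card {ψ : Cfsg.IrrCharacter (((⨅ Q ∈ s, Subgroup.normalizer ((Q : Subgroup G) : Set G) : Subgroup G))) | ∃ β : Set (Cfsg.IrrCharacter (((⨅ Q ∈ s, Subgroup.normalizer ((Q : Subgroup G) : Set G) : Subgroup G)))), ψ ∈ β ∧ Cfsg.IsInducedBlock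 M (((⨅ Q ∈ s, Subgroup.normalizer ((Q : Subgroup G) : Set G) : Subgroup G))) β b} : ℤ) - (Cfsg.blockRank p {ψ : Cfsg.IrrCharacter (((⨅ Q ∈ s, Subgroup.normalizer ((Q : Subgroup G) : Set G) : Subgroup G))) | ∃ β : Set (Cfsg.IrrCharacter (((⨅ Q ∈ s, Subgroup.normalizer ((Q : Subgroup G) : Set G) : Subgroup G)))), ψ ∈ β ∧ Cfsg.IsInducedBlock M (((⨅ Q ∈ s, Subgroup.normalizer ((Q : Subgroup G) : Set G) : Subgroup G))) β b} : ℤ)) := by
  classical
  have := Fintype.ofFinite (Subgroup G)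
  have hc := (bIdem_top_idem hM hb).toCIdem
  set S : Finset (Finset (Subgroup G)) :=
    Finset.univ.filter fun s => IsPChain p s ∧ s.sup id ≤ chStab s with hS
  have h := sum_normalChains_card_sub_rank hM hc S (by simp [hS])
  have h0 : ∅ ∈ S := by
    simp only [hS, Finset.mem_filter, Finset.mem_univ, true_and]
    exact ⟨⟨by simp, by simp⟩, by simp⟩
  have h1 : iset hM ⊤ (idem hM b) = mapSet Subgroup.topEquiv.symm b := by
    rw [← iset_sidem hM (isInt_setIdem_mapSet hM _ (isInt_setIdem hM hb))]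
    congr 1
    refine ga_ext fun g => ?_
    rw [sidem_def, coeff_emb_of_mem _ _ (Subgroup.mem_top g), idem_mapSet,
      MonoidAlgebra.coeff_domCongr]
    rfl
  rw [← Finset.add_sum_erase _ _ h0, Finset.card_empty, pow_zero, one_mul, Finset.sup_empty,
    br_bot, chStab_empty, Subgroup.card_top, h1, blockRank_mapSet, card_mapSet,
    add_eq_zero_iff_eq_neg, ← Finset.sum_neg_distrib] at h
  rw [h, finsum_mem_eq_finite_toFinset_sum _ (Set.toFinite _)]
  have h2 : ∀ s : Finset (Subgroup G), s ∈ S.erase ∅ ↔ s.Nonempty ∧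
      (∀ Q ∈ s, ∀ R ∈ s, Q ≤ R ∨ R ≤ Q) ∧ (∀ Q ∈ s, Q ≠ ⊥ ∧ IsPGroup p Q) ∧
      ∃ T ∈ s, ∀ Q ∈ s, Q ≤ T ∧ T ≤ Subgroup.normalizer ((Q : Subgroup G) : Set G) := fun s => by
    simp only [hS, Finset.mem_erase, Finset.mem_filter, Finset.mem_univ, true_and,
      ← Finset.nonempty_iff_ne_empty]
    refine and_congr_right fun hs => ⟨fun ⟨h1, h2⟩ => ⟨h1.total, h1.mem, _, h1.sup_mem hs,
      fun Q hQ => ⟨Finset.le_sup (f := id) hQ, le_chStab.1 h2 Q hQ⟩⟩,
      fun ⟨h1, h2, T, _, h3⟩ => ⟨⟨h1, h2⟩, le_chStab.2 fun Q hQ =>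
        (Finset.sup_le fun R hR => (h3 R hR).1).trans (h3 Q hQ).2⟩⟩
  refine Finset.sum_congr (Finset.ext fun s => by rw [h2, Set.Finite.mem_toFinset]; rfl)
    fun s hs => ?_
  rw [Set.Finite.mem_toFinset, Set.mem_ofPred_eq, ← h2, Finset.mem_erase] at hs
  obtain ⟨h3, h4⟩ := (Finset.mem_filter.1 hs.2).2
  have h5 : iset hM (chStab s) (br (s.sup id) (idem hM b)) =
      {ψ | ∃ β, ψ ∈ β ∧ IsInducedBlock M (chStab s) β b} := by
    have h6 := hc.br_of_le hM h3.isPGroup_sup le_top (hc.fixed.mono le_top)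
    have h7 : CIdem (chStab s) (br (s.sup id) (idem hM b)) :=
      ⟨SuppIn.mono' (centralizer_sup_le_chStab s) h6.supp,
        (hc.fixed.mono le_top).br (chStab_le_normalizer_sup s), h6.idem⟩
    have h8 : ∀ β : Set (IrrCharacter (chStab s)), IsPBlock M β →
        (IsInducedBlock M (chStab s) β b ↔ β ⊆ iset hM (chStab s) (br (s.sup id) (idem hM b))) :=
      fun β hβ => by
        rw [h7.subset_iset_iff hM hβ, isInducedBlock_iff_br hM h3.isPGroup_sup h4
          (centralizer_sup_le_chStab s) (chStab_le_normalizer_sup s) hβ hb]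
    ext ψ
    exact ⟨fun h => ⟨_, mem_blockOf_self hM ψ, (h8 _ (isPBlock_blockOf ψ)).2 fun _ h' =>
      mem_of_isInt_setIdem hM (h7.isInt_iset hM).1 h h'⟩, fun ⟨β, h, h'⟩ => (h8 β h'.1).1 h' h⟩
  obtain ⟨n, hn⟩ := Nat.exists_eq_add_one_of_ne_zero (Finset.card_ne_zero.2
    (Finset.nonempty_iff_ne_empty.2 hs.1))
  rw [h5, hn, Nat.add_sub_cancel, pow_succ, mul_neg_one, neg_mul, neg_neg, mul_assoc]
  rfl

end Cfsg.Agent.S4651
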