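import Cfsg.Statements.S4654
import Cfsg.Agent.Lib.Block.PairsLoc

set_option autoImplicit false
open Cfsg

namespace Cfsg.Agent.S4654

open BT CT GT
open scoped MonoidAlgebra Pointwise

/-- Fix a prime p and a maximal ideal M of the algebraic integers containing p. Let P be a normal p-subgroup of the finite group G, B a p-block of G and e a p-block of C_G(P) such that (P, e) is a Brauer pair of B (as P is normal, this says that e occurs in the idempotent of B, which is supported on C_G(P)). Let T be the stabilizer of e in G under conjugation. Then the idempotent of e is a block idempotent of T: some block E of T has, at every element of T, the same idempotent coefficient as e (zero off C_G(P)); and the idempotent of B is the sum of the distinct G-conjugates of the idempotent of e: its coefficient at g is the sum over all x in G of the coefficient of e at x⁻¹ g x, divided by the order of T. -/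
theorem result {G : Type*} [Group G] [Fintype G] (p : ℕ) [Fact p.Prime] (M : Ideal Cfsg.AlgInt) (hM : Cfsg.IsPModular p M) (P : Subgroup G) [P.Normal] (hP : IsPGroup p P) (B : Set (Cfsg.IrrCharacter G)) (e : Set (Cfsg.IrrCharacter (Subgroup.centralizer (P : Set G)))) (hBe : Cfsg.IsBrauerPairOf p M B P e) (T : Subgroup G) (hT : ∀ x : G, x ∈ T ↔ Cfsg.StabilizesBlock (Subgroup.centralizer (P : Set G)) e x) : (∃ E : Set (Cfsg.IrrCharacter T), Cfsg.IsPBlock M E ∧ ∀ t : T, Cfsg.blockCoeff E t = Cfsg.subgroupBlockCoeff (Subgroup.centralizer (P : Set G)) e (t : G)) ∧ ∀ g : G, Cfsg.blockCoeff B g = (Nat.card T : ℂ)⁻¹ * ∑ x : G, Cfsg.subgroupBlockCoeff (Subgroup.centralizer (P : Set G)) e (x⁻¹ * g * x) := by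
  have hf := bp_of_isBrauerPair hM hBe.1
  have hB := hBe.2.1
  have hT' : T = NP ⊤ P (sidem hM _ e) := eq_NP_of_forall hM hBe.1.2 fun y => by
    rw [hT, and_iff_right (Subgroup.le_normalizer_of_normal (Subgroup.mem_top y))]
  have hN : ∀ x : G, x ∈ Subgroup.normalizer
      ((Subgroup.centralizer (P : Set G) : Subgroup G) : Set G) := fun x =>
    normalizer_le_normalizer_centralizer P (Subgroup.le_normalizer_of_normal (Subgroup.mem_top x))
  constructor
  · subst hT'
    obtain ⟨E, hE, -, hE2⟩ := exists_block_coeff_eq hM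
      ((le_inf le_top le_rfl).trans hf.inf_centralizer_le_NP) (fun x _ => hN x) hBe.1.2
      (hf.bIdem_NP hM le_top)
    exact ⟨E, hE, hE2⟩
  · intro g
    have := Fintype.ofFinite (⊤ : Subgroup G)
    have hbf := ((isBrauerPairOf_iff hM).1 hBe).2.2
    rw [(bIdem_top_idem hM hB).br_eq_self hM le_top Subgroup.le_normalizer_of_normal hP] at hbf
    have h1 : sidem hM ⊤ (mapSet Subgroup.topEquiv.symm B) = idem hM B := by
      refine ga_ext fun x => ?_
      rw [coeff_sidem, subgroupBlockCoeff, dif_pos (Subgroup.mem_top x), coeff_idem]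
      exact congrArg _ (blockCoeff_mapSet Subgroup.topEquiv.symm B x)
    have h2 := emb_setIdem_eq_orbSum hM le_top (fun x _ => hN x) hBe.1.2
      (isPBlock_mapSet Subgroup.topEquiv.symm hB) (by rw [h1, hbf])
    have h3 := congrArg (fun a : ℂ[G] => a.coeff g)
      (sum_cj_eq_card_smul_orbSum ⊤ (emb (Subgroup.centralizer (P : Set G)) (setIdem e)))
    have h4 : ⊤ ⊓ stabA (emb (Subgroup.centralizer (P : Set G)) (setIdem e)) = T := by
      ext x
      rw [hT', top_inf_eq, mem_stabA, cj_emb_setIdem_eq_iff hM hBe.1.2 (hN x), mem_NP,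
        and_iff_right (Subgroup.mem_top x),
        and_iff_right (Subgroup.le_normalizer_of_normal (Subgroup.mem_top x))]
    simp only [coeff_sum_apply, coeff_cj, coeff_emb_setIdem] at h3
    rw [h4, ← h2, ← Nat.cast_smul_eq_nsmul ℂ, MonoidAlgebra.coeff_smul, Finsupp.smul_apply,
      coeff_emb_of_mem ⊤ _ (Subgroup.mem_top g), coeff_setIdem,
      show (⟨g, Subgroup.mem_top g⟩ : (⊤ : Subgroup G)) = Subgroup.topEquiv.symm g from rfl,
      blockCoeff_mapSet, smul_eq_mul] at h3
    rw [← Fintype.sum_equiv Subgroup.topEquiv.toEquiv _ _ (fun _ => rfl)]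
    erw [h3]
    rw [← mul_assoc, inv_mul_cancel₀ (Nat.cast_ne_zero.2 Nat.card_pos.ne'), one_mul]

end Cfsg.Agent.S4654
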