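import Cfsg.Statements.S4661
import Cfsg.Agent.Lib.Block.PairsP

set_option autoImplicit false
open Cfsg

namespace Cfsg.Agent.S4661

open BT CT GT
open scoped MonoidAlgebra Pointwise

/-- Fix a prime p and a maximal ideal M of the algebraic integers containing p. Let (P, e) be a maximal Brauer pair of the p-block B of the finite group G, Q ≤ P, and f the p-block of C_G(Q) with (Q, f) ≤ (P, e). Then C_P(Q) is contained in a defect group of f (as a block of the group C_G(Q)); and for some x in G the conjugate pair (x Q x⁻¹, conjugate of f) again lies below (P, e) and C_P(x Q x⁻¹) is a defect group of the conjugate of f in C_G(x Q x⁻¹). -/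
theorem result {G : Type*} [Group G] [Fintype G] (p : ℕ) [Fact p.Prime] (M : Ideal Cfsg.AlgInt) (hM : Cfsg.IsPModular p M) (B : Set (Cfsg.IrrCharacter G)) (P Q : Subgroup G) (e : Set (Cfsg.IrrCharacter (Subgroup.centralizer (P : Set G)))) (f : Set (Cfsg.IrrCharacter (Subgroup.centralizer (Q : Set G)))) (hmax : Cfsg.IsMaximalBrauerPair p M B P e) (hQP : Q ≤ P) (hf : Cfsg.IsPBlock M f) (hle : Cfsg.SubpairLE p M Q f P e) : (∃ D : Subgroup (Subgroup.centralizer (Q : Set G)), Cfsg.IsDefectGroup p M f D ∧ (P ⊓ Subgroup.centralizer (Q : Set G)).subgroupOf (Subgroup.centralizer (Q : Set G)) ≤ D) ∧ ∃ x : G, Cfsg.SubpairLE p M (Q.map (MulAut.conj x).toMonoidHom) (Cfsg.conjBlock Q x f) P e ∧ Cfsg.IsDefectGroup p M (Cfsg.conjBlock Q x f) ((P ⊓ Subgroup.centralizer ((Q.map (MulAut.conj x).toMonoidHom) : Set G)).subgroupOf (Subgroup.centralizer ((Q.map (MulAut.conj x).toMonoidHom) : Set G))) := by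
  have h := IsMaximalBrauerPair.maxBP' hM hmax
  have h1 := ((subpairLE_iff hM hmax.1.1).1 hle).2
  have hb := bIdem_sidem hM hf
  have hL : Subgroup.centralizer (Q : Set G) ≤ NP ⊤ Q (sidem hM _ f) :=
    le_NP le_top (Subgroup.centralizer_le_normalizer _) hb.fixed
  constructor
  · obtain ⟨D, hD, hle⟩ := hb.exists_defGrp_ge hM inf_le_right (h.bp.pgroup.to_le inf_le_left)
      (h1.br_inf_ne_zero hM (Subgroup.centralizer_le_normalizer _))
    exact ⟨D.subgroupOf _, (isDefectGroup_subgroupOf_iff_defGrp hM hf hD.le).2 hD,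
      Subgroup.subgroupOf_mono _ hle⟩
  · obtain ⟨x, -, h2, h3⟩ := h.exists_conj_defGrp' hM h1 hL hb
    refine ⟨x, (subpairLE_conjBlock_iff hM hmax.1.1 hf x).2 h2, ?_⟩
    rw [conj_smul_centralizer] at h3
    refine (isDefectGroup_subgroupOf_iff_defGrp hM (isPBlock_conjBlock x hf) inf_le_right).2 ?_
    rw [sidem_conjBlock]
    exact h3

end Cfsg.Agent.S4661
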