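import Cfsg.Statements.S4662
import Cfsg.Agent.Lib.Block.PairsP

set_option autoImplicit false
open Cfsg

namespace Cfsg.Agent.S4662

open BT CT GT
open scoped MonoidAlgebra Pointwise

/-- Fix a prime p and a maximal ideal M of the algebraic integers containing p. Let (P, e) be a maximal Brauer pair of the p-block B of the finite group G, Q ≤ P, and f the p-block of C_G(Q) with (Q, f) ≤ (P, e). Let T be the stabilizer of f in N_G(Q). Then the idempotent of f is a block idempotent of T, and N_P(Q) is contained in a defect group of that block of T; moreover for some x in G the conjugate pair (x Q x⁻¹, conjugate of f) again lies below (P, e) and, with T' the stabilizer of the conjugate of f in N_G(x Q x⁻¹), N_P(x Q x⁻¹) is a defect group of the block of T' whose idempotent is that of the conjugate of f. -/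
theorem result {G : Type*} [Group G] [Fintype G] (p : ℕ) [Fact p.Prime] (M : Ideal Cfsg.AlgInt) (hM : Cfsg.IsPModular p M) (B : Set (Cfsg.IrrCharacter G)) (P Q : Subgroup G) (e : Set (Cfsg.IrrCharacter (Subgroup.centralizer (P : Set G)))) (f : Set (Cfsg.IrrCharacter (Subgroup.centralizer (Q : Set G)))) (hmax : Cfsg.IsMaximalBrauerPair p M B P e) (hQP : Q ≤ P) (hf : Cfsg.IsPBlock M f) (hle : Cfsg.SubpairLE p M Q f P e) (T : Subgroup G) (hT : ∀ y : G, y ∈ T ↔ y ∈ Subgroup.normalizer (Q : Set G) ∧ Cfsg.StabilizesBlock (Subgroup.centralizer (Q : Set G)) f y) : (∃ F : Set (Cfsg.IrrCharacter T), Cfsg.IsPBlock M F ∧ (∀ t : T, Cfsg.blockCoeff F t = Cfsg.subgroupBlockCoeff (Subgroup.centralizer (Q : Set G)) f (t : G)) ∧ ∃ D : Subgroup T, Cfsg.IsDefectGroup p M F D ∧ (P ⊓ Subgroup.normalizer (Q : Set G)).subgroupOf T ≤ D) ∧ ∃ x : G, Cfsg.SubpairLE p M (Q.map (MulAut.conj x).toMonoidHom) (Cfsg.conjBlock Q x f) P e ∧ ∀ (T' : Subgroup G), (∀ y : G, y ∈ T' ↔ y ∈ Subgroup.normalizer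 ((Q.map (MulAut.conj x).toMonoidHom) : Set G) ∧ Cfsg.StabilizesBlock (Subgroup.centralizer ((Q.map (MulAut.conj x).toMonoidHom) : Set G)) (Cfsg.conjBlock Q x f) y) → ∃ F' : Set (Cfsg.IrrCharacter T'), Cfsg.IsPBlock M F' ∧ (∀ t : T', Cfsg.blockCoeff F' t = Cfsg.subgroupBlockCoeff (Subgroup.centralizer ((Q.map (MulAut.conj x).toMonoidHom) : Set G)) (Cfsg.conjBlock Q x f) (t : G)) ∧ Cfsg.IsDefectGroup p M F' ((P ⊓ Subgroup.normalizer ((Q.map (MulAut.conj x).toMonoidHom) : Set G)).subgroupOf T') := by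
  have h := IsMaximalBrauerPair.maxBP' hM hmax
  have h1 := ((subpairLE_iff hM hmax.1.1).1 hle).2
  obtain rfl := eq_NP_of_forall hM hf hT
  have hb := h1.left.bIdem_NP hM le_top
  have hC : ∀ {Q : Subgroup G} {y : (ResF hM)[G]}, BP p ⊤ Q y →
      Subgroup.centralizer (Q : Set G) ≤ NP ⊤ Q y := fun h =>
    (le_inf le_top le_rfl).trans h.inf_centralizer_le_NP
  constructor
  · obtain ⟨E, hE, hE1, hE2⟩ := exists_block_coeff_eq hM (hC h1.left)
      (NP_le_normalizer.trans (normalizer_le_normalizer_centralizer Q)) hf hb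
    obtain ⟨D, hD, hle⟩ := hb.exists_defGrp_ge hM inf_le_right (h.bp.pgroup.to_le inf_le_left)
      (h1.br_inf_ne_zero hM NP_le_normalizer)
    refine ⟨E, hE, hE2, D.subgroupOf _, (isDefectGroup_subgroupOf_iff_defGrp hM hE hD.le).2
      (by rw [hE1]; exact hD), ?_⟩
    rw [← h1.inf_NP hM le_top]
    exact Subgroup.subgroupOf_mono _ hle
  · obtain ⟨x, -, h2, h3⟩ := h.exists_conj_defGrp' hM h1 le_rfl hb
    refine ⟨x, (subpairLE_conjBlock_iff hM hmax.1.1 hf x).2 h2, fun T' hT' => ?_⟩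
    obtain rfl := eq_NP_of_forall hM (isPBlock_conjBlock x hf) hT'
    rw [conj_smul_NP_of_mem (mem_normalizer_top x), ← sidem_conjBlock] at h3
    rw [← sidem_conjBlock] at h2
    obtain ⟨E, hE, hE1, hE2⟩ := exists_block_coeff_eq hM (hC h2.left)
      (NP_le_normalizer.trans (normalizer_le_normalizer_centralizer _))
      (isPBlock_conjBlock x hf) (h2.left.bIdem_NP hM le_top)
    refine ⟨E, hE, hE2, ?_⟩
    have h4 := h2.inf_NP hM le_top
    rw [conj_smul_eq_map] at h4
    rw [← h4]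
    exact (isDefectGroup_subgroupOf_iff_defGrp hM hE inf_le_right).2 (by rw [hE1]; exact h3)

end Cfsg.Agent.S4662
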