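import Cfsg.Statements.S4665
import Cfsg.Agent.Lib.Char.BrauerApp

set_option autoImplicit false
open Cfsg

namespace Cfsg.Agent.S4665

/-- Fix a prime p, a maximal ideal M of the algebraic integers containing p, and a p-block B of the finite group G, and let p^a be the p-part of the order of G. Let χ be an integer combination of the irreducible characters in B. If the function that agrees with χ on p-regular elements and vanishes on p-singular elements is again an integer combination of the irreducible characters in B, then p^a divides χ(1). -/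
theorem result {G : Type*} [Group G] [Fintype G] (p : ℕ) [Fact p.Prime] (M : Ideal Cfsg.AlgInt) (hM : Cfsg.IsPModular p M) (B : Set (Cfsg.IrrCharacter G)) (hB : Cfsg.IsPBlock M B) (χ : G → ℂ) (hχ : (∃ n : Cfsg.IrrCharacter G → ℤ, ∀ g : G, χ g = ∑ᶠ ψ ∈ B, (n ψ : ℂ) * (ψ : G → ℂ) g)) (h0 : (∃ n : Cfsg.IrrCharacter G → ℤ, ∀ g : G, Cfsg.pRegularPart p χ g = ∑ᶠ ψ ∈ B, (n ψ : ℂ) * (ψ : G → ℂ) g)) : ∃ k : ℤ, χ 1 = (p ^ (Nat.card G).factorization p : ℂ) * k := by
  classical
  have hp : p.Prime := Fact.out
  obtain ⟨n, hn⟩ := h0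
  have hg : IsGeneralizedCharacter G (pRegularPart p χ) := by
    have := CT.isGen_of_int_comb (fun ψ : IrrCharacter G => if ψ ∈ B then n ψ else 0)
    convert this using 1
    ext g
    rw [hn, finsum_mem_eq_finite_toFinset_sum _ (Set.toFinite B), Finset.sum_apply,
      ← Finset.sum_subset (Finset.subset_univ (Set.toFinite B).toFinset)]
    · refine Finset.sum_congr rfl fun ψ hψ => ?_
      simp [(Set.Finite.mem_toFinset _).1 hψ]
    · intro ψ _ hψ
      simp [mt (Set.Finite.mem_toFinset (Set.toFinite B)).2 hψ]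
  obtain ⟨k, hk⟩ := hg.pPart_dvd_of_vanish hp fun x h1 hx => by
    rw [CT.pRegularPart_apply, if_pos (GT.IsPElt.dvd_orderOf hx h1)]
  have h1 : ¬ p ∣ orderOf (1 : G) := by simpa using hp.one_lt.ne'
  rw [CT.pRegularPart_apply, if_neg h1] at hk
  exact ⟨k, by simpa using hk⟩

end Cfsg.Agent.S4665
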