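import Cfsg.Statements.S4666
import Cfsg.Agent.Lib.Block.Heights

set_option autoImplicit false
open Cfsg

namespace Cfsg.Agent.S4666

open CT BT
open scoped MonoidAlgebra ComplexConjugate

/-- Fix a prime p and a maximal ideal M of the algebraic integers containing p, and a p-block B of the finite group G of defect d. For every integer combination χ of the irreducible characters in B, p^d times the function that agrees with χ on p-regular elements and vanishes elsewhere is again an integer combination of the irreducible characters in B. -/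
theorem result {G : Type*} [Group G] [Fintype G] (p : ℕ) [Fact p.Prime] (M : Ideal Cfsg.AlgInt) (hM : Cfsg.IsPModular p M) (B : Set (Cfsg.IrrCharacter G)) (hB : Cfsg.IsPBlock M B) (χ : G → ℂ) (hχ : (∃ n : Cfsg.IrrCharacter G → ℤ, ∀ g : G, χ g = ∑ᶠ ψ ∈ B, (n ψ : ℂ) * (ψ : G → ℂ) g)) : (∃ n : Cfsg.IrrCharacter G → ℤ, ∀ g : G, (p ^ Cfsg.blockDefect p B : ℂ) * Cfsg.pRegularPart p χ g = ∑ᶠ ψ ∈ B, (n ψ : ℂ) * (ψ : G → ℂ) g) := by
  obtain ⟨n, hn⟩ := hχ
  refine ⟨fun ψ => ∑ η ∈ bset B, n η * cm p B η.1 ψ.1, fun g => ?_⟩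
  have h : χ = ∑ ψ ∈ bset B, (n ψ : ℂ) • ψ.1 := by
    ext g; rw [hn, finsum_mem_eq_sum_bset, Finset.sum_apply]; rfl
  rw [finsum_mem_eq_sum_bset, h, pRegularPart_sum, Finset.sum_apply, Finset.mul_sum]
  push_cast
  simp only [Finset.sum_mul]
  rw [Finset.sum_comm]
  refine Finset.sum_congr rfl fun η hη => ?_
  have := congrFun (pow_smul_pRegularPart_eq_sum hM hB (mem_bset.1 hη)) g
  simp only [Pi.smul_apply, smul_eq_mul, Finset.sum_apply] at this
  rw [pRegularPart_smul, Pi.smul_apply, smul_eq_mul, mul_left_comm, this, Finset.mul_sum]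
  simp only [mul_assoc]

end Cfsg.Agent.S4666
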