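import Cfsg.Statements.S4668
import Cfsg.Agent.Lib.Block.CentralDef
import Cfsg.Agent.Lib.Grp.Coprime

set_option autoImplicit false
open Cfsg

namespace Cfsg.Agent.S4668

open CT BT
open scoped MonoidAlgebra ComplexConjugate

/-- Fix a prime p and a maximal ideal M of the algebraic integers containing p. Let Q₀ < Q₁ < ⋯ < Q_m be a strictly increasing chain of p-subgroups of the finite group G and N the intersection of their normalizers. Then every block idempotent of N is supported on C_G(Q_m): for every p-block E of N, the idempotent coefficient of E vanishes at every element of N outside C_G(Q_m). -/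
theorem result {G : Type*} [Group G] [Fintype G] (p : ℕ) [Fact p.Prime] (M : Ideal Cfsg.AlgInt) (hM : Cfsg.IsPModular p M) (m : ℕ) (Q : Fin (m + 1) → Subgroup G) (hQ : StrictMono Q) (hQp : ∀ i, IsPGroup p (Q i)) (N : Subgroup G) (hN : ∀ g : G, g ∈ N ↔ ∀ i, g ∈ Subgroup.normalizer (Q i : Set G)) (E : Set (Cfsg.IrrCharacter N)) (hE : Cfsg.IsPBlock M E) (n : N) (hn : (n : G) ∉ Subgroup.centralizer (Q (Fin.last m) : Set G)) : Cfsg.blockCoeff E n = 0 := by
  by_contra h
  have hreg : ¬ p ∣ orderOf n := fun h' => h (blockCoeff_eq_zero_of_dvd_orderOf hM hE h')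
  have hle : ∀ i, Q i ≤ Q (Fin.last m) := fun i => hQ.monotone (Fin.le_last i)
  set P : Subgroup N := (Q (Fin.last m)).subgroupOf N
  have hNn : N ≤ Subgroup.normalizer (Q (Fin.last m) : Set G) := fun g hg => (hN g).1 hg _
  have : P.Normal := (Subgroup.normal_subgroupOf_iff_le_normalizer_inf.2
    (le_trans (le_inf hNn Subgroup.le_normalizer) Subgroup.inf_normalizer_le_normalizer_inf))
  have hP : IsPGroup p P := (hQp _).comap_subtype
  have h1 := suppIn_setIdem_of_suppIn_idem hM (Subgroup.centralizer (P : Set N)) hE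
    (br_eq_self_iff.1 (br_eq_self_of_normal hM hP (isCentral_idem hM E) (idem_mul_self hM hE))) n h
  have h2 : ∀ g ∈ N, g ∈ Q (Fin.last m) → g ∈ Subgroup.centralizer (Subgroup.zpowers (n : G) : Set G) :=
    fun g hg hg' => by
      rw [centralizer_zpowers_eq, Subgroup.mem_centralizer_singleton_iff]
      exact congrArg Subtype.val (h1 ⟨g, hg⟩ hg')
  have hn' : ¬ p ∣ Nat.card (Subgroup.zpowers (n : G)) := by
    rwa [Nat.card_zpowers, Subgroup.orderOf_coe]
  have hnN : ∀ i, Subgroup.zpowers (n : G) ≤ Subgroup.normalizer (Q i : Set G) := fun i =>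
    Subgroup.zpowers_le.2 ((hN n).1 n.2 i)
  have h3 : ∀ i, Q i ≤ Subgroup.centralizer (Subgroup.zpowers (n : G) : Set G) := by
    intro i
    induction i using Fin.induction with
    | zero => exact fun g hg => h2 g ((hN g).2 fun i =>
        Subgroup.le_normalizer (hQ.monotone (Fin.zero_le i) hg)) (hle _ hg)
    | succ i ih =>
      refine GT.le_centralizer_of_pxq (hQp i.castSucc) hn' (hQp i.succ)
        ((hQ.monotone Fin.castSucc_lt_succ.le).trans Subgroup.le_normalizer) (hnN _) ih
        fun g hg => h2 g ((hN g).2 fun j => ?_) (hle _ hg.1)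
      rcases le_or_gt j i.castSucc with hj | hj
      · exact Subgroup.centralizer_le_normalizer _ (Subgroup.centralizer_le (hQ.monotone hj) hg.2)
      · exact Subgroup.le_normalizer (hQ.monotone (Fin.castSucc_lt_iff_succ_le.1 hj) hg.1)
  exact hn (Subgroup.le_centralizer_iff.1 (h3 _) (Subgroup.mem_zpowers _))

end Cfsg.Agent.S4668
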