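import Cfsg.Statements.S4670
import Cfsg.Agent.Lib.Block.PairsLoc

set_option autoImplicit false
open Cfsg

namespace Cfsg.Agent.S4670

open BT CT GT
open scoped MonoidAlgebra Pointwise

/-- Fix a prime p and a maximal ideal M of the algebraic integers containing p. Let P be a p-subgroup of the finite group G and H a subgroup containing N_G(P). For every p-block B of G with defect group P there is exactly one p-block c of H with defect group P whose idempotent agrees with that of B, modulo the local ideal at M, at every element of C_G(P) (their Brauer-map images at P coincide); and every p-block c of H with defect group P arises in this way from exactly one such B. This is the Brauer correspondence over H. -/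
theorem result {G : Type*} [Group G] [Fintype G] (p : ℕ) [Fact p.Prime] (M : Ideal Cfsg.AlgInt) (hM : Cfsg.IsPModular p M) (P H : Subgroup G) (hP : IsPGroup p P) (hH : Subgroup.normalizer (P : Set G) ≤ H) : (∀ B : Set (Cfsg.IrrCharacter G), Cfsg.IsPBlock M B → Cfsg.IsDefectGroup p M B P → ∃! c : Set (Cfsg.IrrCharacter H), Cfsg.IsPBlock M c ∧ Cfsg.IsDefectGroup p M c (P.subgroupOf H) ∧ ∀ x : G, x ∈ Subgroup.centralizer (P : Set G) → Cfsg.MemLocalIdeal M (Cfsg.blockCoeff B x - Cfsg.subgroupBlockCoeff H c x)) ∧ (∀ c : Set (Cfsg.IrrCharacter H), Cfsg.IsPBlock M c → Cfsg.IsDefectGroup p M c (P.subgroupOf H) → ∃! B : Set (Cfsg.IrrCharacter G), Cfsg.IsPBlock M B ∧ Cfsg.IsDefectGroup p M B P ∧ ∀ x : G, x ∈ Subgroup.centralizer (P : Set G) → Cfsg.MemLocalIdeal M (Cfsg.blockCoeff B x - Cfsg.subgroupBlockCoeff H c x)) := by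
  have hPH : P ≤ H := Subgroup.le_normalizer.trans hH
  have hN : H ⊓ Subgroup.normalizer (P : Set G) = ⊤ ⊓ Subgroup.normalizer (P : Set G) := by
    rw [top_inf_eq, inf_eq_right.2 hH]
  have key : ∀ (B : Set (IrrCharacter G)) (c : Set (IrrCharacter H)), IsPBlock M B →
      IsPBlock M c → ((∀ x : G, x ∈ Subgroup.centralizer (P : Set G) →
        MemLocalIdeal M (blockCoeff B x - subgroupBlockCoeff H c x)) ↔
        br P (idem hM B) = br P (sidem hM H c)) := fun B c hB hc => by
    rw [← sub_eq_zero, ← map_sub, br_eq_zero_iff]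
    refine forall₂_congr fun x _ => ?_
    rw [← mem_locIdeal hM, ← red_eq_iff hM (blockCoeff_mem_locRing hM hB x) (by
      rw [← coeff_emb_setIdem]; exact IsInt.emb hM (isInt_setIdem hM hc) x), ← coeff_idem,
      ← coeff_sidem, MonoidAlgebra.coeff_sub, Finsupp.sub_apply, sub_eq_zero]
  constructor
  · intro B hB hD
    have h1 := first_main_br hM (bIdem_top_idem hM hB) ((isDefectGroup_iff_defGrp hM hB P).1 hD)
    rw [← hN] at h1
    obtain ⟨y, hy, h2, h3⟩ := first_main_surj hM hPH h1.1 h1.2
    obtain ⟨c, hc, rfl⟩ := hy.exists_block hM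
    refine ⟨c, ⟨hc, (isDefectGroup_subgroupOf_iff_defGrp hM hc hPH).2 h2,
      (key B c hB hc).2 h3.symm⟩, fun c' hc' => ?_⟩
    refine sidem_injective hM hc'.1 hc (first_main_inj hM hPH hP (bIdem_sidem hM hc'.1) hy ?_)
    rw [← (key B c' hB hc'.1).1 hc'.2.2, h3, h1.1.idem]
    exact h1.1.ne_zero
  · intro c hc hD
    have h1 := first_main_br hM (bIdem_sidem hM hc)
      ((isDefectGroup_subgroupOf_iff_defGrp hM hc hPH).1 hD)
    rw [hN] at h1
    obtain ⟨y, hy, h2, h3⟩ := first_main_surj hM le_top h1.1 h1.2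
    obtain ⟨B, hB, rfl⟩ := hy.exists_block_top hM
    refine ⟨B, ⟨hB, (isDefectGroup_iff_defGrp hM hB P).2 h2, (key B c hB hc).2 h3⟩,
      fun B' hB' => ?_⟩
    refine idem_injective hM hB'.1 hB (first_main_inj hM le_top hP (bIdem_top_idem hM hB'.1) hy ?_)
    rw [(key B' c hB'.1 hc).1 hB'.2.2, h3, h1.1.idem]
    exact h1.1.ne_zero

end Cfsg.Agent.S4670
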