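import Cfsg.Statements.S4672
import Cfsg.Agent.Lib.Block.CoverP
-- import your own Cfsg.Agent.* helpers here

set_option autoImplicit false
open Cfsg

namespace Cfsg.Agent.S4672

open BT CT GT
open scoped Pointwise

/-- Fix a prime p and a maximal ideal M of the algebraic integers containing p. Let N be a normal subgroup of the finite group G of p-power index and c a p-block of N stable under conjugation by G. Then the idempotent of c is a block idempotent of G: there is a p-block B of G whose idempotent coefficients agree with those of c on N and vanish off N; and for every defect group P of such a block B, G = NP and P ∩ N is a defect group of c. -/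
theorem result {G : Type*} [Group G] [Fintype G] (p : ℕ) [Fact p.Prime] (M : Ideal Cfsg.AlgInt) (hM : Cfsg.IsPModular p M) (N : Subgroup G) [N.Normal] (hN : ∃ k : ℕ, N.index = p ^ k) (c : Set (Cfsg.IrrCharacter N)) (hc : Cfsg.IsPBlock M c) (hst : ∀ x : G, Cfsg.StabilizesBlock N c x) : (∃ B : Set (Cfsg.IrrCharacter G), Cfsg.IsPBlock M B ∧ ∀ g : G, Cfsg.blockCoeff B g = Cfsg.subgroupBlockCoeff N c g) ∧ ∀ B : Set (Cfsg.IrrCharacter G), Cfsg.IsPBlock M B → (∀ g : G, Cfsg.blockCoeff B g = Cfsg.subgroupBlockCoeff N c g) → ∀ P : Subgroup G, Cfsg.IsDefectGroup p M B P → N ⊔ P = ⊤ ∧ Cfsg.IsDefectGroup p M c ((P ⊓ N).subgroupOf N) := by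
  obtain ⟨k, hk⟩ := hN
  have hk' : N.relIndex ⊤ = p ^ k := by rwa [Subgroup.relIndex_top_right]
  have hf := bIdem_sidem hM hc
  have hs : ∀ g : G, g • c = c := fun g =>
    (smul_block_eq_iff hM hc g).2 ((stabilizesBlock_iff_forall_smul_mem c g).1 (hst g))
  have hfix : IsFixed ⊤ (sidem hM N c) :=
    isFixed_iff_cj.2 fun g _ => (cj_sidem_eq_iff hM hc g).2 (hs g)
  constructor
  · obtain ⟨B, hB, hBf⟩ := (hf.of_relIndex_eq_pow hM le_top Subgroup.le_normalizer_of_normal hk'
      hfix).exists_block_top hM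
    refine ⟨B, hB, fun g => ?_⟩
    rw [← coeff_emb_setIdem, ← coeff_setIdem]
    congr 2
    refine CIdem.eq_of_redA_eq hM (H := ⊤) (cIdem_top_iff.2 ⟨isCentral_setIdem B, ?_⟩)
      (cIdem_top_iff.2 ⟨isCentral_iff_cj.2 fun g => ?_, (cIdem_emb_setIdem N c).idem⟩)
      (isInt_setIdem hM hB) ((isInt_setIdem hM hc).emb hM) (by rw [redA_emb_setIdem, ← hBf]; rfl)
    · rw [setIdem_mul, Set.inter_self]
    · rw [← emb_setIdem_smul, hs]
  · intro B hB hBc P hP
    have h1 : idem hM B = sidem hM N c := ga_ext fun g => by rw [coeff_idem, coeff_sidem, hBc]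
    have h2 := (isDefectGroup_iff_defGrp hM hB P).1 hP
    rw [h1] at h2
    obtain ⟨h3, h4⟩ := h2.sup_eq_of_relIndex_eq_pow hM le_top Subgroup.le_normalizer_of_normal hk'
      hf hfix
    exact ⟨h3, (isDefectGroup_subgroupOf_iff_defGrp hM hc inf_le_right).2 h4⟩

end Cfsg.Agent.S4672
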