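import Cfsg.Statements.S4673
import Cfsg.Agent.Lib.Block.CoverP
-- import your own Cfsg.Agent.* helpers here

set_option autoImplicit false
open Cfsg

namespace Cfsg.Agent.S4673

open BT CT GT
open scoped Pointwise

/-- Fix a prime p and a maximal ideal M of the algebraic integers containing p. Let N ≤ L be normal subgroups of the finite group G with L/N a p-group, let B be a p-block of G covering the p-block c of N (some member of B has a constituent in c on restriction to N), and suppose that N contains a defect group of B. Then the stabilizer T of c in G satisfies T ∩ L = N. -/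
theorem result {G : Type*} [Group G] [Fintype G] (p : ℕ) [Fact p.Prime] (M : Ideal Cfsg.AlgInt) (hM : Cfsg.IsPModular p M) (N L : Subgroup G) [N.Normal] [L.Normal] [Fintype N] (hNL : N ≤ L) (hLN : ∃ k : ℕ, (N.subgroupOf L).index = p ^ k) (B : Set (Cfsg.IrrCharacter G)) (hB : Cfsg.IsPBlock M B) (c : Set (Cfsg.IrrCharacter N)) (hc : Cfsg.IsPBlock M c) (hcov : (∃ χ ∈ B, ∃ θ ∈ c, Cfsg.classInner (fun n : N => (χ : G → ℂ) n) (θ : N → ℂ) ≠ 0)) (hD : ∃ D : Subgroup G, Cfsg.IsDefectGroup p M B D ∧ D ≤ N) (T : Subgroup G) (hT : ∀ x : G, x ∈ T ↔ Cfsg.StabilizesBlock N c x) : T ⊓ L = N := by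
  obtain ⟨k, hk⟩ := hLN
  obtain ⟨D, hD, hDN⟩ := hD
  have hf := bIdem_sidem hM hc
  have hT' : T = stabA (sidem hM N c) := by
    ext x
    rw [hT, stabilizesBlock_iff_forall_smul_mem, mem_stabA_sidem_iff hM hc]
  have hNT : N ≤ T := hT' ▸ isFixed_iff_le_stabA.1 hf.fixed
  have hfix : IsFixed (T ⊓ L) (sidem hM N c) := isFixed_iff_le_stabA.2 (hT' ▸ inf_le_left)
  obtain ⟨j, hj⟩ : ∃ j, N.relIndex (T ⊓ L) = p ^ j := by
    have h1 : N.relIndex (T ⊓ L) ∣ p ^ k := hk ▸ relIndex_dvd_of_le_right inf_le_right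
    obtain ⟨j, -, hj⟩ := (Nat.dvd_prime_pow Fact.out).1 h1
    exact ⟨j, hj⟩
  obtain ⟨R, hR, hRp, h1, h2⟩ := hf.exists_sup_eq_br_ne_zero hM (le_inf hNT hNL)
    Subgroup.le_normalizer_of_normal hj hfix
  have h0 := (covers_iff_mul hM hB hc).1 ((covers_iff_classInner N B c).2 hcov)
  obtain ⟨d, hd, hd0⟩ := exists_bIdem_mul_ne_zero hM L h0
  have hdN := hd.toCIdem.of_relIndex_eq_pow hM hNL Subgroup.le_normalizer_of_normal hk
  rw [mul_assoc, hf.toCIdem.commute hdN] at hd0
  have h3 : d * sidem hM N c = sidem hM N c :=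
    (hf.prim d hdN).resolve_right (right_ne_zero_of_mul hd0)
  have hRL : R ≤ L := hR.trans inf_le_right
  have h4 : br R d ≠ 0 := by
    rw [← h3, br_mul hRp (hd.fixed.mono hRL) (hfix.mono hR)] at h2
    exact left_ne_zero_of_mul h2
  rw [← mul_assoc] at hd0
  have he := bIdem_top_idem hM hB
  have h5 := hd.br_mul_ne_zero hM le_top Subgroup.le_normalizer_of_normal he.supp he.idem
    (he.fixed.mono le_top) (left_ne_zero_of_mul hd0) hRp hRL h4
  rw [br_mul hRp (he.fixed.mono le_top) (hd.fixed.mono hRL)] at h5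
  obtain ⟨g, -, hg⟩ := ((isDefectGroup_iff_defGrp hM hB D).1 hD).max R le_top hRp
    (left_ne_zero_of_mul h5)
  have h6 : R ≤ N := fun x hx => by
    have := hDN (hg (Subgroup.mem_map_of_mem _ hx))
    have h7 := ‹N.Normal›.conj_mem' _ this g
    simpa [mul_assoc] using h7
  rw [← h1, sup_eq_left.2 h6]

end Cfsg.Agent.S4673
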