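import Cfsg.Statements.S4674
import Cfsg.Agent.Lib.Block.HarrisKnorr
-- import your own Cfsg.Agent.* helpers here

set_option autoImplicit false
open Cfsg

namespace Cfsg.Agent.S4674

open BT CT GT
open scoped Pointwise

/-- Fix a prime p and a maximal ideal M of the algebraic integers containing p. Let N be a normal subgroup of the finite group G, Q a p-subgroup of N, H = N_G(Q) and L = H ∩ N = N_N(Q). Let d be a p-block of N with defect group Q and e the p-block of L with defect group Q that induces d inside N (its Brauer correspondent). Then block induction from H to G is a bijection from the p-blocks of H covering e onto the p-blocks of G covering d: every block of H covering e induces exactly one block of G, and that block covers d; and every block of G covering d is induced by exactly one block of H covering e. -/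
theorem result {G : Type*} [Group G] [Fintype G] (p : ℕ) [Fact p.Prime] (M : Ideal Cfsg.AlgInt) (hM : Cfsg.IsPModular p M) (N : Subgroup G) [N.Normal] [Fintype N] (Q : Subgroup G) (hQ : IsPGroup p Q) (hQN : Q ≤ N) [Fintype ↥(Subgroup.normalizer (Q : Set G) ⊓ N)] (d : Set (Cfsg.IrrCharacter N)) (hd : Cfsg.IsPBlock M d) (hdQ : Cfsg.IsDefectGroup p M d (Q.subgroupOf N)) (e : Set (Cfsg.IrrCharacter ↥(Subgroup.normalizer (Q : Set G) ⊓ N))) (he : Cfsg.IsPBlock M e) (heQ : Cfsg.IsDefectGroup p M e (Q.subgroupOf (Subgroup.normalizer (Q : Set G) ⊓ N))) (hed : Cfsg.IsInducedBlockIn M N (Subgroup.normalizer (Q : Set G) ⊓ N) e d) : (∀ c : Set (Cfsg.IrrCharacter ↥(Subgroup.normalizer (Q : Set G))), Cfsg.IsPBlock M c → (∃ ψ ∈ c, ∃ ξ ∈ e, Cfsg.classInner (fun l : ↥(Subgroup.normalizer (Q : Set G) ⊓ N) => (ψ : ↥(Subgroup.normalizer (Q : Set G)) → ℂ) (Subgroup.inclusion inf_le_left l)) (ξ : ↥(Subgroup.normalizer (Q : Set G) ⊓ N) → ℂ) ≠ 0) → ∃! B : Set (Cfsg.IrrCharacter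 G), Cfsg.IsInducedBlock M (Subgroup.normalizer (Q : Set G)) c B ∧ (∃ χ ∈ B, ∃ θ ∈ d, Cfsg.classInner (fun n : N => (χ : G → ℂ) n) (θ : N → ℂ) ≠ 0)) ∧ (∀ B : Set (Cfsg.IrrCharacter G), Cfsg.IsPBlock M B → (∃ χ ∈ B, ∃ θ ∈ d, Cfsg.classInner (fun n : N => (χ : G → ℂ) n) (θ : N → ℂ) ≠ 0) → ∃! c : Set (Cfsg.IrrCharacter ↥(Subgroup.normalizer (Q : Set G))), (Cfsg.IsPBlock M c ∧ ∃ ψ ∈ c, ∃ ξ ∈ e, Cfsg.classInner (fun l : ↥(Subgroup.normalizer (Q : Set G) ⊓ N) => (ψ : ↥(Subgroup.normalizer (Q : Set G)) → ℂ) (Subgroup.inclusion inf_le_left l)) (ξ : ↥(Subgroup.normalizer (Q : Set G) ⊓ N) → ℂ) ≠ 0) ∧ Cfsg.IsInducedBlock M (Subgroup.normalizer (Q : Set G)) c B) := by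
  let K := Subgroup.normalizer (Q : Set G)
  have hQK : Q ≤ K := Subgroup.le_normalizer
  have hQL : Q ≤ K ⊓ N := le_inf hQK hQN
  have hCK : Subgroup.centralizer (Q : Set G) ≤ K := Subgroup.centralizer_le_normalizer _
  have hf := bIdem_sidem hM hd
  have hf' := bIdem_sidem hM he
  have hfQ := (isDefectGroup_subgroupOf_iff_defGrp hM hd hQN).1 hdQ
  have hfQ' := (isDefectGroup_subgroupOf_iff_defGrp hM he hQL).1 heQ
  have hbr : br Q (sidem hM N d) = sidem hM (K ⊓ N) e := by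
    have h1 := (isInducedBlockIn_iff_br_mul_br_ne_zero hM inf_le_right hQ hQN
      (hQL.trans Subgroup.le_normalizer) (le_inf (inf_le_right.trans hCK) inf_le_left) he
      (hf'.fixed.mono hQL) hfQ'.br_ne hd).1 hed
    rw [hf'.br_eq_self hM hQL inf_le_left hQ] at h1
    exact (first_main_of_br_mul hM hQN (by rwa [inf_comm]) (by rwa [inf_comm]) hf h1).2
  have hcov : ∀ c : Set (IrrCharacter K), IsPBlock M c →
      ((∃ ψ ∈ c, ∃ ξ ∈ e, classInner (fun l : ↥(K ⊓ N) => ψ.1 (Subgroup.inclusion inf_le_left l))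
        ξ.1 ≠ 0) ↔ sidem hM K c * sidem hM (K ⊓ N) e ≠ 0) := fun c hc => by
    rw [← coversLe_iff_mul hM inf_le_left hc he, coversLe_iff_classInner]
    rfl
  have hmul : ∀ B : Set (IrrCharacter G), br Q (idem hM B * sidem hM N d) =
      br Q (idem hM B) * sidem hM (K ⊓ N) e := fun B => by
    rw [br_mul hQ ((isCentral_idem hM B).isFixed Q) (hf.fixed.mono hQN), hbr]
  simp only [← covers_iff_classInner]
  constructor
  · intro c hc h0
    rw [hcov c hc] at h0
    obtain ⟨B, hB⟩ := inducedBlockDefined_of_normal hM hQ hQK hCK le_rfl hc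
    refine ⟨B, ⟨hB, ?_⟩, fun B' hB' => isInducedBlock_unique hM hB'.1 hB⟩
    rw [covers_iff_mul hM hB.2.1 hd]
    intro h1
    apply h0
    have h2 := hmul B
    rw [h1, map_zero] at h2
    rw [← (isInducedBlock_iff_br hM hQ hQK hCK le_rfl hc hB.2.1).1 hB,
      (cIdem_normalizer_br hM hQ (bIdem_top_idem hM hB.2.1).toCIdem).commute
        (bIdem_sidem hM hc).toCIdem, mul_assoc, ← h2, mul_zero]
  · intro B hB h0
    have he' := bIdem_top_idem hM hB
    have h1 := hf.br_mul_ne_zero hM le_top Subgroup.le_normalizer_of_normal he'.supp he'.idem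
      (he'.fixed.mono le_top) ((covers_iff_mul hM hB hd).1 h0) hQ hQN hfQ.br_ne
    rw [hmul] at h1
    obtain ⟨x, hx, h2⟩ := exists_bIdem_mul_ne_zero' hM K h1
    obtain ⟨c, hc, rfl⟩ := hx.exists_block hM
    have h3 := cIdem_normalizer_br hM hQ he'.toCIdem
    rw [← mul_assoc, ← h3.commute hx.toCIdem] at h2
    have h4 := (hx.prim _ h3).resolve_right (left_ne_zero_of_mul h2)
    rw [h4] at h2
    refine ⟨c, ⟨⟨hc, (hcov c hc).2 h2⟩, (isInducedBlock_iff_br hM hQ hQK hCK le_rfl hc hB).2 h4⟩,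
      fun c' hc' => sidem_injective hM hc'.1.1 hc ?_⟩
    exact harrisKnorr_unique hM he' hf' hfQ' (bIdem_sidem hM hc'.1.1) hx
      ((hcov c' hc'.1.1).1 hc'.1.2) h2
      ((isInducedBlock_iff_br hM hQ hQK hCK le_rfl hc'.1.1 hB).1 hc'.2) h4

end Cfsg.Agent.S4674
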