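import Cfsg.Statements.S4675
import Cfsg.Agent.Lib.Block.CentralDef

set_option autoImplicit false
open Cfsg

namespace Cfsg.Agent.S4675

open CT BT
open scoped MonoidAlgebra ComplexConjugate

/-- Fix a prime p and a maximal ideal M of the algebraic integers containing p. Let B be a p-block of the finite group G with defect group P and p-regular rank one (a single irreducible Brauer character). Then there are a function φ on G that is, on the p-regular elements, an integer combination of the members of B, and natural numbers d_χ (χ ∈ B), such that every χ ∈ B agrees with d_χ·φ on the p-regular elements and Σ_{χ ∈ B} d_χ² equals the order of P (the single Cartan invariant of B is the order of P). -/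
theorem result {G : Type*} [Group G] [Fintype G] (p : ℕ) [Fact p.Prime] (M : Ideal Cfsg.AlgInt) (hM : Cfsg.IsPModular p M) (B : Set (Cfsg.IrrCharacter G)) (hB : Cfsg.IsPBlock M B) (P : Subgroup G) (hP : Cfsg.IsDefectGroup p M B P) (hl : Cfsg.blockRank p B = 1) : ∃ φ : G → ℂ, ∃ d : Cfsg.IrrCharacter G → ℕ, (∃ n : Cfsg.IrrCharacter G → ℤ, ∀ x : G, Cfsg.IsPRegular p x → φ x = ∑ᶠ ψ ∈ B, (n ψ : ℂ) * (ψ : G → ℂ) x) ∧ (∀ χ ∈ B, ∀ x : G, Cfsg.IsPRegular p x → (χ : G → ℂ) x = (d χ : ℂ) * φ x) ∧ ∑ᶠ χ ∈ B, d χ ^ 2 = Nat.card P := by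
  have hp := Nat.prime_iff_prime_int.1 (Fact.out : p.Prime)
  obtain ⟨S⟩ := exists_basicSet p B
  rw [hl] at S
  obtain ⟨m, hm⟩ := S.exists_int_φ_one 0
  have h1 : ∀ χ ∈ B, (charDegree χ.1 : ℤ) = S.d χ 0 * m := fun χ hχ => by
    have := S.apply_eq_sum hχ not_dvd_orderOf_one
    rw [irr_apply_one, Fin.sum_univ_one, hm] at this
    exact_mod_cast this
  have h2 : ∀ χ ∈ B, ((S.d χ 0).natAbs : ℤ) = S.d χ 0 * m.sign := fun χ hχ => by
    have := irr_degree_pos χ
    have h3 : 0 < S.d χ 0 * m := by rw [← h1 χ hχ]; exact_mod_cast this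
    rcases pos_and_pos_or_neg_and_neg_of_mul_pos h3 with h | h
    · rw [Int.sign_eq_one_of_pos h.2]; omega
    · rw [Int.sign_eq_neg_one_of_neg h.2]; omega
  have h3 : m.sign * m.sign = 1 := by
    obtain ⟨χ, hχ⟩ := block_nonempty hM hB
    have : m ≠ 0 := by
      rintro rfl
      have := h1 χ hχ
      have := irr_degree_pos χ
      omega
    rcases lt_or_gt_of_ne this with h | h
    · rw [Int.sign_eq_neg_one_of_neg h]; rfl
    · rw [Int.sign_eq_one_of_pos h]; rfl
  refine ⟨(m.sign : ℂ) • S.φ 0, fun χ => (S.d χ 0).natAbs, ⟨fun ψ => m.sign * S.a 0 ψ,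
    fun x hx => ?_⟩, fun χ hχ x hx => ?_, ?_⟩
  · rw [Pi.smul_apply, S.φ_apply_of_not_dvd 0 hx, BasicSet.lift, finsum_mem_eq_sum_bset,
      Finset.sum_apply, Finset.smul_sum]
    exact Finset.sum_congr rfl fun ψ _ => by simp [mul_assoc]
  · rw [S.apply_eq_sum hχ hx, Fin.sum_univ_one, ← Int.cast_natCast, h2 χ hχ, Pi.smul_apply,
      smul_eq_mul, ← mul_assoc, ← Int.cast_mul, mul_assoc (S.d χ 0), h3, mul_one]
  · have h4 := congrFun (congrFun (S.C_mul_gam hM hB) 0) 0
    simp only [Matrix.mul_apply, Fin.sum_univ_one, Matrix.smul_apply, Matrix.one_apply_eq,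
      smul_eq_mul, mul_one] at h4
    obtain ⟨i, hi⟩ := S.exists_not_dvd_gam hM hB
    rw [Subsingleton.elim i 0] at hi
    have h5 : S.C 0 0 = p ^ blockDefect p B := Int.dvd_antisymm (S.C_self_pos 0).le
      (by positivity) ⟨_, h4.symm⟩ (hp.pow_dvd_of_dvd_mul_right _ hi (h4 ▸ dvd_rfl))
    rw [finsum_mem_eq_sum_bset, card_defectGroup hM hB hP, ← Nat.cast_inj (R := ℤ)]
    push_cast
    rw [← h5, S.C_apply]
    exact Finset.sum_congr rfl fun χ _ => by rw [sq_abs, sq]

end Cfsg.Agent.S4675
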