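import Cfsg.Statements.S4681
import Cfsg.Agent.Lib.Block.FusionSys

set_option autoImplicit false
open Cfsg

namespace Cfsg.Agent.S4681

open BT CT GT
open scoped MonoidAlgebra Pointwise

/-- Fix a prime p and a maximal ideal M of the algebraic integers containing p. Let B₀ be the principal p-block of the finite group G, P a Sylow p-subgroup and e₀ the principal p-block of C_G(P). Then (P, e₀) is a maximal Brauer pair of B₀, and the fusion system of B₀ on (P, e₀) is the fusion system of G on P: its maps from each subgroup of P are exactly the conjugation maps into P by elements of G. -/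
theorem result {G : Type*} [Group G] [Fintype G] (p : ℕ) [Fact p.Prime] (M : Ideal Cfsg.AlgInt) (hM : Cfsg.IsPModular p M) (S : Sylow p G) : Cfsg.IsMaximalBrauerPair p M (Cfsg.principalBlock M G) (S : Subgroup G) (Cfsg.principalBlock M (Subgroup.centralizer ((S : Subgroup G) : Set G))) ∧ ∀ F : Cfsg.FusionSystem (S : Subgroup G), Cfsg.IsBlockFusionSystemOn p M (Cfsg.principalBlock M G) (S : Subgroup G) (Cfsg.principalBlock M (Subgroup.centralizer ((S : Subgroup G) : Set G))) F → ∀ Q : Subgroup G, F.Hom Q = (Cfsg.groupFusionSystem (S : Subgroup G)).Hom Q := by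
  have hS := isSylowIn_sylow S
  have he : IsBrauerPair p M (S : Subgroup G) (principalBlock M _) :=
    ⟨hS.isPGroup, isPBlock_principalBlock⟩
  refine ⟨(isMaximalBrauerPair_iff hM).2 ⟨(isBrauerPairOf_principal_iff hM he).2 rfl,
    maxBP_of_aug_ne_zero hM (bp_of_isBrauerPair hM he) hS⟩, fun F hF Q => ?_⟩
  ext φ
  rw [mem_hom_iff_fus hM hF]
  constructor
  · rintro ⟨g, hg, h⟩
    exact ⟨h.le hM, fun u => h.conj_le hM (by rw [hg]; exact conj_mem_conj_smul.2 u.2), g, hg⟩
  · rintro ⟨hQ, h, g, hg⟩
    have he' := bp_of_isBrauerPair hM he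
    obtain ⟨y, hy⟩ := he'.exists_ple hM hQ
    have h1 : aug (sidem hM (Subgroup.centralizer ((S : Subgroup G) : Set G))
        (principalBlock M _)) ≠ 0 := by rw [aug_sidem_principal]; exact one_ne_zero
    refine ⟨g, hg, Subgroup.mem_top g, y, hy, ple_of_aug_ne_zero hM
      (hy.left.conj (mem_normalizer_top g)) he' ?_ (by rw [aug_cj]; exact hy.aug_ne_zero h1) h1⟩
    rw [← range_eq_conj_smul hg]
    rintro _ ⟨u, rfl⟩
    exact h u

end Cfsg.Agent.S4681
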