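import Cfsg.Statements.S4682
import Cfsg.Agent.Lib.Block.PairsLoc

set_option autoImplicit false
open Cfsg

namespace Cfsg.Agent.S4682

open BT CT GT
open scoped MonoidAlgebra Pointwise

/-- Fix a prime p and a maximal ideal M of the algebraic integers containing p, a p-block B of the finite group G with maximal Brauer pair (P, e), P abelian, and a Brauer pair (Q, f) ≤ (P, e). Let T_Q be the stabilizer of f in N_G(Q) and T_P the stabilizer of e in N_G(P). Then every element of T_Q is a product of an element of T_P and an element of C_G(Q); and the index of C_G(Q) in T_Q equals the index of T_P ∩ C_G(Q) in T_P ∩ N_G(Q). -/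
theorem result {G : Type*} [Group G] [Fintype G] (p : ℕ) [Fact p.Prime] (M : Ideal Cfsg.AlgInt) (hM : Cfsg.IsPModular p M) (B : Set (Cfsg.IrrCharacter G)) (P : Subgroup G) (e : Set (Cfsg.IrrCharacter (Subgroup.centralizer (P : Set G)))) (hmax : Cfsg.IsMaximalBrauerPair p M B P e) (hab : ∀ x ∈ P, ∀ y ∈ P, x * y = y * x) (Q : Subgroup G) (f : Set (Cfsg.IrrCharacter (Subgroup.centralizer (Q : Set G)))) (hQP : Q ≤ P) (hf : Cfsg.IsPBlock M f) (hle : Cfsg.SubpairLE p M Q f P e) (TQ : Subgroup G) (hTQ : ∀ y : G, y ∈ TQ ↔ y ∈ Subgroup.normalizer (Q : Set G) ∧ Cfsg.StabilizesBlock (Subgroup.centralizer (Q : Set G)) f y) (TP : Subgroup G) (hTP : ∀ y : G, y ∈ TP ↔ y ∈ Subgroup.normalizer (P : Set G) ∧ Cfsg.StabilizesBlock (Subgroup.centralizer (P : Set G)) e y) : (∀ x ∈ TQ, ∃ y ∈ TP, ∃ c ∈ Subgroup.centralizer (Q : Set G), x = y * c) ∧ ((Subgroup.centralizer (Q : Set G)).subgroupOf TQ).index = ((TP ⊓ Subgroup.centralizer (Q : Set G)).subgroupOf (TP ⊓ Subgroup.normalizer (Q : Set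 G))).index := by
  have h := IsMaximalBrauerPair.maxBP' hM hmax
  have h1 := ((subpairLE_iff hM hmax.1.1).1 hle).2
  have hab' : P ≤ Subgroup.centralizer (P : Set G) := fun x hx y hy => hab y hy x hx
  obtain rfl := eq_NP_of_forall hM hf hTQ
  obtain rfl := eq_NP_of_forall hM hmax.1.1.2 hTP
  constructor
  · intro x hx
    obtain ⟨c, hc, h2⟩ := h.exists_mul_mem_NP hM hab' (h1.fus_of_mem_NP hM hx)
    exact ⟨x * c, h2, c⁻¹, Subgroup.inv_mem _ hc.2, (mul_inv_cancel_right x c).symm⟩
  · change Subgroup.relIndex _ _ = Subgroup.relIndex _ _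
    rw [h.NP_eq_sup_of_abelian hM h1 hab', top_inf_eq, relIndex_sup_of_le_normalizer
      (inf_le_right.trans (normalizer_le_normalizer_centralizer Q)),
      ← Subgroup.inf_relIndex_right, ← Subgroup.inf_relIndex_right (NP ⊤ P _ ⊓ _)]
    congr 1
    ext x
    simp only [Subgroup.mem_inf]
    tauto

end Cfsg.Agent.S4682
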