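import Cfsg.Statements.S4683
import Cfsg.Agent.Lib.Block.Heights

set_option autoImplicit false
open Cfsg

namespace Cfsg.Agent.S4683

open CT BT
open scoped MonoidAlgebra ComplexConjugate

/-- Fix a prime p and a maximal ideal M of the algebraic integers containing p, a p-block B of the finite group G, a p-element u and a p-block e of C = C_G(u) such that (⟨u⟩, e) is a Brauer pair of B (a Brauer element of B). For χ ∈ B let χ_u be the e-part of the class function c ↦ χ(u c) on C and χ_u' the e-part of c ↦ χ(u⁻¹ c). Then the sum over χ ∈ B and over the p-regular elements s of C of χ_u(s)·χ_u'(s⁻¹) equals the order of C times the p-regular rank of e (the number of irreducible Brauer characters of e). -/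
theorem result {G : Type*} [Group G] [Fintype G] (p : ℕ) [Fact p.Prime] (M : Ideal Cfsg.AlgInt) (hM : Cfsg.IsPModular p M) (B : Set (Cfsg.IrrCharacter G)) (u : G) (hu : ∃ k : ℕ, orderOf u = p ^ k) (e : Set (Cfsg.IrrCharacter (Subgroup.centralizer (Subgroup.zpowers u : Set G)))) (hBe : Cfsg.IsBrauerPairOf p M B (Subgroup.zpowers u) e) : ∑ᶠ χ ∈ B, ∑ᶠ s : Subgroup.centralizer (Subgroup.zpowers u : Set G), Cfsg.pRegularPart p (Cfsg.blockPart e (fun c : Subgroup.centralizer (Subgroup.zpowers u : Set G) => (χ : G → ℂ) (u * c))) s * Cfsg.blockPart e (fun c : Subgroup.centralizer (Subgroup.zpowers u : Set G) => (χ : G → ℂ) (u⁻¹ * c)) s⁻¹ = (Nat.card (Subgroup.centralizer (Subgroup.zpowers u : Set G)) : ℂ) * (Cfsg.blockRank p e : ℂ) := by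
  classical
  have hC := centralizer_zpowers_eq u
  have he := hBe.1.2
  have hB := hBe.2.1
  obtain ⟨ξ, hξ⟩ := block_nonempty hM he
  have hind : IsInducedBlock M _ e B := by
    rw [isInducedBlock_iff_of_defined hM (exists_isInducedBlock_of_eq_centralizer hM hC hu he) hB hξ]
    have h1 := hBe.2.2 ξ hξ
    have hz := ((isCentral_setIdem B).isFixed
      (Subgroup.centralizer (Subgroup.zpowers u : Set G))).isCentral_proj
    have hi := (isInt_setIdem hM hB).proj hM (Subgroup.centralizer (Subgroup.zpowers u : Set G))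
    have h2 : brauerOmega (Subgroup.zpowers u) (blockCoeff B) ξ.1 =
        omega ξ.1 (proj _ (setIdem B)) := by
      rw [brauerOmega, finsum_eq_sum_of_fintype, omega_def, ev_eq_sum, Finset.sum_div]
      rfl
    rw [h2, ← mem_locIdeal hM, ← red_eq_iff hM (omega_mem_locRing hM ξ hz hi) (one_mem _),
      ← lam_redA hM ξ hz hi, redA_proj, red_one] at h1
    rw [idem, h1]
    exact one_ne_zero
  rw [← sum_contr_self hM hC hu hind, finsum_mem_eq_sum_bset, Finset.mul_sum]
  refine Finset.sum_congr rfl fun χ _ => ?_
  rw [finsum_eq_sum_of_fintype, contr_def, subsec_def, ip_pRegularPart_both, ip_def,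
    mul_inv_cancel_left₀ card_cast_ne_zero]
  refine Finset.sum_congr rfl fun s _ => ?_
  rw [← blockPart_shift_inv hC (irr_isCharacter χ).isGen]
  rfl

end Cfsg.Agent.S4683
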