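import Cfsg.Statements.S4684
import Cfsg.Agent.Lib.Block.StarLin

set_option autoImplicit false
open Cfsg

namespace Cfsg.Agent.S4684

/-- Fix a prime p and a maximal ideal M of the algebraic integers containing p, a p-block B of the finite group G with maximal Brauer pair (P, e) and fusion system F on P. Then the number of irreducible characters of height zero in B is divisible by the index in P of the focal subgroup of F. -/
theorem result {G : Type*} [Group G] [Fintype G] (p : ℕ) [Fact p.Prime] (M : Ideal Cfsg.AlgInt) (hM : Cfsg.IsPModular p M) (B : Set (Cfsg.IrrCharacter G)) (P : Subgroup G) (e : Set (Cfsg.IrrCharacter (Subgroup.centralizer (P : Set G)))) (hmax : Cfsg.IsMaximalBrauerPair p M B P e) (F : Cfsg.FusionSystem P) (hF : Cfsg.IsBlockFusionSystemOn p M B P e F) : (F.focalSubgroup.subgroupOf P).index ∣ Nat.card {χ : Cfsg.IrrCharacter G // χ ∈ B ∧ Cfsg.blockHeight p B (χ : G → ℂ) = 0} := by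
  have hm := BT.maxP_ofBlock (hM := hM) hF.1
  have := hm.relIndex_dvd_card (F.focalSubgroup.subgroupOf P) ⊤
    (fun u v h => BT.inv_mul_mem_focalSubgroup hF h)
    (fun χ => Cfsg.blockHeight p B (χ : G → ℂ) = 0)
    (fun χ ψ h h' => by simpa only [Cfsg.blockHeight, h] using h')
    (fun χ hχ h0 z _ => hm.ssec_ne_zero_of_height_zero z.2 hχ h0)
  have h2 : (F.focalSubgroup.subgroupOf P).relIndex (⊤ : Subgroup P) ∣ _ := this
  rwa [Subgroup.relIndex_top_right] at h2

end Cfsg.Agent.S4684
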