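import Cfsg.Statements.S4686
import Cfsg.Agent.Lib.Block.FusionSys

set_option autoImplicit false
open Cfsg

namespace Cfsg.Agent.S4686

open BT CT GT
open scoped MonoidAlgebra Pointwise

/-- Fix a prime p and a maximal ideal M of the algebraic integers containing p, a p-block B of the finite group G with maximal Brauer pair (P, e) and fusion system F on P. Then B is nilpotent (for every Brauer pair (Q, f) of B the stabilizer of f in N_G(Q) is C_G(Q) extended by a p-group) if and only if F is the inner fusion system of P: its maps from each subgroup of P are exactly the conjugations by elements of P. -/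
theorem result {G : Type*} [Group G] [Fintype G] (p : ℕ) [Fact p.Prime] (M : Ideal Cfsg.AlgInt) (hM : Cfsg.IsPModular p M) (B : Set (Cfsg.IrrCharacter G)) (P : Subgroup G) (e : Set (Cfsg.IrrCharacter (Subgroup.centralizer (P : Set G)))) (hmax : Cfsg.IsMaximalBrauerPair p M B P e) (F : Cfsg.FusionSystem P) (hF : Cfsg.IsBlockFusionSystemOn p M B P e F) : Cfsg.IsNilpotentBlock p M B ↔ ∀ Q : Subgroup G, F.Hom Q = (Cfsg.innerFusionSystem P).Hom Q := by
  rw [isNilpotentBlock_iff hM hmax.1.2.1, (IsMaximalBrauerPair.maxBP' hM hmax).nilId_iff_inner hM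
    (bIdem_top_idem hM hmax.1.2.1) (IsMaximalBrauerPair.br_mul' hM hmax)]
  constructor
  · intro h Q
    ext φ
    rw [mem_hom_iff_fus hM hF]
    constructor
    · rintro ⟨g, hg, h1⟩
      obtain ⟨u, hu, h2⟩ := h Q g h1
      exact ⟨h1.le hM, u, hu, fun x => by rw [hg, h2 x x.2]⟩
    · rintro ⟨hQ, u, hu, h1⟩
      exact ⟨u, h1, fus_of_mem hM (bp_of_isBrauerPair hM hmax.1.1) le_top hQ hu⟩
  · intro h Q x hx
    have h1 : conjHom Q x ∈ F.Hom Q := (mem_hom_iff_fus hM hF).2 ⟨x, fun _ => rfl, hx⟩
    rw [h Q] at h1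
    obtain ⟨-, u, hu, h2⟩ := h1
    exact ⟨u, hu, fun y hy => h2 ⟨y, hy⟩⟩

end Cfsg.Agent.S4686
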