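import Cfsg.Statements.S4693
import Cfsg.Agent.Lib.Block.FusionSys

set_option autoImplicit false
open Cfsg

namespace Cfsg.Agent.S4693

open BT CT GT
open scoped MonoidAlgebra Pointwise

/-- Fix a prime p and a maximal ideal M of the algebraic integers containing p, a p-block B of the finite group G with maximal Brauer pair (P, e) and fusion system F on P, and a Brauer pair (Q, f) ≤ (P, e) with Q centric in F. Suppose every element of G normalizes Q and stabilizes f. Then the idempotent of B agrees with that of f modulo M at every element of G, and f is the idempotent of a nilpotent block of Q·C_G(Q): some p-block of Q·C_G(Q) has the idempotent coefficients of f and is nilpotent. -/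
theorem result {G : Type*} [Group G] [Fintype G] (p : ℕ) [Fact p.Prime] (M : Ideal Cfsg.AlgInt) (hM : Cfsg.IsPModular p M) (B : Set (Cfsg.IrrCharacter G)) (P : Subgroup G) (e : Set (Cfsg.IrrCharacter (Subgroup.centralizer (P : Set G)))) (hmax : Cfsg.IsMaximalBrauerPair p M B P e) (F : Cfsg.FusionSystem P) (hF : Cfsg.IsBlockFusionSystemOn p M B P e F) (Q : Subgroup G) (f : Set (Cfsg.IrrCharacter (Subgroup.centralizer (Q : Set G)))) (hQP : Q ≤ P) (hf : Cfsg.IsPBlock M f) (hle : Cfsg.SubpairLE p M Q f P e) (hcen : F.IsCentric Q) (hG : ∀ x : G, x ∈ Subgroup.normalizer (Q : Set G) ∧ Cfsg.StabilizesBlock (Subgroup.centralizer (Q : Set G)) f x) : (∀ g : G, Cfsg.MemLocalIdeal M (Cfsg.blockCoeff B g - Cfsg.subgroupBlockCoeff (Subgroup.centralizer (Q : Set G)) f g)) ∧ ∃ F' : Set (Cfsg.IrrCharacter ↥(Q ⊔ Subgroup.centralizer (Q : Set G))), Cfsg.IsPBlock M F' ∧ (∀ t : ↥(Q ⊔ Subgroup.centralizer (Q : Set G)), Cfsg.blockCoeff F' t = Cfsg.subgroupBlockCoeff (Subgroup.centralizer (Q : Set G)) f (t : G))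 ∧ Cfsg.IsNilpotentBlock p M F' := by
  have h := IsMaximalBrauerPair.maxBP' hM hmax
  have h1 := ((subpairLE_iff hM hmax.1.1).1 hle).2
  have hB := hmax.1.2.1
  have hN : ∀ x, x ∈ NP ⊤ Q (sidem hM _ f) := fun x => (stabilizes_iff_mem_NP hM hf).1 (hG x)
  have hD := (isCentric_iff hM hF h1).1 hcen
  have hbf := (h1.br_block_iff (bIdem_top_idem hM hB).toCIdem le_top).2
    (IsMaximalBrauerPair.br_mul' hM hmax)
  have hC : ⊤ ⊓ Subgroup.centralizer (Q : Set G) ≤ Q ⊔ Subgroup.centralizer (Q : Set G) :=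
    inf_le_right.trans le_sup_right
  constructor
  · have h2 := h1.left.bIdem_of_le hM le_rfl le_top inf_le_left
      (fun x _ => NP_le_normalizer (hN x)) (isFixed_NP.mono fun x _ => hN x)
    rw [(bIdem_top_idem hM hB).br_eq_self hM le_top (fun x _ => NP_le_normalizer (hN x))
      h1.left.pgroup] at hbf
    have h3 := ((bIdem_top_idem hM hB).eq_or_mul_eq_zero h2).resolve_right
      (by rw [hbf]; exact h2.ne_zero)
    intro g
    rw [← mem_locIdeal hM, ← red_eq_iff hM (blockCoeff_mem_locRing hM hB g), ← coeff_idem,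
      ← coeff_sidem, h3]
    rw [← coeff_emb_setIdem]
    exact IsInt.emb hM (isInt_setIdem hM hf) g
  · have h2 := h1.left.bIdem_of_le hM le_top le_sup_left hC
      (fun x _ => NP_le_normalizer (hN x)) (isFixed_NP.mono fun x _ => hN x)
    obtain ⟨E, hE, hE1, hE2⟩ := exists_block_coeff_eq hM le_sup_right
      (fun x _ => normalizer_le_normalizer_centralizer Q (NP_le_normalizer (hN x))) hf h2
    refine ⟨E, hE, hE2, (isNilpotentBlock_sub_iff hM hE).2 ?_⟩
    rw [hE1]
    intro R g hg hR hfg x hx hreg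
    have hxC : x ∈ Subgroup.centralizer (Q : Set G) := by
      obtain ⟨u, hu, c, hc, rfl⟩ := (mem_sup_of_le_normalizer_right
        (Subgroup.le_normalizer.trans (normalizer_le_normalizer_centralizer Q))).1 (NP_le hx)
      refine mem_centralizer_of_conj_eq_of_isPElt hreg (isPElt_of_mem h1.left.pgroup hu)
        (NP_le_normalizer (hN _)) fun y hy => ?_
      calc u * c * y * (u * c)⁻¹ = u * (c * y) * c⁻¹ * u⁻¹ := by group
        _ = u * y * u⁻¹ := by rw [← hc y hy]; group
    refine Subgroup.centralizer_le (?_ : R ≤ Q) hxC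
    have h3 : br (R ⊔ Q) (sidem hM _ f) ≠ 0 := fun h0 => hg.ne_zero (by
      rw [← hfg, ← h1.left.br_self, br_br_eq_sup, h0, zero_mul])
    have hp : IsPGroup p (R ⊔ Q : Subgroup G) :=
      hg.pgroup.to_sup_of_normal_right' h1.left.pgroup fun x _ => NP_le_normalizer (hN x)
    have h4 := hD.eq_of_le inf_le_right (hp.to_le inf_le_left)
      (br_ne_zero_of_le inf_le_left h3) (inf_le_inf_right _ le_sup_right)
    intro r hr
    obtain ⟨u, hu, c, hc, rfl⟩ := (mem_sup_of_le_normalizer_right
      (Subgroup.le_normalizer.trans (normalizer_le_normalizer_centralizer Q))).1 (hR hr)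
    have h5 : c ∈ (R ⊔ Q) ⊓ Subgroup.centralizer (Q : Set G) := by
      refine ⟨?_, hc⟩
      have := (R ⊔ Q).mul_mem (Subgroup.mem_sup_right (Q.inv_mem hu)) (Subgroup.mem_sup_left hr)
      rwa [inv_mul_cancel_left] at this
    rw [h4] at h5
    exact Q.mul_mem hu h5.1

end Cfsg.Agent.S4693
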