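import Cfsg.Statements.S4694
import Cfsg.Agent.Lib.Block.Weight

set_option autoImplicit false
open Cfsg

namespace Cfsg.Agent.S4694

open BT CT GT
open scoped MonoidAlgebra Pointwise

/-- Fix a prime p and a maximal ideal M of the algebraic integers containing p, a p-block B of the finite group G and a Brauer pair (Q, e) of B. Let T be the stabilizer of e in N_G(Q) and suppose that (Q, e) carries a weight: the block of T whose idempotent is that of e contains an irreducible character χ that is constant on the cosets of Q and whose degree has p-part equal to the p-part of the index of Q in T. Then Z(Q) is a defect group of e as a block of C_G(Q), and Q is the largest normal p-subgroup of T: every p-subgroup of T normalized by T lies in Q. -/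
theorem result {G : Type*} [Group G] [Fintype G] (p : ℕ) [Fact p.Prime] (M : Ideal Cfsg.AlgInt) (hM : Cfsg.IsPModular p M) (B : Set (Cfsg.IrrCharacter G)) (Q : Subgroup G) (e : Set (Cfsg.IrrCharacter (Subgroup.centralizer (Q : Set G)))) (hQe : Cfsg.IsBrauerPairOf p M B Q e) (T : Subgroup G) (hT : ∀ y : G, y ∈ T ↔ y ∈ Subgroup.normalizer (Q : Set G) ∧ Cfsg.StabilizesBlock (Subgroup.centralizer (Q : Set G)) e y) (F' : Set (Cfsg.IrrCharacter T)) (hF' : Cfsg.IsPBlock M F') (hF'e : ∀ t : T, Cfsg.blockCoeff F' t = Cfsg.subgroupBlockCoeff (Subgroup.centralizer (Q : Set G)) e (t : G)) (χ : Cfsg.IrrCharacter T) (hχ : χ ∈ F') (hχQ : ∀ q : G, q ∈ Q → ∀ t : T, ∀ t' : T, (t' : G) = q * (t : G) → (χ : T → ℂ) t' = (χ : T → ℂ) t) (hdeg : (Cfsg.charDegree (χ : T → ℂ)).factorization p + (Nat.card Q).factorization p = (Nat.card T).factorization p) : Cfsg.IsDefectGroup p M e ((Q ⊓ Subgroup.centralizer (Q : Set G)).subgroupOf (Subgroup.centralizer (Q : Set G))) ∧ ∀ R : Subgroup G, R ≤ T → IsPGroup p R → (∀ t ∈ T, t ∈ Subgroup.normalizer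 (R : Set G)) → R ≤ Q := by
  have he := hQe.1.2
  have hb := bp_of_isBrauerPair hM hQe.1
  have hTN := eq_NP_of_forall hM he hT
  have hQT : Q ≤ T := hTN ▸ hb.le_NP le_top
  have hCT : Subgroup.centralizer (Q : Set G) ≤ T :=
    hTN ▸ (le_inf le_top le_rfl).trans hb.inf_centralizer_le_NP
  have hTQ : T ≤ Subgroup.normalizer (Q : Set G) := fun t ht => ((hT t).1 ht).1
  have hn : (Q.subgroupOf T).Normal := (Subgroup.normal_subgroupOf_iff_le_normalizer hQT).2 hTQ
  have hnC : ((Subgroup.centralizer (Q : Set G)).subgroupOf T).Normal :=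
    (Subgroup.normal_subgroupOf_iff_le_normalizer hCT).2
      (hTQ.trans (normalizer_le_normalizer_centralizer Q))
  have hk : Q.subgroupOf T ≤ ker χ.1 := fun q hq x => hχQ q hq x _ rfl
  rw [← Nat.card_congr (Subgroup.subgroupOfEquivOfLe hQT).toEquiv] at hdeg
  constructor
  · obtain ⟨ψ, rfl, hψ⟩ := exists_inflate_defect_zero hk hdeg
    set f := (QuotientGroup.mk' (Q.subgroupOf T)).comp (Subgroup.inclusion hCT) with hf
    have hr : f.range.Normal := by
      rw [hf, MonoidHom.range_comp, Subgroup.inclusion_range]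
      exact hnC.map _ (QuotientGroup.mk'_surjective _)
    have hker : f.ker = (Q ⊓ Subgroup.centralizer (Q : Set G)).subgroupOf
        (Subgroup.centralizer (Q : Set G)) := by
      ext c
      simp [hf, Subgroup.mem_subgroupOf]
    obtain ⟨θ, h1, h2, h3⟩ := exists_constituent_defect_zero f hψ
    rw [hker] at h2 h3
    have h4 : CoversLe hCT F' (blockOf M θ.1) := ⟨_, hχ, θ, mem_blockOf_self hM θ, h1⟩
    rw [coversLe_iff_mul hM hCT hF' (isPBlock_blockOf θ), sidem_eq_of_coeff_eq hM hCT hF'e] at h4
    have h5 := sidem_injective hM he (isPBlock_blockOf θ)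
      (((bIdem_sidem hM he).eq_or_mul_eq_zero
        (bIdem_sidem hM (isPBlock_blockOf θ))).resolve_right h4)
    refine isDefectGroup_of_ker_defect_zero hM ((hb.pgroup.to_le inf_le_left).comap_subtype)
      (fun z hz => Subgroup.mem_center_iff.2 fun c => Subtype.ext (c.2 z hz.1).symm) he
      (h5 ▸ mem_blockOf_self hM θ) h2 h3
  · intro R hRT hR hn'
    have := (Subgroup.normal_subgroupOf_iff_le_normalizer hRT).2 hn'
    have h := le_of_ker_defect_zero hM hk hdeg (R := R.subgroupOf T) hR.comap_subtype
    exact fun r hr => h (x := ⟨r, hRT hr⟩) hr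

end Cfsg.Agent.S4694
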