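import Cfsg.Statements.S4697
import Cfsg.Agent.Lib.Block.QuotCartan

set_option autoImplicit false
open Cfsg

namespace Cfsg.Agent.S4697

open CT BT
open scoped MonoidAlgebra ComplexConjugate

theorem eq_of_closure {G : Type*} [Group G] {D : Subgroup G} {S : Set D}
    (h : Subgroup.closure S = ⊤) : D = Subgroup.closure (Subtype.val '' S) := by
  have := congrArg (Subgroup.map D.subtype) h
  rw [MonoidHom.map_closure, ← MonoidHom.range_eq_map, Subgroup.range_subtype] at this
  exact this.symm

theorem aux {G : Type*} [Group G] [Finite G] {p : ℕ} [Fact p.Prime] {M : Ideal Cfsg.AlgInt}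
    (hM : Cfsg.IsPModular p M) {B : Set (Cfsg.IrrCharacter G)} (hB : Cfsg.IsPBlock M B)
    {D : Subgroup G} (hBD : Cfsg.IsDefectGroup p M B D) (hab : IsMulCommutative D) {d : ℕ}
    (hDd : Nat.card D = p ^ d) (hr : Group.rank D = 3) {a b c : D}
    (hS : Subgroup.closure ({a, b, c} : Set D) = ⊤) (hb : orderOf b ≤ orderOf a)
    (hc : orderOf c ≤ orderOf a) : Nat.card B ^ 3 ≤ p ^ (5 * d) := by
  have hp : p.Prime := Fact.out
  have hcomm : ∀ x y : D, x * y = y * x := fun x y => hab.is_comm.comm x y
  have hP := isPGroup_of_isDefectGroup hBD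
  obtain ⟨n, hn⟩ := IsPGroup.iff_orderOf.1 hP a
  have hdvd : ∀ x : D, orderOf x ≤ orderOf a → x ^ p ^ n = 1 := fun x hx => by
    obtain ⟨k, hk⟩ := IsPGroup.iff_orderOf.1 hP x
    rw [hk, hn] at hx
    exact orderOf_dvd_iff_pow_eq_one.1
      (hk ▸ pow_dvd_pow p ((Nat.pow_le_pow_iff_right hp.one_lt).1 hx))
  have h3 : d ≤ n * 3 := by
    letI : CommGroup D := { (inferInstance : Group D) with mul_comm := hcomm }
    have := card_dvd_exponent_pow_rank' D (n := p ^ n) fun g => by
      have hg : g ∈ Subgroup.closure ({a, b, c} : Set D) := hS ▸ Subgroup.mem_top g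
      induction hg using Subgroup.closure_induction with
      | mem x hx =>
        rcases hx with rfl | rfl | rfl
        exacts [hdvd _ le_rfl, hdvd _ hb, hdvd _ hc]
      | one => exact one_pow _
      | mul x y _ _ hx hy => rw [mul_pow, hx, hy, one_mul]
      | inv x _ hx => rw [inv_pow, hx, inv_one]
    rw [hDd, hr, ← pow_mul] at this
    exact (Nat.pow_dvd_pow_iff_le_right hp.one_lt).1 this
  obtain ⟨β, hDC, h1, h2, h4⟩ := exists_major_subsection' hM hB hBD a.2 fun x hx =>
    congrArg Subtype.val (hcomm a ⟨x, hx⟩)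
  have hpa := isPElt_of_mem_defectGroup hM hB hBD a.2
  have h5 := card_le_pow_mul_blockRank_of_major hM rfl hpa h1 h4
  obtain ⟨hN, β', hβ', h6, h7, h8⟩ := exists_dominated_subsection hM rfl hpa h1.1 h2
  have h9 := card_le_of_two_generators hM hβ' h6
    (u := QuotientGroup.mk ⟨b.1, hDC b.2⟩) (v := QuotientGroup.mk ⟨c.1, hDC c.2⟩)
    (by
      rw [Commute, SemiconjBy, ← QuotientGroup.mk_mul, ← QuotientGroup.mk_mul]
      have e : b.1 * c.1 = c.1 * b.1 := congrArg Subtype.val (hcomm b c)
      exact congrArg _ (Subtype.ext e)) (by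
      have hD : D.subgroupOf (Subgroup.centralizer ({a.1} : Set G)) =
          Subgroup.zpowers ⟨a.1, hDC a.2⟩ ⊔ (Subgroup.zpowers ⟨b.1, hDC b.2⟩ ⊔
            Subgroup.zpowers ⟨c.1, hDC c.2⟩) := by
        apply Subgroup.map_injective (Subgroup.subtype_injective _)
        rw [Subgroup.subgroupOf_map_subtype, inf_eq_left.2 hDC, Subgroup.map_sup, Subgroup.map_sup,
          MonoidHom.map_zpowers, MonoidHom.map_zpowers, MonoidHom.map_zpowers]
        refine (eq_of_closure hS).trans ?_
        rw [Set.image_insert_eq, Set.image_insert_eq, Set.image_singleton, Set.insert_eq,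
          Set.insert_eq, Subgroup.closure_union, Subgroup.closure_union]
        simp [Subgroup.zpowers_eq_closure]
      rw [hD, Subgroup.map_sup, QuotientGroup.map_mk'_self, bot_sup_eq, Subgroup.map_sup,
        MonoidHom.map_zpowers, MonoidHom.map_zpowers]
      rfl)
  have hd : blockDefect p B = d :=
    Nat.pow_right_injective hp.two_le ((card_defectGroup hM hB hBD).symm.trans hDd)
  rw [card_defectGroup hM hβ' h6] at h9
  rw [Subgroup.orderOf_coe, hn, Nat.Prime.factorization_pow hp, Finsupp.single_eq_same, h4,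
    hd] at h8
  rw [← h7, hd] at h5
  have h10 := h5.trans (Nat.mul_le_mul_left _ ((blockRank_le_card β').trans h9))
  rw [← pow_add] at h10
  refine (Nat.pow_le_pow_left h10 3).trans ?_
  rw [← pow_mul]
  exact Nat.pow_le_pow_right hp.pos (by omega)

/-- Let p be a prime, M a maximal ideal of the algebraic integers containing p, and B a p-block of the finite group G with an abelian defect group D of order p^d. If D has rank 2 (its least number of generators is 2) then B contains at most p^d irreducible characters; if D has rank 3 then the number k of irreducible characters in B satisfies k^3 ≤ p^(5d). -/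
theorem result {G : Type*} [Group G] [Finite G] (p : ℕ) [Fact p.Prime] (M : Ideal Cfsg.AlgInt) (hM : Cfsg.IsPModular p M) (B : Set (Cfsg.IrrCharacter G)) (hB : Cfsg.IsPBlock M B) (D : Subgroup G) (hBD : Cfsg.IsDefectGroup p M B D) (hab : IsMulCommutative D) (d : ℕ) (hDd : Nat.card D = p ^ d) : (Group.rank D = 2 → Nat.card B ≤ p ^ d) ∧ (Group.rank D = 3 → Nat.card B ^ 3 ≤ p ^ (5 * d)) := by
  classical
  have hcomm : ∀ x y : D, x * y = y * x := fun x y => hab.is_comm.comm x y
  obtain ⟨S, hS1, hS2⟩ := Group.rank_spec D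
  refine ⟨fun h => ?_, fun h => ?_⟩
  · obtain ⟨a, b, -, rfl⟩ := Finset.card_eq_two.1 (hS1.trans h)
    rw [← hDd]
    refine card_le_of_two_generators hM hB hBD (u := a.1) (v := b.1)
      (congrArg Subtype.val (hcomm a b)) ((eq_of_closure hS2).trans ?_)
    rw [Finset.coe_pair, Set.image_pair, Set.insert_eq, Subgroup.closure_union]
    simp [Subgroup.zpowers_eq_closure]
  · obtain ⟨a, b, c, -, -, -, rfl⟩ := Finset.card_eq_three.1 (hS1.trans h)
    simp only [Finset.coe_insert, Finset.coe_singleton] at hS2
    rcases le_total (orderOf a) (orderOf b) with h1 | h1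
    · rcases le_total (orderOf b) (orderOf c) with h2 | h2
      · exact aux hM hB hBD hab hDd h (a := c) (b := a) (c := b)
          (by rw [← hS2]; congr 1; ext; simp; tauto) (h1.trans h2) h2
      · exact aux hM hB hBD hab hDd h (a := b) (b := a) (c := c)
          (by rw [← hS2]; congr 1; ext; simp; tauto) h1 h2
    · rcases le_total (orderOf a) (orderOf c) with h2 | h2
      · exact aux hM hB hBD hab hDd h (a := c) (b := a) (c := b)
          (by rw [← hS2]; congr 1; ext; simp; tauto) h2 (h1.trans h2)
      · exact aux hM hB hBD hab hDd h hS2 h1 h2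

end Cfsg.Agent.S4697
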