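import Cfsg.Statements.S4699
import Cfsg.Agent.Lib.Lin.TISylow

set_option autoImplicit false
open Cfsg

namespace Cfsg.Agent.S4699

open Subgroup in
theorem trace_mem {F R : Type*} [Field F] [Ring R] [Algebra F R] (p n : ℕ) [Fact p.Prime]
    [CharP F p] {a b : R} (hab : a * b = 1) (hba : b * a = 1) {l k : ℕ}
    (hl : (a - 1) ^ l = 0) (hk : k + l ≤ p ^ n) (ψ : R) :
    ∃ s, ∑ i ∈ Finset.range (p ^ n), a ^ i * ψ * b ^ i = (a - 1) ^ k * s := by
  have h1 : ∑ i ∈ Finset.range (p ^ n), (Polynomial.X : Polynomial F) ^ i =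
      (Polynomial.X - 1) ^ (p ^ n - 1) := by
    apply mul_right_cancel₀ (Polynomial.X_sub_C_ne_zero (1 : F))
    rw [Polynomial.C_1, geom_sum_mul, ← pow_succ,
      Nat.sub_add_cancel (Nat.one_le_pow _ _ (Fact.out : p.Prime).pos), sub_pow_char_pow, one_pow]
  let L : R → Module.End F R := fun x => LinearMap.mulLeft F x
  let T : R → Module.End F R := fun x => LinearMap.mulRight F x
  have hc : ∀ x y, Commute (L x) (T y) := fun x y => LinearMap.commute_mulLeft_right x y
  have h2 := congrArg (Polynomial.aeval (L a * T b)) h1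
  simp only [map_sum, map_pow, map_sub, map_one, Polynomial.aeval_X] at h2
  have h3 : L a * T b - 1 = (L (a - 1) + T (1 - a)) * T b := by
    ext x
    simp [L, T, sub_mul, mul_sub, mul_assoc, hba]
  have h4 : Commute (L (a - 1) + T (1 - a)) (T b) := by
    refine (hc _ _).add_left ?_
    ext x
    simp [T, sub_mul, mul_sub, mul_assoc, hab, hba]
  rw [h3, h4.mul_pow, (hc _ _).add_pow] at h2
  have h5 := LinearMap.congr_fun h2 ψ
  simp only [LinearMap.sum_apply, (hc a b).mul_pow, Module.End.mul_apply, L, T,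
    LinearMap.pow_mulLeft, LinearMap.pow_mulRight, LinearMap.mulLeft_apply,
    LinearMap.mulRight_apply] at h5
  simp only [mul_assoc]
  rw [h5]
  refine Finset.dvd_sum (s := Finset.range (p ^ n - 1 + 1)) (a := (a - 1) ^ k) fun i hi => ?_
  by_cases h : k ≤ i
  · exact (pow_dvd_pow _ h).mul_right _
  · have h6 : l ≤ p ^ n - 1 - i := by omega
    obtain ⟨j, hj⟩ := Nat.exists_eq_add_of_le' h6
    rw [hj, pow_add (1 - a), ← neg_sub a, neg_pow (a - 1) l, hl]
    simp

theorem exists_inv_elt {F R A : Type*} [Field F] [Ring R] [Algebra F R] [CommGroup A] [Finite A]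
    (E : Subgroup (MulAut A)) {x : A} (hx : ∀ y, y ∈ Subgroup.zpowers x) (φ : A →* R) :
    ∃ z : R, φ x - 1 ∣ z ∧ z ∣ (φ x - 1) ^ Nat.card E ∧
      ∀ σ ∈ E, ∀ u : R, (∀ a, u * φ a = φ (σ a) * u) → u * z = z * u := by
  classical
  have := Fintype.ofFinite E
  let Φ := MonoidAlgebra.lift F R A φ
  have hΦ : Φ (MonoidAlgebra.of F A x - 1) = φ x - 1 := by simp [Φ]
  refine ⟨Φ (∏ τ : E, (MonoidAlgebra.of F A (τ.1 x) - 1)), ?_, ?_, fun σ hσ u hu => ?_⟩
  · rw [← hΦ]
    have := Finset.dvd_prod_of_mem (fun τ : E => MonoidAlgebra.of F A (τ.1 x) - 1)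
      (Finset.mem_univ (1 : E))
    simp only [OneMemClass.coe_one, MulAut.one_apply] at this
    exact map_dvd Φ this
  · rw [← hΦ, ← map_pow, Nat.card_eq_fintype_card, ← Finset.card_univ, ← Finset.prod_const]
    refine map_dvd Φ (Finset.prod_dvd_prod_of_dvd _ _ fun τ _ => ?_)
    obtain ⟨m, hm⟩ := (mem_powers_iff_mem_zpowers.2 (hx (τ.1⁻¹ x)))
    have : x = τ.1 x ^ m := by
      rw [← map_pow, show x ^ m = _ from hm, MulAut.apply_inv_self]
    nth_rewrite 2 [this]
    rw [map_pow]
    exact sub_one_dvd_pow_sub_one _ _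
  · have h1 : ∀ y, u * Φ y = Φ (MonoidAlgebra.mapDomainAlgHom F F σ.toMonoidHom y) * u := by
      intro y
      induction y using MonoidAlgebra.induction_on with
      | of m => simp [Φ, hu]
      | add a b ha hb => rw [map_add, map_add, map_add, mul_add, add_mul, ha, hb]
      | smul r a ha => rw [map_smul, map_smul, map_smul, mul_smul_comm, smul_mul_assoc, ha]
    rw [h1, map_prod]
    congr 2
    refine Fintype.prod_equiv (Equiv.mulLeft ⟨σ, hσ⟩) _ _ fun τ => ?_
    rw [map_sub, map_one]
    simp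


/-- Let p be a prime and G a finite group whose Sylow p-subgroup P is cyclic of order p^n with n ≥ 2 and meets every other Sylow p-subgroup trivially. Then every faithful irreducible representation of G on a finite-dimensional space over a finite field of characteristic p has dimension at least p^n − (p − 1). -/
theorem result {G : Type*} [Group G] [Finite G] (p : ℕ) [Fact p.Prime] (P : Sylow p G) (hcyc : IsCyclic P) (n : ℕ) (hn : 2 ≤ n) (hPn : Nat.card P = p ^ n) (hTI : ∀ Q : Sylow p G, Q ≠ P → (P : Subgroup G) ⊓ (Q : Subgroup G) = ⊥) (F : Type*) [Field F] [Finite F] [CharP F p] (V : Type*) [AddCommGroup V] [Module F V] [FiniteDimensional F V] (ρ : Representation F G V) (hfaith : Function.Injective ρ) (hirr : ρ.IsIrreducible) : p ^ n - (p - 1) ≤ Module.finrank F V := by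
  classical
  by_contra hlt
  push Not at hlt
  have hp : p.Prime := Fact.out
  have hV : Nontrivial V := by
    by_contra h
    rw [not_nontrivial_iff_subsingleton] at h
    exact bot_ne_top (α := Subrepresentation ρ) (Subrepresentation.ext (Subsingleton.elim _ _))
  have := Fintype.ofFinite (P : Subgroup G)
  obtain ⟨x, hx⟩ := IsCyclic.exists_generator (α := (P : Subgroup G))
  have hox : orderOf x = p ^ n := by rw [orderOf_eq_card_of_forall_mem_zpowers hx, hPn]
  set N := Subgroup.normalizer ((P : Subgroup G) : Set G) with hN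
  let E := (P : Subgroup G).normalizerMonoidHom.range
  have hPC : (P : Subgroup G) ≤ Subgroup.centralizer ((P : Subgroup G) : Set G) :=
    fun a ha b hb => congrArg Subtype.val (mul_comm' (⟨b, hb⟩ : (P : Subgroup G)) ⟨a, ha⟩)
  have hE : Nat.card E ≤ p - 1 := by
    have h1 : Nat.card E ∣ p ^ (n - 1) * (p - 1) := by
      rw [← Nat.totient_prime_pow hp (by omega), ← hPn, ← IsCyclic.card_mulAut]
      exact Subgroup.card_subgroup_dvd_card _
    have h2 : ¬ p ∣ Nat.card E := by
      rw [← Subgroup.index_ker, Subgroup.normalizerMonoidHom_ker]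
      exact (GT.isSylowIn_sylow_of_le P Subgroup.le_normalizer).not_dvd_relIndex_of_le hPC
    exact Nat.le_of_dvd (by have := hp.two_le; omega)
      ((((Nat.Prime.coprime_iff_not_dvd hp).2 h2).symm.pow_right _).dvd_of_dvd_mul_left h1)
  obtain ⟨z, hz1, hz2, hz3⟩ := @exists_inv_elt F (Module.End F V) (P : Subgroup G) _ _ _
    IsCyclic.commGroup _ E x hx (ρ.comp (P : Subgroup G).subtype)
  replace hz1 : ρ x - 1 ∣ z := hz1
  replace hz2 : z ∣ (ρ x - 1) ^ Nat.card E := hz2
  replace hz3 : ∀ g ∈ N, ρ g * z = z * ρ g := fun g hg => hz3 _ ⟨⟨g, hg⟩, rfl⟩ _ fun a => by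
    change ρ g * ρ a = ρ (g * a * g⁻¹) * ρ g
    rw [← map_mul, ← map_mul, inv_mul_cancel_right]
  have := Fintype.ofFinite (G ⧸ N)
  let f : G ⧸ N → Module.End F V := fun c => ρ c.out * z * ρ c.out⁻¹
  have hf : ∀ g : G, f (g : G ⧸ N) = ρ g * z * ρ g⁻¹ := fun g => by
    obtain ⟨h, hh⟩ := QuotientGroup.mk_out_eq_mul N g
    simp only [f]
    rw [hh, map_mul, mul_assoc (ρ g), hz3 h h.2, mul_assoc, mul_assoc, ← map_mul, ← mul_assoc]
    simp
  have hf' : ∀ (g : G) (c : G ⧸ N), f (g • c) = ρ g * f c * ρ g⁻¹ := fun g c => by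
    induction c using QuotientGroup.induction_on with | _ u => ?_
    rw [MulAction.Quotient.smul_mk, hf, hf, smul_eq_mul, mul_inv_rev, map_mul, map_mul]
    simp only [mul_assoc]
  have hq : ρ x ^ p ^ n = 1 := by
    rw [← map_pow, ← Subgroup.coe_pow, ← hox, pow_orderOf_eq_one]; simp
  have : CharP (Module.End F V) p := charP_of_injective_algebraMap (algebraMap F _).injective p
  have hnil : IsNilpotent (ρ x - 1) :=
    ⟨p ^ n, by rw [sub_pow_char_pow_of_commute _ _ (Commute.one_right _), hq, one_pow, sub_self]⟩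
  set l := nilpotencyClass (ρ x - 1) with hl
  have hl1 : l ≤ Module.finrank F V := Nat.sInf_le (by
    have := LinearMap.aeval_self_charpoly (ρ x - 1)
    rwa [hnil.charpoly_eq_X_pow_finrank, map_pow, Polynomial.aeval_X] at this)
  let S : AddSubgroup (Module.End F V) :=
    { carrier := {y | (ρ x - 1) ^ (Nat.card E + 1) ∣ y}
      add_mem' := fun ha hb => dvd_add ha hb
      zero_mem' := dvd_zero _
      neg_mem' := fun ha => ha.neg_right }
  have hS := LG.sum_mem_of_free (P := (P : Subgroup G)) S f (Finset.univ.erase ((1 : G) : G ⧸ N))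
    (fun y c hc => ?_) (fun c hc y hy => ?_) (fun c _ => ?_)
  · have hT : ∑ c, f c = 0 := by
      have h1 : ∀ g, ρ g * ∑ c, f c = (∑ c, f c) * ρ g := fun g => by
        nth_rewrite 2 [← Fintype.sum_equiv (MulAction.toPerm g) (fun c => f (g • c)) f (fun _ => rfl)]
        rw [Finset.mul_sum, Finset.sum_mul]
        refine Finset.sum_congr rfl fun c _ => ?_
        rw [hf', mul_assoc, ← map_mul, inv_mul_cancel, map_one, mul_one]
      have h2 : ρ x - 1 ∣ ∑ c, f c := by
        rw [← Finset.add_sum_erase _ _ (Finset.mem_univ ((1 : G) : G ⧸ N)), hf, inv_one, map_one,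
          one_mul, mul_one]
        exact dvd_add hz1 ((dvd_pow_self _ (Nat.succ_ne_zero _)).trans hS)
      let W : Subrepresentation ρ := ⟨LinearMap.range (∑ c, f c), by
        rintro g _ ⟨v, rfl⟩
        exact ⟨ρ g v, (LinearMap.congr_fun (h1 g) v).symm⟩⟩
      rcases eq_bot_or_eq_top W with h | h
      · exact LinearMap.range_eq_bot.1 (congrArg Subrepresentation.toSubmodule h)
      · exfalso
        obtain ⟨s, hs⟩ := h2
        have h3 := LinearMap.range_eq_top.1 (congrArg Subrepresentation.toSubmodule h)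
        rw [hs] at h3
        replace h3 : Function.Surjective ((ρ x - 1 :) ∘ s) := h3
        have h4 : IsUnit (ρ x - 1) := (Module.End.isUnit_iff _).2
          ⟨LinearMap.injective_iff_surjective.2 h3.of_comp, h3.of_comp⟩
        exact h4.not_isNilpotent hnil
    rw [← Finset.add_sum_erase _ _ (Finset.mem_univ ((1 : G) : G ⧸ N)), hf, inv_one, map_one,
      one_mul, mul_one] at hT
    have h1 : (ρ x - 1) ^ (Nat.card E + 1) ∣ (ρ x - 1) ^ Nat.card E := by
      refine Dvd.dvd.trans ?_ hz2
      rw [eq_neg_of_add_eq_zero_left hT]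
      exact Dvd.dvd.neg_right hS
    have h2 : l ≤ Nat.card E := by
      by_contra h2
      obtain ⟨j, hj⟩ := Nat.exists_eq_add_of_lt (not_le.1 h2)
      obtain ⟨s, hs⟩ := h1
      apply pow_pred_nilpotencyClass hnil
      rw [← hl, hj, Nat.add_sub_cancel, add_comm, pow_add, hs, ← mul_assoc, ← pow_add,
        show j + (Nat.card E + 1) = l by omega, pow_nilpotencyClass hnil, zero_mul]
    have h3 : ρ (x ^ p) = ρ 1 := by
      rw [map_pow, map_one, ← sub_eq_zero, ← one_pow (M := Module.End F V) p,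
        ← sub_pow_char_of_commute _ (Commute.one_right _)]
      exact pow_eq_zero_of_le (by omega) (pow_nilpotencyClass hnil)
    have h4 := orderOf_dvd_of_pow_eq_one (hfaith h3)
    rw [Subgroup.orderOf_coe, hox] at h4
    have := (Nat.pow_dvd_pow_iff_le_right hp.one_lt (l := 1)).1 (by simpa using h4)
    omega
  · rw [Finset.mem_erase] at hc ⊢
    refine ⟨fun h => hc.1 ?_, Finset.mem_univ _⟩
    rw [← inv_smul_smul y c, h]
    exact QuotientGroup.eq.2 (by
      have : (y : G) ∈ N := Subgroup.le_normalizer y.2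
      simpa using this)
  · induction c using QuotientGroup.induction_on with | _ u => ?_
    by_contra hy1
    have h1 : u⁻¹ * y * u ∈ N := by
      have := QuotientGroup.eq.1 hy.symm
      simpa [mul_assoc] using this
    have h2 : u⁻¹ * y * u ∈ (P : Subgroup G) :=
      (GT.isSylowIn_sylow P).mem_of_mem_normalizer
        (by simpa using (GT.isPElt_of_mem_sylow P y.2).conj u⁻¹) trivial h1
    have h3 : u • P ≠ P := fun h => (Finset.mem_erase.1 hc).1
      (QuotientGroup.eq.2 (by
        have : u ∈ N := Sylow.smul_eq_iff_mem_normalizer.1 h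
        simpa using this))
    have h4 : (y : G) ∈ (P : Subgroup G) ⊓ (u • P : Sylow p G) := ⟨y.2, GT.mem_conj_smul.2 h2⟩
    rw [hTI _ h3] at h4
    exact hy1 (Subtype.ext h4)
  · obtain ⟨s, hs⟩ := trace_mem (F := F) p n (a := ρ x) (b := ρ (x : G)⁻¹) (by simp [← map_mul])
      (by simp [← map_mul]) (pow_nilpotencyClass hnil) (k := Nat.card E + 1) (by omega) (f c)
    refine ⟨s, ?_⟩
    rw [← hs, ← hox, Finset.sum_range]
    symm
    refine Fintype.sum_bijective (fun i : Fin (orderOf x) => x ^ (i : ℕ)) ?_ _ _ fun i => ?_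
    · rw [Fintype.bijective_iff_injective_and_card]
      refine ⟨fun i j h => Fin.ext (pow_injOn_Iio_orderOf i.2 j.2 h), ?_⟩
      rw [Fintype.card_fin, hox, ← hPn, Nat.card_eq_fintype_card]
    · rw [← map_pow, ← map_pow, inv_pow, ← hf', ← Subgroup.coe_pow]
      rfl

end Cfsg.Agent.S4699
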