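import Cfsg.Statements.S4701
import Cfsg.Agent.Lib.Block.OneBR

set_option autoImplicit false
open Cfsg

namespace Cfsg.Agent.S4701

open CT GT BT Cfsg

/-- Let G be a finite perfect group and p a prime dividing the order of G with p^3 larger than the order of G. Suppose a Sylow p-subgroup of G is not normal and G has no normal subgroup of order 2. Then p > 3 and G is isomorphic to PSL(2, p), or to SL(2, 2^m) with p = 2^m + 1. -/
theorem result {G : Type*} [Group G] [Finite G] (hperf : commutator G = ⊤) (p : ℕ) [Fact p.Prime] (hdvd : p ∣ Nat.card G) (hbig : Nat.card G < p ^ 3) (P : Sylow p G) (hP : ¬ (P : Subgroup G).Normal) (h2 : ∀ N : Subgroup G, N.Normal → Nat.card N ≠ 2) : (∃ (F : Type) (_ : Field F) (_ : Fintype F), Fintype.card F = p ∧ 3 < p ∧ Nonempty (G ≃* Matrix.ProjectiveSpecialLinearGroup (Fin 2) F)) ∨ (∃ (m : ℕ) (F : Type) (_ : Field F) (_ : Fintype F), Fintype.card F = 2 ^ m ∧ p = 2 ^ m + 1 ∧ 3 < p ∧ Nonempty (G ≃* Matrix.SpecialLinearGroup (Fin 2)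 F)) := by
  have hp : p.Prime := Fact.out
  obtain ⟨n, hn⟩ : ∃ n, Nat.card (Sylow p G) = 1 + n * p := by
    obtain ⟨n, hn⟩ := (Nat.modEq_iff_dvd' Nat.card_pos).1 (card_sylow_modEq_one p G).symm
    exact ⟨n, by rw [mul_comm, ← hn, add_tsub_cancel_of_le Nat.card_pos]⟩
  rw [P.card_eq_index_normalizer] at hn
  have hn0 : n ≠ 0 := fun h =>
    hP (Subgroup.normalizer_eq_top_iff.1 (Subgroup.index_eq_one.1 (by simpa [h] using hn)))
  have hc : Nat.card P = p := by
    obtain ⟨k, hk⟩ := P.isPGroup'.exists_card_eq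
    have h1 := P.dvd_card_of_dvd_card hdvd
    have h3 := Nat.mul_le_mul_right (1 + n * p) (Subgroup.card_le_of_le
      (Subgroup.le_normalizer (H := (P : Subgroup G))))
    rw [← hn, P.coe_coe, Subgroup.card_mul_index, hn, hk] at h3
    have h4 : p ^ (k + 1) < p ^ 3 := by
      have : p ≤ n * p := Nat.le_mul_of_pos_left p (by omega)
      rw [pow_succ]; nlinarith [pow_pos hp.pos k]
    rw [Nat.pow_lt_pow_iff_right hp.one_lt] at h4
    rw [hk] at h1 ⊢
    obtain rfl : k = 1 := by
      rcases k with _ | k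
      · exact (hp.one_lt.ne' (by simpa using h1)).elim
      · omega
    exact pow_one p
  obtain ⟨A, _, _, ι, H, hι⟩ := exists_primeSyl (isSylowIn_sylow P) hc
  replace hn : (Subgroup.normalizer (ι.range : Set G)).index = 1 + n * p := by rw [hι]; exact hn
  have hr : NoRep p n := by
    by_contra hr
    obtain ⟨h, u, h1, h3, h4⟩ := exists_rep_of_not_noRep hp.pos hr
    have h5 : p ≤ 2 * n := by
      refine Nat.le_of_mul_le_mul_right ?_ (Nat.succ_pos u)
      have : u * p ≤ h * u * p := by rw [mul_assoc]; exact Nat.le_mul_of_pos_left _ h1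
      have : p ≤ u * p := Nat.le_mul_of_pos_left _ h3
      nlinarith
    have h6 := card_centralizer_mul_relIndex_mul_index ι.range
    have h7 := Nat.le_of_dvd Nat.card_pos H.dvd_card_centralizer
    have h8 := H.card_autN_ne_one hperf
    have h9 := H.card_autN_pos
    rw [← card_autN H.inj, hn] at h6
    have := Nat.mul_le_mul (Nat.mul_le_mul h7 (show 2 ≤ Nat.card (autN ι) by omega))
      (le_refl (1 + n * p))
    have := Nat.mul_le_mul_left (p * p) h5
    nlinarith
  obtain ⟨h3, h⟩ := H.brauer_dichotomy' hperf hn hr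
  have h4 : pPrimeCore p G = ⊥ := by
    have h5 := (pPrimeCore p G).card_mul_index
    have h6 := h2 _ (inferInstance : (pPrimeCore p G).Normal)
    have h7 : 0 < Nat.card (pPrimeCore p G) := Nat.card_pos
    rw [← Subgroup.card_eq_one]
    by_contra h8
    have h9 := Nat.mul_le_mul_right (pPrimeCore p G).index
      (show 3 ≤ Nat.card (pPrimeCore p G) by omega)
    obtain ⟨q, rfl⟩ : ∃ q, p = q + 4 := ⟨p - 4, by omega⟩
    rcases h with ⟨-, h⟩ | ⟨-, h⟩ <;>
      simp only [show q + 4 - 1 = q + 3 from rfl, show q + 4 - 2 = q + 2 from rfl] at h <;>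
      nlinarith [Nat.zero_le (q ^ 3), Nat.zero_le (q ^ 2)]
  let f : G ≃* G ⧸ pPrimeCore p G :=
    QuotientGroup.quotientBot.symm.trans (QuotientGroup.quotientMulEquivOfEq h4.symm)
  rcases h with ⟨⟨h⟩, -⟩ | ⟨⟨a, F, _, _, h1, h2, ⟨h⟩⟩, -⟩
  · exact Or.inl ⟨ZMod p, _, _, ZMod.card p, h3, ⟨f.trans h⟩⟩
  · exact Or.inr ⟨a, F, _, _, h2, h1, h3, ⟨f.trans h⟩⟩
end Cfsg.Agent.S4701
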