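import Cfsg.Statements.S4706
import Cfsg.Agent.Lib.Block.PMinusTwo
import Cfsg.Agent.Lib.Block.OneSelf
import Cfsg.Agent.Lib.Char.Mackey

set_option autoImplicit false
open Cfsg

namespace Cfsg.Agent.S4706

open CT GT BT Cfsg

theorem aux {p : ℕ} [hp : Fact p.Prime] {G : Type*} [Group G] [Finite G] {A : Type*}
    [CommGroup A] [Finite A] {ι : A →* G} (H : PrimeSyl p ι) (h3 : 3 < p)
    (hC : Subgroup.centralizer (ι.range : Set G) ≤ ι.range) (he : Nat.card (autN ι) = 2)
    {ψ : G → ℂ} (hψ : IsCharacter G ψ) (hk : ker ψ = ⊥) (hd : charDegree ψ + 1 = p)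
    (hv : ∀ u ≠ 1, ψ (ι u) = -1) : ι.range.Normal ∨ ∃ (a : ℕ) (F : Type) (_ : Field F)
      (_ : Fintype F), p = 2 ^ a + 1 ∧ Fintype.card F = 2 ^ a ∧
        Nonempty (G ≃* Matrix.SpecialLinearGroup (Fin 2) F) := by
  classical
  have := Fintype.ofFinite A
  have := Fintype.ofFinite (cenReg p ι)
  obtain ⟨X, Y, δ, δ₀, T, h1⟩ := H.exists_pb
  have h0 : ∑ u, ψ (ι u) = 0 := by
    rw [H.sum_eq hv, map_one, hψ.apply_one, ← hd]; push_cast; ring
  have hmem : ∀ φ : IrrCharacter G, ip ψ φ.1 ≠ 0 → φ ∈ X ∨ ∃ l, Y l = φ := fun φ hφ =>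
    T.mem_of_sum_ne_zero (hψ.sum_eq_zero_of_ip_ne_zero ι h0 hφ) (by
      rw [Fintype.sum_eq_single 1 fun y hy => (hy (Subtype.ext (by
        simpa [H.cenReg_eq_bot hC] using y.2))).elim]
      exact irr_apply_one_ne_zero φ)
  have hO : pPrimeCore p G = ⊥ := le_bot_iff.1 (hk ▸ fun g hg =>
    hψ.mem_ker_iff_forall_irr.2 fun φ hφ => T.core φ (hmem φ hφ) hg)
  obtain ⟨φ, hφ⟩ := hψ.exists_irr_ip_ne_zero fun h => by
    have := charDegree_eq_of_apply_one (χ := ψ) (n := 0) (by simp [h])
    omega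
  have h2 := hψ.sum_eq_zero_of_ip_ne_zero ι h0 hφ
  have h4 := irr_degree_pos φ
  rcases hmem φ hφ with h | ⟨l, rfl⟩
  · rw [T.sum_X h] at h2
    have h5 : (charDegree φ.1 : ℤ) + (p - 1) * δ φ = 0 := by exact_mod_cast h2
    obtain ⟨χ, Z, O⟩ := H.exists_pm2 h3 hC (card_autN H.inj ▸ he) hO (θ := φ) (Or.inl (by
      rcases T.sign φ h with h6 | h6 <;> rw [h6] at h5 <;> omega))
    exact Or.inr O.exists_SL2
  left
  have h5 : (charDegree (Y l).1 : ℤ) + δ₀ * 2 = 0 := by
    rw [T.sum_Y, he] at h2; exact_mod_cast h2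
  obtain rfl : δ₀ = -1 := T.sign₀.resolve_left (by omega)
  obtain ⟨χ, hχ1, rfl⟩ : ∃ χ, irrOne G ≠ χ ∧ X = {irrOne G, χ} := by
    obtain ⟨a, b, hab, rfl⟩ := Finset.card_eq_two.1 (T.card_X.trans he)
    rcases Finset.mem_insert.1 h1 with rfl | h
    · exact ⟨b, hab, rfl⟩
    · rw [Finset.mem_singleton.1 h]; exact ⟨a, hab.symm, Finset.pair_comm _ _⟩
  have h6 := T.degree_rel l
  have h7 := irr_degree_pos χ
  have hδ1 := T.sign_one h1
  rw [Finset.sum_pair hχ1, hδ1, charDegree_eq_of_apply_one (χ := (irrOne G).1) (n := 1)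
    (by simp)] at h6
  have h8 : δ χ = 1 := (T.sign χ (by simp)).resolve_right fun h => by rw [h] at h6; omega
  have h9 : ker (Y l).1 ≤ pPrimeCore p G := le_pPrimeCore (Nat.Coprime.symm
    (hp.out.coprime_iff_not_dvd.2 (H.not_dvd_card_of_normal fun h => by
    rw [H.sum_eq fun u _ => ker_apply_eq (h ⟨u, rfl⟩), map_one] at h2
    exact mul_ne_zero (Nat.cast_ne_zero.2 hp.out.ne_zero) (irr_apply_one_ne_zero (Y l))
      (by linear_combination h2))))
  have h10 : IsPGroup p (ker χ.1) := fun g => by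
    by_cases hg : p ∣ orderOf (g : G)
    · exact ⟨1, Subtype.ext (by
        simp [← H.orderOf_eq_of_dvd hC hg])⟩
    have e1 := T.reg l g hg
    have e2 := T.reg l 1 (by simpa using hp.out.one_lt.ne')
    rw [Finset.sum_pair hχ1] at e1 e2
    rw [ker_apply_eq g.2] at e1
    have := h9 ((irr_mem_ker_iff (Y l) (g := g)).2 (by
      simp only [irrOne_apply] at e1 e2; push_cast at e1 e2; linear_combination e2 - e1))
    exact ⟨0, Subtype.ext (by simpa [hO] using this)⟩
  have h11 : ι.range ≤ ker χ.1 := by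
    obtain ⟨u, hu⟩ := have := H.nontrivial; exists_ne (1 : A)
    refine H.range_le_of_mem hu ((irr_mem_ker_iff χ).2 ?_)
    rw [T.valX_range (by simp) hu, irr_apply_one, h8, show charDegree χ.1 = 1 by
      rw [h8] at h6; omega]
    simp
  rw [show ι.range = ker χ.1 from (H.syl.toSylowTop.is_maximal' h10 h11).symm]
  infer_instance

/-- Let p > 2 be a prime and G a permutation group on p letters whose Sylow p-subgroup P has normalizer of order 2p. Then either P is normal in G, or p − 1 = 2^a for some a and G is isomorphic to SL(2, 2^a). -/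
theorem result {α : Type*} [Fintype α] [DecidableEq α] {p : ℕ} [Fact p.Prime] (hp : 2 < p) (hα : Fintype.card α = p) (G : Subgroup (Equiv.Perm α)) (P : Sylow p G) (hN : Nat.card (Subgroup.normalizer ((P : Subgroup G) : Set G)) = 2 * p) : (P : Subgroup G).Normal ∨ ∃ (a : ℕ) (F : Type) (_ : Field F) (_ : Fintype F), p = 2 ^ a + 1 ∧ Fintype.card F = 2 ^ a ∧ Nonempty (G ≃* Matrix.SpecialLinearGroup (Fin 2) F) := by
  classical
  have hp' : p.Prime := Fact.out
  have hG : Nat.card G ∣ p.factorial := by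
    rw [← hα, ← Fintype.card_perm, ← Nat.card_eq_fintype_card]
    exact G.card_subgroup_dvd_card
  have hNG := Subgroup.card_subgroup_dvd_card (Subgroup.normalizer ((P : Subgroup G) : Set G))
  rw [hN] at hNG
  by_cases h3 : p = 3
  · left
    subst h3
    exact Subgroup.normalizer_eq_top_iff.1 (Subgroup.eq_top_of_card_eq _
      (hN.trans (Nat.dvd_antisymm hNG hG)))
  have hP : Nat.card P = p := by
    rw [P.card_eq_multiplicity, show (Nat.card G).factorization p = 1 from ?_, pow_one]
    refine le_antisymm ((Nat.factorization_le_factorization_of_dvd_right hG Nat.card_pos.ne'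
      (Nat.factorial_ne_zero _)).trans ?_) ((hp'.dvd_iff_one_le_factorization Nat.card_pos.ne').1
        ((dvd_mul_left _ _).trans hNG))
    obtain ⟨q, rfl⟩ : ∃ q, p = q + 1 := ⟨p - 1, by omega⟩
    rw [Nat.factorial_succ, Nat.factorization_mul (by omega) (Nat.factorial_ne_zero _),
      Finsupp.add_apply, hp'.factorization_self, Nat.factorization_eq_zero_of_not_dvd
        (by rw [hp'.dvd_factorial]; omega)]
  obtain ⟨A, _, _, ι, H, hι⟩ := exists_primeSyl (isSylowIn_sylow P) hP
  have hC := H.centralizer_le_of_perm G.subtype G.subtype_injective (by omega)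
  have he : Nat.card (autN ι) = 2 := by
    have h1 := card_centralizer_mul_relIndex_mul_index ι.range
    rw [H.centralizer_le_iff.1 hC, ← card_autN H.inj,
      ← (Subgroup.normalizer (ι.range : Set G)).card_mul_index, hι, hN] at h1
    have := mul_right_cancel₀ Subgroup.index_ne_zero_of_finite h1
    nlinarith
  have hπ := isCharacter_permChar (G := G) α
  have : Nonempty α := Fintype.card_pos_iff.1 (by omega)
  have hψ := hπ.sub_irr (irrOne G) (by
    rw [irrOne_val, ip_permChar_one]; exact Nat.cast_ne_zero.2 (Nat.card_ne_zero.2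
      ⟨⟨Quotient.mk'' (Classical.arbitrary α)⟩, inferInstance⟩))
  have h1 : permChar G α 1 = p := by rw [permChar_apply_one, Nat.card_eq_fintype_card, hα]
  rw [← hι]
  refine aux H (by omega) hC he hψ (hψ.ker_eq_bot_iff.2 fun g hg => ?_) ?_ fun u hu => ?_
  · have h2 : Nat.card (MulAction.fixedBy α g) = Nat.card α := by
      have : permChar G α g = permChar G α 1 := by simpa using hg
      rw [permChar_apply_one, permChar_apply] at this
      exact_mod_cast this
    have h4 := Set.eq_univ_iff_ncard (MulAction.fixedBy α g) |>.2 h2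
    exact Subtype.ext (Equiv.ext fun x => h4.ge (Set.mem_univ x))
  · rw [charDegree_eq_of_apply_one (n := p - 1) (by
      rw [Pi.sub_apply, h1, Nat.cast_sub hp'.one_le]; simp)]
    omega
  · have h2 : orderOf (ι u : Equiv.Perm α) = p := by
      rw [Subgroup.orderOf_coe, orderOf_injective ι H.inj, H.orderOf_eq hu]
    have h4 := (Equiv.Perm.isCycle_of_prime_order'' (hα ▸ hp') (h2.trans hα.symm)).orderOf
    rw [h2, ← hα, eq_comm, Finset.card_eq_iff_eq_univ] at h4
    have : IsEmpty {x : α // ι u • x = x} := ⟨fun x =>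
      Equiv.Perm.mem_support.1 (h4.ge (Finset.mem_univ x.1)) x.2⟩
    simp [permChar_apply']
end Cfsg.Agent.S4706
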