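import Cfsg.Statements.S4707
import Cfsg.Agent.Lib.Block.PMinusTwo

set_option autoImplicit false
open Cfsg

namespace Cfsg.Agent.S4707

open CT BT GT

open MulAction

set_option linter.unusedSectionVars false

section
variable {G : Type*} [Group G] [Finite G] {α : Type*} [Finite α] [MulAction G α]

theorem two_transitive [IsPretransitive G α] [Nontrivial α]
    (h : ip (permChar G α) (permChar G α) = 2) : IsMultiplyPretransitive G α 2 := by
  rw [ip_permChar_permChar] at h
  obtain ⟨a⟩ : Nonempty α := inferInstance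
  obtain ⟨q, -, hq⟩ := (Nat.card_eq_two_iff' (Quotient.mk'' (a, a) :
    orbitRel.Quotient G (α × α))).1 (by exact_mod_cast h)
  have h1 : ∀ c d : α, c ≠ d → (Quotient.mk'' (c, d) : orbitRel.Quotient G (α × α)) = q :=
    fun c d hcd => hq _ fun h => by
      obtain ⟨g, hg⟩ := orbitRel_apply.1 (Quotient.exact' h)
      exact hcd ((congrArg Prod.fst hg).symm.trans (congrArg Prod.snd hg))
  refine is_two_pretransitive_iff.2 fun {a b c d} h h' => ?_
  obtain ⟨g, hg⟩ := orbitRel_apply.1 (Quotient.exact' ((h1 c d h').trans (h1 a b h).symm))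
  exact ⟨g, congrArg Prod.fst hg, congrArg Prod.snd hg⟩

theorem card_dvd [FaithfulSMul G α] [IsPreprimitive G α] [Nonempty α] (K : Subgroup G) [K.Normal]
    (hK : K ≠ ⊥) : Nat.card α ∣ Nat.card K := by
  obtain ⟨a⟩ : Nonempty α := inferInstance
  have : IsPretransitive K α := IsQuasiPreprimitive.isPretransitive_of_normal fun h =>
    hK ((Subgroup.eq_bot_iff_forall K).2 fun g hg => eq_of_smul_eq_smul (α := α) fun x => by
      rw [one_smul]; exact (h.ge (Set.mem_univ x)) ⟨g, hg⟩)
  rw [← index_stabilizer_of_transitive K a]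
  exact Subgroup.index_dvd_card _

variable {p : ℕ} [Fact p.Prime] {A : Type} [CommGroup A] [Finite A] {ι : A →* G}

theorem eq_five {χ : IrrCharacter G} {Z : Finset (IrrCharacter G)} (O : PM2 p ι χ Z)
    (H : Subgroup G) (hH : H.index = 2 * p) (h : ip (ind H fun _ => 1) χ.1 = 1) : p = 5 := by
  classical
  have := Fintype.ofFinite H
  have hp : p.Prime := Fact.out
  have hlt := O.five_le
  have h1 := H.card_mul_index
  rw [hH, O.card_eq] at h1
  have h2 : Nat.card H * 2 = (p - 1) * (p - 2) :=
    Nat.eq_of_mul_eq_mul_left hp.pos (by linarith)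
  have h3 : ∀ g : H, ¬ p ∣ orderOf (g : G) := fun g hg => by
    rw [Subgroup.orderOf_coe] at hg
    rcases (Nat.Prime.dvd_mul hp).1 (h2 ▸ (hg.trans (orderOf_dvd_natCard g)).mul_right 2) with
      h | h <;> have := Nat.le_of_dvd (by omega) h <;> omega
  rw [ip_ind_left H _ (irr_isClassFunction χ), ip_def, inv_mul_eq_iff_eq_mul₀ card_cast_ne_zero,
    mul_one, Nat.card_eq_fintype_card, ← Finset.card_univ, Finset.card_eq_sum_ones, Nat.cast_sum,
    ← sub_eq_zero, ← Finset.sum_sub_distrib, ← Finset.add_sum_erase _ _ (Finset.mem_univ 1),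
    Finset.sum_congr rfl (g := fun g : H => -if orderOf g = 2 then 1 else 0) fun g hg => ?_,
    Finset.sum_erase _ (by simp), Finset.sum_neg_distrib, Finset.sum_boole, res_apply, O.isReal,
    Subgroup.coe_one, O.apply_one] at h
  · obtain ⟨T⟩ : Nonempty (Sylow 2 H) := inferInstance
    obtain ⟨S⟩ : Nonempty (Sylow 2 G) := inferInstance
    have h4 := card_invol_eq_card_sylow_mul (fun j g : H => fun hj hc => Subtype.ext
      (O.mul_self_eq_one j g (by rwa [Subgroup.orderOf_coe]) (congrArg Subtype.val hc))) T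
    have h5 : Nat.card {j : H // orderOf j = 2} + 2 = p := by
      rw [Nat.card_eq_fintype_card, Fintype.card_subtype]
      refine Nat.cast_injective (R := ℂ) ?_
      push_cast at h ⊢
      linear_combination -h
    have h6 : Nat.card T * 2 + 1 = p := by
      have h7 := (O.card_sylow_two S).1
      rw [S.card_eq_multiplicity, ← H.card_mul_index, hH, ← mul_assoc,
        Nat.factorization_mul (by simp) hp.ne_zero, Nat.factorization_mul (by simp) two_ne_zero,
        Finsupp.add_apply, Finsupp.add_apply, Nat.prime_two.factorization_self,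
        Nat.factorization_eq_zero_of_not_dvd O.odd.not_two_dvd_nat, add_zero, pow_succ,
        ← T.card_eq_multiplicity] at h7
      omega
    obtain ⟨k, hk⟩ : ∃ k, Nat.card T = k + 1 := ⟨Nat.card T - 1, by omega⟩
    rw [hk, Nat.add_sub_cancel] at h4
    have h7 : k ∣ 2 * k + 1 := ⟨Nat.card (Sylow 2 H), by rw [mul_comm k, ← h4]; omega⟩
    have := Nat.dvd_one.1 ((Nat.dvd_add_right (dvd_mul_left k 2)).1 h7)
    omega
  · rw [res_apply, O.isReal]
    split_ifs with h
    · simp [O.apply_invol ((Subgroup.orderOf_coe g).trans h)]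
    · simp [(O.apply_of_ne (h3 g) fun h2 => h (orderOf_eq_prime (by rw [sq]; exact Subtype.ext h2)
        (Finset.ne_of_mem_erase hg))).1]

theorem alt_five {χ : IrrCharacter G} {Z : Finset (IrrCharacter G)} [Fact (Nat.Prime 5)]
    (O : PM2 5 ι χ Z) : Nonempty (G ≃* alternatingGroup (Fin 5)) := by
  obtain ⟨S⟩ : Nonempty (Sylow 2 G) := inferInstance
  have h := (O.card_sylow_two S).2
  let φ := (Finite.equivFinOfCardEq h).permCongrHom.toMonoidHom.comp (toPermHom G (Sylow 2 G))
  have hφ : Function.Injective φ := by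
    refine (Finite.equivFinOfCardEq h).permCongrHom.injective.comp
      ((injective_iff_map_eq_one (toPermHom G (Sylow 2 G))).2 fun g hg => O.eq_one_of_three_le ?_)
    rw [Nat.card_congr (Equiv.subtypeUnivEquiv (p := fun S : Sylow 2 G => g • S = S)
      fun S => DFunLike.congr_fun hg S), h]
    norm_num
  have h1 := φ.range.card_mul_index
  rw [← Nat.card_congr (φ.ofInjective hφ).toEquiv, O.card_eq, Nat.card_perm, Nat.card_fin] at h1
  rw [← Equiv.Perm.eq_alternatingGroup_of_index_eq_two (G := φ.range) (by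
    norm_num [Nat.factorial] at h1; omega)]
  exact ⟨φ.ofInjective hφ⟩

end

/-- Let p > 3 be a prime and G a primitive permutation group of degree 2p that is not doubly transitive. If a Sylow p-subgroup of G has normalizer of order 2p, then p = 5 and G is isomorphic to the alternating group of degree 5. -/
theorem result {α : Type*} [Fintype α] [DecidableEq α] {p : ℕ} [Fact p.Prime] (hp : 3 < p) (hα : Fintype.card α = 2 * p) (G : Subgroup (Equiv.Perm α)) (hprim : MulAction.IsPreprimitive G α) (hnot2 : ¬ MulAction.IsMultiplyPretransitive G α 2) (P : Sylow p G) (hN : Nat.card (Subgroup.normalizer ((P : Subgroup G) : Set G)) = 2 * p) : p = 5 ∧ Nonempty (G ≃* alternatingGroup (Fin 5)) := by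
  have hp' : p.Prime := Fact.out
  rw [← Nat.card_eq_fintype_card] at hα
  have : Nontrivial α := Finite.one_lt_card_iff_nontrivial.1 (by omega)
  obtain ⟨a⟩ : Nonempty α := inferInstance
  have hH : (stabilizer G a).index = 2 * p := hα ▸ index_stabilizer_of_transitive G a
  have hK : ∀ K : Subgroup G, K.Normal → ¬ 2 * p ∣ Nat.card K → K = ⊥ := fun K _ h =>
    by_contra fun h' => h (hα ▸ card_dvd K h')
  have hG : 2 * p ∣ Nat.card G := hH ▸ Subgroup.index_dvd_card _
  have h2 : ∀ k, ¬ 2 ∣ p ^ k := fun k h => by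
    have := (Nat.prime_dvd_prime_iff_eq Nat.prime_two hp').1 (Nat.prime_two.dvd_of_dvd_pow h)
    omega
  have hP : Nat.card P = p := by
    obtain ⟨k, hk⟩ := P.isPGroup'.exists_card_eq
    refine Nat.dvd_antisymm (Nat.Coprime.dvd_of_dvd_mul_left (m := 2) ?_
      ((Subgroup.card_dvd_of_le Subgroup.le_normalizer).trans hN.dvd))
      (P.dvd_card_of_dvd_card ((dvd_mul_left p 2).trans hG))
    rw [hk]
    exact (Nat.prime_two.coprime_iff_not_dvd.2 (h2 k)).symm
  obtain ⟨A, _, _, ι, H, hι⟩ := exists_primeSyl (isSylowIn_sylow P) hP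
  rw [← hι] at hN
  have hO : pPrimeCore p G = ⊥ := hK _ inferInstance fun h =>
    not_dvd_card_pPrimeCore p G ((dvd_mul_left p 2).trans h)
  obtain ⟨hC, he⟩ : Subgroup.centralizer (ι.range : Set G) ≤ ι.range ∧
      (Subgroup.centralizer (ι.range : Set G)).relIndex (Subgroup.normalizer (ι.range : Set G)) =
        2 := by
    have h1 := card_centralizer_mul_relIndex_mul_index ι.range
    rw [← (Subgroup.normalizer (ι.range : Set G)).card_mul_index, hN] at h1
    obtain ⟨c, hc⟩ := H.dvd_card_centralizer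
    replace h1 := Nat.eq_of_mul_eq_mul_right (Nat.pos_of_ne_zero Subgroup.index_ne_zero_of_finite) h1
    rw [hc, mul_assoc, mul_comm 2] at h1
    replace h1 := Nat.eq_of_mul_eq_mul_left hp'.pos h1
    rcases (Nat.dvd_prime Nat.prime_two).1 (Dvd.intro_left _ h1) with h3 | h3
    · obtain ⟨K, hK', h4, k, h5⟩ := hasNormalPComplement_iff_exists.1 (H.hasNormalPComplement h3)
      rw [hK K hK' fun h => h4 ((dvd_mul_left p 2).trans h), Subgroup.index_bot] at h5
      exact absurd (h5 ▸ (dvd_mul_right 2 p).trans hG) (h2 k)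
    · rw [H.centralizer_le_iff, hc, show c = 1 by rw [h3] at h1; omega, mul_one]
      exact ⟨rfl, h3⟩
  obtain ⟨E, X, Z, Y, δ, δ₀, O⟩ := H.exists_prinOne
  have hE := O.card_E.trans he
  obtain ⟨χ, h1, h3, -, h4⟩ := O.exists_pair hp hE
  have hπ := isCharacter_permChar (G := G) α
  have hπ0 : ∀ x : G, p ∣ orderOf x → permChar G α x = 0 := fun x hx => by
    have : IsEmpty {b : α // x • b = b} := ⟨fun ⟨b, hb⟩ => by
      have h3 := hx.trans (Subgroup.orderOf_dvd_natCard (stabilizer G b) hb)
      have h4 := (stabilizer G b).card_mul_index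
      rw [index_stabilizer_of_transitive, hα] at h4
      have := hp'.pow_dvd_iff_le_factorization (Nat.card_pos (α := G)).ne' |>.1
        (show p ^ 2 ∣ Nat.card G by rw [← h4, sq]; exact mul_dvd_mul h3 (dvd_mul_left p 2))
      rw [H.factorization_card] at this
      omega⟩
    simp [permChar_apply']
  have hπ1 : ip (permChar G α) (irrOne G).1 = 1 := by
    rw [permChar_eq_ind_stabilizer a]; exact ip_ind_one_one _
  have hm : ∀ ψ ∈ Z, δ₀ * mult (permChar G α) ψ.1 + (1 + δ χ * mult (permChar G α) χ.1) = 0 :=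
    fun ψ hψ => by
      have := Fintype.ofFinite G
      have h5 : ip (permChar G α) ((δ₀ : ℂ) • ψ.1 + ((irrOne G).1 + (δ χ : ℂ) • χ.1)) = 0 := by
        rw [ip_def, Finset.sum_eq_zero fun g _ => ?_, mul_zero]
        by_cases h : p ∣ orderOf g
        · rw [hπ0 g h, zero_mul]
        · have := O.reg ψ hψ g h
          rw [h4 fun θ => θ.1 g] at this
          simp only [Pi.add_apply, Pi.smul_apply, smul_eq_mul, this, map_zero, mul_zero]
      rw [ip_add_right, ip_add_right, ip_smul_right, ip_smul_right, hπ1, map_intCast, map_intCast,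
        hπ.ip_eq_mult (irr_isCharacter ψ), hπ.ip_eq_mult (irr_isCharacter χ)] at h5
      exact_mod_cast h5
  have hd : ∀ ψ ∈ Z, δ₀ * charDegree ψ.1 + (1 + δ χ * charDegree χ.1) = 0 := fun ψ hψ => by
    have := O.reg ψ hψ 1 not_dvd_orderOf_one
    rw [h4 fun θ => θ.1 1] at this
    simp only [irr_apply_one, charDegree_irrOne] at this
    exact_mod_cast this
  obtain ⟨u, hu⟩ := @exists_ne A H.nontrivial 1
  have hlin : charDegree χ.1 ≠ 1 := fun h => by
    obtain ⟨ψ, hψ, h5⟩ : ∃ ψ ∈ Z, ι u ∉ ker ψ.1 := by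
      by_contra! h5
      have h6 := O.sumZ _ (H.dvd_orderOf hu)
      rw [Finset.sum_congr rfl fun ψ hψ => ((irr_mem_ker_iff ψ).1 (h5 ψ hψ)).trans
        (irr_apply_one ψ)] at h6
      have h7 := Finset.card_nsmul_le_sum Z (fun ψ => charDegree ψ.1) 1 fun ψ _ => irr_degree_pos ψ
      have h8 : ((∑ ψ ∈ Z, charDegree ψ.1 : ℕ) : ℤ) = δ₀ := by exact_mod_cast h6
      have := O.card_Z
      have := O.sign₀
      rw [smul_eq_mul] at h7
      rw [hE] at *
      omega
    have h6 := hd ψ hψ
    have h7 := irr_degree_pos ψ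
    obtain ⟨h8, h9⟩ : δ χ = 1 ∧ δ₀ = -1 := by
      rw [h] at h6
      rcases O.sign χ h1 with h8 | h8 <;> rcases O.sign₀ with h9 | h9 <;> rw [h8, h9] at h6 <;>
        omega
    obtain ⟨t, ht⟩ := exists_prime_orderOf_dvd_card' (G := ker χ.1) 2 (by
      by_contra h10
      have h11 : ι u ∈ ker χ.1 := (irr_mem_ker_iff χ).2 (by
        rw [O.valX χ h1 _ (H.dvd_orderOf hu), irr_apply_one, h, h8]; simp)
      rw [hK _ inferInstance fun h => h10 ((dvd_mul_right 2 p).trans h), Subgroup.mem_bot,
        map_eq_one_iff _ H.inj] at h11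
      exact hu h11)
    have h10 := O.reg ψ hψ t (by
      rw [Subgroup.orderOf_coe, ht]; exact fun h => by have := Nat.le_of_dvd two_pos h; omega)
    have h11 := O.reg ψ hψ 1 not_dvd_orderOf_one
    rw [h4 fun θ => θ.1 t, (irr_mem_ker_iff χ).1 t.2] at h10
    rw [h4 fun θ => θ.1 1] at h11
    have h12 : (t : G) ∈ ker ψ.1 := (irr_mem_ker_iff ψ).2 (by
      rw [h9] at h10 h11
      simp only [irrOne_apply] at h10 h11
      push_cast at h10 h11
      linear_combination h11 - h10)
    rw [hK _ inferInstance fun h => h5 (H.range_le_of_dvd _ ((dvd_mul_left p 2).trans h) ⟨u, rfl⟩),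
      Subgroup.mem_bot] at h12
    rw [show t = 1 from Subtype.ext h12, orderOf_one] at ht
    omega
  have hdeg : charDegree (permChar G α) = 2 * p :=
    charDegree_eq_of_apply_one (by rw [permChar_apply_one, hα])
  obtain ⟨ψ, hψ⟩ := O.nonempty_Z
  have h5 := hm ψ hψ
  have h6 := hd ψ hψ
  suffices h : ∃ χ Z, PM2 p ι χ Z ∧ p = 5 by
    obtain ⟨χ, Z, O, rfl⟩ := h
    exact ⟨rfl, alt_five O⟩
  by_cases h0 : mult (permChar G α) ψ.1 = 0
  · obtain ⟨h7, h8⟩ : δ χ = -1 ∧ mult (permChar G α) χ.1 = 1 := by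
      rw [h0] at h5
      rcases O.sign χ h1 with h8 | h8 <;> rw [h8] at h5 ⊢ <;> omega
    have h9 : ip (permChar G α) χ.1 = 1 := by rw [hπ.ip_eq_mult (irr_isCharacter χ), h8]; simp
    have h10 := hπ.sub_irr (irrOne G) (by rw [hπ1]; exact one_ne_zero)
    have h11 : ip (permChar G α - (irrOne G).1) χ.1 ≠ 0 := by
      rw [ip_sub_left, h9, ip_irr_ne h3.symm]; simp
    have h12 : charDegree (permChar G α - (irrOne G).1) = 2 * p - 1 :=
      charDegree_eq_of_apply_one (by
        rw [Pi.sub_apply, permChar_apply_one, hα, Nat.cast_sub (by omega)]; simp)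
    have h13 : charDegree χ.1 < 2 * p - 1 := by
      by_contra h
      refine hnot2 (two_transitive ?_)
      rw [sub_eq_iff_eq_add.1 (h10.eq_irr_of_ip_ne_zero_of_degree_le χ h11 (by omega)),
        ip_add_left, ip_add_right, ip_add_right, ip_irr_self, ip_irr_self, ip_irr_ne h3,
        ip_irr_ne h3.symm]
      norm_num
    have h14 : charDegree χ.1 + 1 = p := by
      obtain ⟨k, hk⟩ := (O.degX χ h1).symm.dvd
      rw [h7] at hk
      have h15 : 0 < k := pos_of_mul_pos_right (by omega) (Int.natCast_nonneg p)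
      have h16 : k < 2 := lt_of_mul_lt_mul_left (by omega) (Int.natCast_nonneg p)
      obtain rfl : k = 1 := by omega
      omega
    obtain ⟨χ', Z', O'⟩ := H.exists_pm2 hp hC he hO (Or.inl h14)
    refine ⟨χ', Z', O', eq_five O' _ hH ?_⟩
    rw [← permChar_eq_ind_stabilizer, ← O'.eq_of_degree h14, h9]
  · have h7 := Finset.sum_le_sum_of_subset
      (f := fun θ => mult (permChar G α) θ.1 * charDegree θ.1) (Finset.subset_univ Z)
    rw [← hπ.degree_eq_sum_mult, hdeg] at h7
    have h8 := (Finset.card_nsmul_le_sum Z _ (charDegree ψ.1) fun θ hθ => by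
      rw [O.degree_eq hψ hθ]
      refine Nat.le_mul_of_pos_left _ (Nat.pos_of_ne_zero fun h => h0 ?_)
      have := hm θ hθ
      rw [h] at this
      rcases O.sign₀ with h9 | h9 <;> rw [h9] at this h5 <;> omega).trans h7
    have h9 := O.card_Z
    have h10 := (O.degZ ψ hψ).symm.dvd
    rw [hE] at h9 h10
    rw [smul_eq_mul] at h8
    have hp5 : 5 ≤ p := hp'.five_le_of_ne_two_of_ne_three (by omega) (by omega)
    have h11 : charDegree ψ.1 ≤ 5 := by
      by_contra! h
      have := (Nat.mul_le_mul_left Z.card h).trans h8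
      omega
    have h12 := irr_degree_pos ψ
    have h13 : charDegree ψ.1 + 2 = p := by
      rcases O.sign₀ with h | h <;> rw [h] at h10 h6
      · have := Int.le_of_dvd (by omega) h10
        rcases (show p = 5 ∨ p = 6 ∨ p = 7 by omega) with rfl | rfl | rfl <;> omega
      · have := Int.eq_zero_of_abs_lt_dvd h10 (abs_lt.2 (by omega))
        rcases O.sign χ h1 with h | h <;> rw [h] at h6 <;> omega
    obtain ⟨χ', Z', O'⟩ := H.exists_pm2 hp hC he hO (Or.inr h13)
    refine ⟨χ', Z', O', by_contra fun h => ?_⟩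
    have := (Nat.mul_le_mul_left Z.card (show 5 ≤ charDegree ψ.1 by omega)).trans h8
    omega

end Cfsg.Agent.S4707
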