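import Cfsg.Statements.S4708
import Cfsg.Agent.Lib.Block.CoverP
import Cfsg.Agent.Lib.Block.Contrib
-- import your own Cfsg.Agent.* helpers here

set_option autoImplicit false
open Cfsg

namespace Cfsg.Agent.S4708

open BT CT GT
open scoped Pointwise ComplexConjugate

/-- Let p be a prime, M a maximal ideal of the algebraic integers containing p, G a finite group and H a normal subgroup. Write λ(X) for the sum of the squares of the degrees of the irreducible characters in the principal p-block of a group X. Then λ(H) ≤ λ(G) ≤ [G : H]·λ(H). -/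
theorem result {G : Type*} [Group G] [Finite G] (p : ℕ) [Fact p.Prime] (M : Ideal Cfsg.AlgInt) (hM : Cfsg.IsPModular p M) (H : Subgroup G) [H.Normal] : (∑ᶠ θ ∈ Cfsg.principalBlock M H, Cfsg.charDegree (θ : H → ℂ) ^ 2) ≤ (∑ᶠ χ ∈ Cfsg.principalBlock M G, Cfsg.charDegree (χ : G → ℂ) ^ 2) ∧ (∑ᶠ χ ∈ Cfsg.principalBlock M G, Cfsg.charDegree (χ : G → ℂ) ^ 2) ≤ H.index * ∑ᶠ θ ∈ Cfsg.principalBlock M H, Cfsg.charDegree (θ : H → ℂ) ^ 2 := by
  classical
  rw [finsum_mem_eq_sum_bset, finsum_mem_eq_sum_bset]
  set B := principalBlock M G with hB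
  set b := principalBlock M H with hb
  let a : IrrCharacter H → ℕ := fun θ => ∑ χ ∈ bset B, mult (res H χ.1) θ.1 * charDegree χ.1
  have h1 : ∑ χ ∈ bset B, charDegree χ.1 ^ 2 = ∑ θ ∈ bset b, a θ * charDegree θ.1 := by
    rw [sum_bset_eq_sum_univ b]
    · simp only [a, Finset.sum_mul]
      rw [Finset.sum_comm]
      refine Finset.sum_congr rfl fun χ _ => ?_
      have := ((irr_isCharacter χ).res H).degree_eq_sum_mult
      rw [charDegree_res] at this
      rw [sq]
      conv_lhs => arg 1; rw [this]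
      rw [Finset.sum_mul]
      exact Finset.sum_congr rfl fun θ _ => by ring
    · intro θ hθ
      rw [mul_eq_zero]; left
      refine Finset.sum_eq_zero fun χ hχ => ?_
      rw [mul_eq_zero]; left
      by_contra h0
      exact hθ (mem_principal_of_liesOver hM (mem_bset.1 hχ)
        ((liesOver_iff_mult_pos (irr_isCharacter χ) (irr_isCharacter θ)).2 (Nat.pos_of_ne_zero h0)))
  rw [h1]
  constructor
  · refine Finset.sum_le_sum fun θ hθ => ?_
    obtain ⟨χ, hχ, hl⟩ := exists_principal_liesOver (G := G) hM (mem_bset.1 hθ)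
    rw [sq]
    refine Nat.mul_le_mul_right _ ?_
    refine le_trans ?_ (Finset.single_le_sum (f := fun χ : IrrCharacter G =>
      mult (res H χ.1) θ.1 * charDegree χ.1) (fun _ _ => Nat.zero_le _) (mem_bset.2 hχ))
    have h2 := (liesOver_iff_mult_pos (irr_isCharacter χ) (irr_isCharacter θ)).1 hl
    have h3 := hl.degree_le (irr_isCharacter χ)
    exact h3.trans (Nat.le_mul_of_pos_left _ h2)
  · rw [Finset.mul_sum]
    refine Finset.sum_le_sum fun θ _ => ?_
    rw [sq, ← mul_assoc]
    refine Nat.mul_le_mul_right _ ?_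
    rw [← sum_irrOver_mult_mul_degree (irr_isCharacter θ)]
    refine Finset.sum_le_sum_of_ne_zero fun χ _ h0 => ?_
    rw [mem_irrOver, liesOver_iff_mult_pos (irr_isCharacter χ) (irr_isCharacter θ)]
    exact Nat.pos_of_ne_zero fun h => h0 (by rw [h, zero_mul])

end Cfsg.Agent.S4708
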