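import Cfsg.Statements.S4709
import Cfsg.Agent.Lib.Block.AbFrob

set_option autoImplicit false
open Cfsg

namespace Cfsg.Agent.S4709

open CT BT GT
open scoped ComplexConjugate


/-- Let p be a prime, M a maximal ideal of the algebraic integers containing p, and G a finite group with a nontrivial abelian Sylow p-subgroup P; put N = N_G(P), C = C_G(P). Suppose N/C is cyclic of order m with 1 < m < #P − 1 (C has index m in N and N is generated by C and one element), and C_G(y) ∩ N = C for every non-identity y ∈ P. Put r = (#P − 1)/m. Then there is s ≤ m such that the principal p-block is the disjoint union of a set X of s characters containing the principal character and a set Y of r characters, with integers a_χ ≠ 0 (χ ∈ X), d and a sign δ = ±1, such that: every χ ∈ X takes the value a_χ at every element whose p-part is a non-identity element of P; there is a map ζ from the non-principal linear characters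 ψ of P onto Y, constant on N-conjugacy classes, with ζ_ψ(z) = d + δ·Σ ψ'(y) for every z whose p-part y is a non-identity element of P, the sum running over the N-conjugates ψ' of ψ; (d − δ)^2 + (r − 1) d^2 + Σ_{χ ∈ X} a_χ^2 = m + 1; all members of Y agree on p-regular elements; and (r d − δ) η(g) + Σ_{χ ∈ X} a_χ χ(g) = 0 for every η ∈ Y and every p-regular g. -/
theorem result {G : Type*} [Group G] [Finite G] (p : ℕ) [Fact p.Prime] (M : Ideal Cfsg.AlgInt) (hM : Cfsg.IsPModular p M) (P : Sylow p G) (hab : IsMulCommutative P) (hP1 : Nat.card P ≠ 1) (m : ℕ) (hm1 : 1 < m) (hm2 : m + 1 < Nat.card P) (hCN : (Subgroup.centralizer ((P : Subgroup G) : Set G)).relIndex (Subgroup.normalizer ((P : Subgroup G) : Set G)) = m) (hcyc : ∃ g : G, g ∈ Subgroup.normalizer ((P : Subgroup G) : Set G) ∧ Subgroup.centralizer ((P : Subgroup G) : Set G) ⊔ Subgroup.zpowers g = Subgroup.normalizer ((P : Subgroup G) : Set G))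 (hfrob : ∀ y : G, y ∈ (P : Subgroup G) → y ≠ 1 → Subgroup.centralizer ({y} : Set G) ⊓ Subgroup.normalizer ((P : Subgroup G) : Set G) = Subgroup.centralizer ((P : Subgroup G) : Set G)) : ∃ (s : ℕ) (X Y : Set (Cfsg.IrrCharacter G)), s ≤ m ∧ Cfsg.principalBlock M G = X ∪ Y ∧ Disjoint X Y ∧ Nat.card X = s ∧ Nat.card Y = (Nat.card P - 1) / m ∧ (∃ χ₁ ∈ X, (χ₁ : G → ℂ) = fun _ => 1) ∧ ∃ (a : Cfsg.IrrCharacter G → ℤ) (d δ : ℤ) (ζ : (↥(P : Subgroup G) →* ℂˣ) → Cfsg.IrrCharacter G), (δ = 1 ∨ δ = -1) ∧ (∀ χ ∈ X, a χ ≠ 0 ∧ ∀ z y : G, Cfsg.IsPPart p z y → y ∈ (P : Subgroup G) → y ≠ 1 → (χ : G → ℂ) z = (a χ : ℂ)) ∧ (∀ ψ : ↥(P : Subgroup G) →* ℂˣ, ψ ≠ 1 → ζ ψ ∈ Y) ∧ (∀ η ∈ Y, ∃ ψ : ↥(P : Subgroup G) →* ℂˣ, ψ ≠ 1 ∧ ζ ψ = η) ∧ (∀ ψ ψ' : ↥(P : Subgroup G) →* ℂˣ, ψ ≠ 1 → (∃ n : G, n ∈ Subgroup.normalizer ((P : Subgroup G) : Set G) ∧ ∀ w w' : ↥(P : Subgroup G), (w' : G) = n * w * n⁻¹ → ψ' w' = ψ w) → ζ ψ' = ζ ψ) ∧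 (∀ ψ : ↥(P : Subgroup G) →* ℂˣ, ψ ≠ 1 → ∀ (z : G) (y : ↥(P : Subgroup G)), Cfsg.IsPPart p z (y : G) → (y : G) ≠ 1 → (ζ ψ : G → ℂ) z = (d : ℂ) + (δ : ℂ) * ∑ᶠ ψ' ∈ {ψ' : ↥(P : Subgroup G) →* ℂˣ | ∃ n : G, n ∈ Subgroup.normalizer ((P : Subgroup G) : Set G) ∧ ∀ w w' : ↥(P : Subgroup G), (w' : G) = n * w * n⁻¹ → ψ' w' = ψ w}, ((ψ' y : ℂˣ) : ℂ)) ∧ ((d - δ) ^ 2 + ((Nat.card P - 1) / m - 1 : ℤ) * d ^ 2 + ∑ᶠ χ ∈ X, a χ ^ 2 = (m : ℤ) + 1) ∧ (∀ η ∈ Y, ∀ η' ∈ Y, ∀ g : G, ¬ p ∣ orderOf g → (η : G → ℂ) g = (η' : G → ℂ) g) ∧ (∀ η ∈ Y, ∀ g : G, ¬ p ∣ orderOf g → ((((Nat.card P - 1) / m : ℕ) : ℂ) * d - δ) * (η : G → ℂ) g + ∑ᶠ χ ∈ X, (a χ : ℂ) * (χ : G → ℂ) g = 0) := by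
  classical
  let : CommGroup (P : Subgroup G) :=
    { (inferInstance : Group (P : Subgroup G)) with mul_comm := fun a b => hab.is_comm.comm a b }
  have hr : (P : Subgroup G).subtype.range = P := Subgroup.range_subtype _
  have F : AbFrob p (P : Subgroup G).subtype := ⟨Subtype.val_injective,
    by rw [hr]; exact isSylowIn_sylow P, fun u hu => by
      rw [hr]; exact (hfrob u u.2 fun h => hu (Subtype.ext h)).le⟩
  have hE : Nat.card (autN (P : Subgroup G).subtype) = m := by rw [card_autN F.inj, hr, hCN]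
  have hc : Nat.card (autN (P : Subgroup G).subtype) + 1 < Nat.card (P : Subgroup G) := by
    rw [hE]; exact hm2
  have : Nontrivial (P : Subgroup G) := Finite.one_lt_card_iff_nontrivial.1 (by omega)
  obtain ⟨X, Y, a, d, δ, T⟩ := F.exists_frobStr hM hc
  obtain ⟨h1, h2, h3, h4⟩ := F.hatExt_spec hM T
  rw [hr] at h3 h4
  have hY : Nat.card (Set.range Y) = (Nat.card P - 1) / m := hE ▸ T.card_range
  refine ⟨Nat.card X, X, Set.range Y, hE ▸ T.card_le hc fun χ => F.ne_zero hM T, T.eq_union,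
    T.disjoint, rfl, hY, ⟨irrOne G, T.one_mem (irrOne_mem_principalBlock hM), rfl⟩, a, d, δ,
    hatExt Y, T.sign, fun χ h => ⟨F.ne_zero hM T h, fun z y hz hy hy1 => ?_⟩, h1, h2, h3, h4, ?_,
    ?_, ?_⟩
  · have hy' : (⟨y, hy⟩ : (P : Subgroup G)) ≠ 1 := fun h => hy1 (congrArg Subtype.val h)
    exact (F.apply_of_isPPart hM hy' (T.subset h) hz).trans (T.valX χ h _ hy')
  · have h5 := T.norm
    rw [hE, hY, Int.natCast_div, Nat.cast_sub (by omega)] at h5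
    rw [finsum_mem_eq_sum_bset]
    exact h5
  · rintro _ ⟨l, rfl⟩ _ ⟨l', rfl⟩
    exact T.regY l l'
  · rintro _ ⟨l, rfl⟩ g hg
    rw [finsum_mem_eq_sum_bset, ← hY]
    exact T.reg l g hg

end Cfsg.Agent.S4709
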