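import Cfsg.Statements.S4712
import Cfsg.Agent.Lib.Block.GalTrace

set_option autoImplicit false
open Cfsg

namespace Cfsg.Agent.S4712

open CT BT
open scoped MonoidAlgebra ComplexConjugate

/-- Let p be an odd prime, M a maximal ideal of the algebraic integers containing p, G a finite group of order n with p-part p^a, and B a p-block of G. Call an irreducible character χ p-rational when χ(g^k) = χ(g) for every g and every k coprime to n with k ≡ 1 modulo n/p^a (χ is fixed by the Galois automorphisms fixing the roots of unity of order prime to p). Then the number of p-rational irreducible characters in B is at least the p-regular rank of B (the number of irreducible Brauer characters in B). -/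
theorem result {G : Type*} [Group G] [Finite G] (p : ℕ) [Fact p.Prime] (hodd : p ≠ 2) (M : Ideal Cfsg.AlgInt) (hM : Cfsg.IsPModular p M) (B : Set (Cfsg.IrrCharacter G)) (hB : Cfsg.IsPBlock M B) : Cfsg.blockRank p B ≤ Nat.card {χ : Cfsg.IrrCharacter G // χ ∈ B ∧ ∀ k : ℕ, Nat.Coprime k (Nat.card G) → k ≡ 1 [MOD Nat.card G / p ^ (Nat.card G).factorization p] → ∀ g : G, (χ : G → ℂ) (g ^ k) = (χ : G → ℂ) g} := by
  have hp : p.Prime := Fact.out
  obtain ⟨k₀, h1, h2, h3⟩ := exists_generator_modEq_one hp hodd (Nat.card_pos (α := G)).ne'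
  refine (blockRank_le_card_irrPow_fixed hM hB h1 fun g hg => ?_).trans
    (Nat.card_le_card_of_injective (Subtype.impEmbedding _ _ fun χ hχ => ⟨hχ.1, fun k hk hk1 g => ?_⟩)
      (Function.Embedding.injective _))
  · have h4 : orderOf g ∣ ordCompl[p] (Nat.card G) :=
      Nat.dvd_ordCompl_of_dvd_not_dvd (orderOf_dvd_natCard g) hg
    rw [pow_eq_pow_of_modEq' (orderOf_dvd_iff_pow_eq_one.1 h4) h2, pow_one]
  · obtain ⟨j, hj⟩ := h3 k hk hk1
    rw [pow_eq_pow_of_modEq' (pow_card_eq_one' (x := g)) hj]
    clear hj
    induction j with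
    | zero => simp
    | succ j ih =>
      rw [pow_succ, pow_mul]
      exact (congrFun (congrArg Subtype.val hχ.2) _).trans ih

end Cfsg.Agent.S4712
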