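import Cfsg.Statements.S4714
import Cfsg.Agent.Lib.Block.CentralDef
import Cfsg.Agent.Lib.Block.BlockProd
import Cfsg.Agent.Lib.Block.Fong

set_option autoImplicit false
open Cfsg

namespace Cfsg.Agent.S4714

open CT BT
open scoped MonoidAlgebra ComplexConjugate

theorem sameBlock_pGroup {D : Type*} [Group D] [Finite D] {p : ℕ} [Fact p.Prime]
    {M : Ideal Cfsg.AlgInt} (hM : Cfsg.IsPModular p M) (hD : IsPGroup p D)
    (φ ψ : IrrCharacter D) : SameBlock M φ.1 ψ.1 := by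
  have h : ∀ χ : IrrCharacter D, χ ∈ principalBlock M D := fun χ => by
    rw [mem_principal_iff_of_isPSolvable hM (GT.isPSolvable_of_isPGroup hD)]
    exact ((GT.disjoint_of_isPGroup_of_not_dvd (hD.to_subgroup ⊤)
      (GT.not_dvd_card_pPrimeCore p D)).symm.eq_bot_of_le le_top).trans_le bot_le
  exact (mem_block_iff_sameBlock hM isPBlock_principalBlock (h φ) ψ).1 (h ψ)

/-- Let p be a prime, M a maximal ideal of the algebraic integers containing p, D a p-subgroup of the finite group G with G = D·C_G(D), and B a p-block with defect group D. Let χ be a member of B having D in its kernel (there is exactly one, the canonical character of B). Then the irreducible characters in B are exactly the functions θ on G for which there is an irreducible character ζ of D such that θ(yx) = ζ(y)χ(x) whenever y ∈ D, x has order prime to p and x commutes with y, and θ(z) = 0 whenever the p-part of z does not lie in D. -/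
theorem result {G : Type*} [Group G] [Finite G] (p : ℕ) [Fact p.Prime] (M : Ideal Cfsg.AlgInt) (hM : Cfsg.IsPModular p M) (D : Subgroup G) (hD : IsPGroup p D) (hG : D ⊔ Subgroup.centralizer (D : Set G) = ⊤) (B : Set (Cfsg.IrrCharacter G)) (hB : Cfsg.IsPBlock M B) (hBD : Cfsg.IsDefectGroup p M B D) (χ : Cfsg.IrrCharacter G) (hχ : χ ∈ B) (hχD : ∀ y ∈ D, (χ : G → ℂ) y = (χ : G → ℂ) 1) : (∀ θ : Cfsg.IrrCharacter G, θ ∈ B ↔ ∃ ζ : Cfsg.IrrCharacter D, (∀ (y : D) (x : G), ¬ p ∣ orderOf x → Commute (y : G) x → (θ : G → ℂ) ((y : G) * x) = (ζ : D → ℂ) y * (χ : G → ℂ) x) ∧ (∀ z : G, (∀ y : G, Cfsg.IsPPart p z y → y ∉ D) → (θ : G → ℂ) z = 0)) ∧ ∀ ζ : Cfsg.IrrCharacter D, ∃ θ ∈ B, (∀ (y : D) (x : G), ¬ p ∣ orderOf x → Commute (y : G) x → (θ : G → ℂ) ((y : G) * x) = (ζ : D → ℂ) y * (χ : G → ℂ) x) ∧ (∀ z : G, (∀ y : G, Cfsg.IsPPart p z y → y ∉ D) → (θ : G → ℂ) z = 0) := by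
  have hc : ∀ u ∈ D, ∀ v ∈ Subgroup.centralizer (D : Set G), u * v = v * u := fun u hu v hv =>
    hv u hu
  haveI : D.Normal := GT.normal_of_le_normalizer_of_sup_eq_top hG Subgroup.le_normalizer
    (Subgroup.centralizer_le_normalizer _)
  have hZ : IsPGroup p ↥(D ⊓ Subgroup.centralizer (D : Set G)) := hD.to_le inf_le_left
  have hreg : ∀ x : G, ¬ p ∣ orderOf x → x ∈ Subgroup.centralizer (D : Set G) := fun x hx => by
    refine IsPRegular.mem_of_isPGroup_quotient (p := p) hx _ ?_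
    refine hD.of_surjective ((QuotientGroup.mk' _).comp D.subtype) fun q => ?_
    obtain ⟨g, rfl⟩ := QuotientGroup.mk'_surjective _ q
    obtain ⟨u, v, rfl⟩ := exists_mul_eq_of_commute hc hG g
    exact ⟨u, by simp⟩
  obtain ⟨ζ₀, ψ₀, h₀⟩ := exists_irr_mul_of_commute hc hG χ
  have hψ₀ := liesOver_right_of_mul h₀
  have h1 : LiesOver D χ.1 (irrOne D).1 := by
    rw [LiesOver, show res D χ.1 = fun _ => χ.1 1 from funext fun y => hχD y y.2]
    exact (ip_const_one _).trans_ne (irr_apply_one_ne_zero χ)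
  have h2 : ∀ v : Subgroup.centralizer (D : Set G), χ.1 v = ψ₀.1 v := fun v => by
    simpa using irr_mul_eq_of_liesOver hc hG χ _ _ h1 hψ₀ 1 v
  have hsame : ∀ (θ : IrrCharacter G) ζ ψ, (∀ (u : D) (v : Subgroup.centralizer (D : Set G)),
      θ.1 (u * v) = (ζ : IrrCharacter D).1 u * (ψ : IrrCharacter _).1 v) →
      (θ ∈ B ↔ ψ ∈ blockOf M ψ₀.1) := fun θ ζ ψ h => by
    rw [mem_block_iff_sameBlock hM hB hχ, mem_blockOf, sameBlock_iff_of_commute hM hc hG hZ h1 hψ₀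
      (liesOver_left_of_mul h) (liesOver_right_of_mul h)]
    exact and_iff_right (sameBlock_pGroup hM hD _ _)
  have hvan : ∀ θ ∈ B, ∀ z : G, (∀ y : G, Cfsg.IsPPart p z y → y ∉ D) → θ.1 z = 0 :=
    fun θ hθ z hz => apply_eq_zero_of_normal_defect hM hB hBD hθ (hz _ (GT.isPPart_pPart p z))
  have h3 : ∀ ψ ∈ blockOf M ψ₀.1, pRegularPart p ψ.1 = pRegularPart p ψ₀.1 := fun ψ hψ => by
    refine pRegularPart_eq_of_central hM (isPBlock_blockOf ψ₀)
      (Z := D.subgroupOf _) (hD.comap_subtype) (fun z hz => Subgroup.mem_center_iff.2 fun v =>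
        Subtype.ext (hc z hz v v.2).symm) (fun ψ' hψ' g hg => ?_) hψ (mem_blockOf_self hM ψ₀)
    obtain ⟨θ, hθ⟩ := exists_irr_liesOver ψ'
    obtain ⟨ζ, ψ'', h⟩ := exists_irr_mul_of_commute hc hG θ
    have h4 := irr_mul_eq_of_liesOver hc hG θ _ _ (liesOver_left_of_mul h) hθ
    have h5 := apply_eq_zero_of_normal_defect hM hB hBD ((hsame θ ζ ψ' h4).2 hψ') (g := g)
      (by rwa [← GT.coe_pPart])
    have h6 := h4 1 g
    rw [OneMemClass.coe_one, one_mul, h5, eq_comm, mul_eq_zero] at h6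
    exact h6.resolve_left (irr_apply_one_ne_zero ζ)
  have hA : ∀ θ ∈ B, ∀ ζ : IrrCharacter D, LiesOver D θ.1 ζ.1 → ∀ (y : D) (x : G),
      ¬ p ∣ orderOf x → Commute (y : G) x → θ.1 (y * x) = ζ.1 y * χ.1 x := by
    intro θ hθ ζ hζ y x hx _
    obtain ⟨ζ', ψ, h⟩ := exists_irr_mul_of_commute hc hG θ
    have h4 := irr_mul_eq_of_liesOver hc hG θ _ _ hζ (liesOver_right_of_mul h)
    have h5 := congrFun (h3 ψ ((hsame θ ζ ψ h4).1 hθ)) ⟨x, hreg x hx⟩
    rw [pRegularPart_apply, pRegularPart_apply, Subgroup.orderOf_mk, if_neg hx, if_neg hx] at h5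
    rw [h4 y ⟨x, hreg x hx⟩, h5, ← h2]
  have hE : ∀ ζ : IrrCharacter D, ∃ θ ∈ B, (∀ (y : D) (x : G), ¬ p ∣ orderOf x →
      Commute (y : G) x → θ.1 (y * x) = ζ.1 y * χ.1 x) ∧
      ∀ z : G, (∀ y : G, Cfsg.IsPPart p z y → y ∉ D) → θ.1 z = 0 := fun ζ => by
    obtain ⟨θ, hθ, h⟩ := exists_mem_liesOver_of_isPGroup hM hB hD ζ
    exact ⟨θ, hθ, hA θ hθ ζ h, hvan θ hθ⟩
  refine ⟨fun θ => ⟨fun hθ => ?_, fun ⟨ζ, h4, h5⟩ => ?_⟩, hE⟩
  · obtain ⟨ζ, ψ, h⟩ := exists_irr_mul_of_commute hc hG θ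
    exact ⟨ζ, hA θ hθ ζ (liesOver_left_of_mul h), hvan θ hθ⟩
  · obtain ⟨θ', hθ', h6, h7⟩ := hE ζ
    convert hθ'
    refine Subtype.ext (funext fun z => ?_)
    by_cases hz : GT.pPart p z ∈ D
    · rw [← GT.pPart_mul_pRegPart p z]
      exact (h4 ⟨_, hz⟩ _ (GT.isPRegular_pRegPart p z) (GT.commute_pPart_pRegPart p z)).trans
        (h6 ⟨_, hz⟩ _ (GT.isPRegular_pRegPart p z) (GT.commute_pPart_pRegPart p z)).symm
    · have h8 : ∀ y : G, Cfsg.IsPPart p z y → y ∉ D := fun y hy => GT.isPPart_iff.1 hy ▸ hz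
      rw [h5 z h8, h7 z h8]

end Cfsg.Agent.S4714
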