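import Cfsg.Statements.S4715
import Cfsg.Agent.Lib.Block.MajorCount

set_option autoImplicit false
open Cfsg

namespace Cfsg.Agent.S4715

open CT BT
open scoped MonoidAlgebra ComplexConjugate

/-- Let p be a prime, M a maximal ideal of the algebraic integers containing p, B a p-block of the finite group G with defect group D of order p^d, H = D·C_G(D), b a block of H inducing B, T the stabilizer of b in N_G(D) and e = [T : H] the inertial index of B; let n be the integer with p^n ≤ e < p^(n+1) and p^c the order of the centre of D. Then every irreducible character in B has height h with h + c ≤ n + d. -/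
theorem result {G : Type*} [Group G] [Finite G] (p : ℕ) [Fact p.Prime] (M : Ideal Cfsg.AlgInt) (hM : Cfsg.IsPModular p M) (B : Set (Cfsg.IrrCharacter G)) (hB : Cfsg.IsPBlock M B) (D : Subgroup G) (hBD : Cfsg.IsDefectGroup p M B D) (d : ℕ) (hDd : Nat.card D = p ^ d) (H : Subgroup G) (hH : H = D ⊔ Subgroup.centralizer (D : Set G)) (b : Set (Cfsg.IrrCharacter H)) (hind : Cfsg.IsInducedBlock M H b B) (T : Subgroup G) (hT : ∀ g : G, g ∈ T ↔ (g ∈ Subgroup.normalizer (D : Set G) ∧ ∀ θ ∈ b, ∀ θ' : Cfsg.IrrCharacter H, (∀ h h' : H, (h' : G) = g * h * g⁻¹ → (θ' : H → ℂ) h' = (θ : H → ℂ) h) → θ' ∈ b)) (e : ℕ) (he : H.relIndex T = e) (n : ℕ) (hn : p ^ n ≤ e ∧ e < p ^ (n + 1)) (c : ℕ) (hc : Nat.card (Subgroup.center D) = p ^ c) : ∀ χ ∈ B, Cfsg.blockHeight p B (χ : G → ℂ) + c ≤ n + d := by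
  intro χ hχ
  have hp : p.Prime := Fact.out
  obtain ⟨m, hm, hQ, hme⟩ := exists_maxP_of_sup hM hBD hH hind
  have h1 := hm.card_center_mul_pow_height_le (T := T) (H := H) (fun t ht => by
    obtain ⟨h1, h2⟩ := SPair.smul_eq_self_iff.1 ht
    rw [hQ] at h1
    rw [hme] at h2
    have h3 : t ∈ Subgroup.normalizer (H : Set G) := by
      rw [hH]
      exact Subgroup.normalizer_inf_normalizer_le_normalizer_sup _ _
        ⟨h1, GT.normalizer_le_normalizer_centralizer D h1⟩
    have h4 := ((stabilizesBlock_iff_cj hM hind.1 t).2 ⟨h3, h2⟩).2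
    refine (hT t).2 ⟨h1, fun θ hθ θ' hθ' => ?_⟩
    obtain ⟨χ', hχ', h5⟩ := h4 θ hθ
    have : θ' = χ' := Subtype.ext (funext fun h' => by
      have hmem : t⁻¹ * h' * t ∈ H := by
        have := (Subgroup.mem_normalizer_iff.1 (inv_mem h3) h').1 h'.2
        simpa using this
      rw [hθ' ⟨_, hmem⟩ h' (by simp [mul_assoc]), h5 ⟨_, hmem⟩ h' (by simp [mul_assoc])])
    exact this ▸ hχ') (by rw [hQ, hH]) hχ
  have hd : blockDefect p B = d := Nat.pow_right_injective hp.two_le
    ((card_defectGroup hM hB hBD).symm.trans hDd)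
  rw [hQ, hc, he, hd, ← pow_add] at h1
  have h2 : p ^ (c + blockHeight p B χ.1) < p ^ (n + 1 + d) := by
    rw [pow_add p (n + 1)]
    exact h1.trans_lt (Nat.mul_lt_mul_of_pos_right hn.2 (pow_pos hp.pos _))
  have := (Nat.pow_lt_pow_iff_right hp.one_lt).1 h2
  omega

end Cfsg.Agent.S4715
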