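import Cfsg.Statements.S4717
import Cfsg.Agent.Lib.Block.PrincipalB
import Cfsg.Agent.Lib.Block.CoverP

set_option autoImplicit false
open Cfsg

namespace Cfsg.Agent.S4717

open CT BT


/-- Let p be a prime, M a maximal ideal of the algebraic integers containing p, and r a natural number; say that a finite group X has deficiency class r when X has no non-principal p-block of defect ≥ r. If G has deficiency class r then so does the centralizer of every p-element of G; conversely, if r > 0 and the centralizer of every element of order p has deficiency class r, then G has deficiency class r. -/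
theorem result {G : Type*} [Group G] [Finite G] (p : ℕ) [Fact p.Prime] (M : Ideal Cfsg.AlgInt) (hM : Cfsg.IsPModular p M) (r : ℕ) : ((∀ B' : Set (Cfsg.IrrCharacter G), Cfsg.IsPBlock M B' → B' ≠ Cfsg.principalBlock M G → Cfsg.blockDefect p B' < r) → ∀ y : G, (∃ k : ℕ, orderOf y = p ^ k) → (∀ B' : Set (Cfsg.IrrCharacter ↥(Subgroup.centralizer ({y} : Set G))), Cfsg.IsPBlock M B' → B' ≠ Cfsg.principalBlock M ↥(Subgroup.centralizer ({y} : Set G)) → Cfsg.blockDefect p B' < r)) ∧ (0 < r → (∀ y : G, orderOf y = p → (∀ B' : Set (Cfsg.IrrCharacter ↥(Subgroup.centralizer ({y} : Set G))), Cfsg.IsPBlock M B' → B' ≠ Cfsg.principalBlock M ↥(Subgroup.centralizer ({y} : Set G)) → Cfsg.blockDefect p B' < r)) → (∀ B' : Set (Cfsg.IrrCharacter G), Cfsg.IsPBlock M B' → B' ≠ Cfsg.principalBlock M G → Cfsg.blockDefect p B' < r)) := by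
  constructor
  · intro h y hy b hb hne
    obtain ⟨B, hB⟩ := exists_isInducedBlock_of_eq_centralizer hM rfl hy hb
    refine lt_of_le_of_lt (blockDefect_le_of_isInducedBlock hM hB) (h B hB.2.1 ?_)
    rintro rfl
    exact hne ((isInducedBlock_principal_iff_centralizer_elt hM hy hb).1 hB)
  · intro hr h B hB hne
    by_contra hlt
    push Not at hlt
    obtain ⟨D, hD⟩ := exists_isDefectGroup hM hB
    have hDp := isPGroup_of_isDefectGroup hD
    have hcard := card_defectGroup hM hB hD
    have hnt : Nontrivial D := by
      rw [← Finite.one_lt_card_iff_nontrivial, hcard]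
      exact Nat.one_lt_pow (by omega) (Fact.out : p.Prime).one_lt
    have hZ := hDp.center_nontrivial
    have hZp : IsPGroup p (Subgroup.center D) := hDp.to_subgroup _
    have hdvd : p ∣ Nat.card (Subgroup.center D) := by
      obtain ⟨k, hk⟩ := IsPGroup.iff_card.1 hZp
      have := Finite.one_lt_card (α := Subgroup.center D)
      rw [hk] at this ⊢
      exact dvd_pow_self p (by rintro rfl; simp at this)
    obtain ⟨z, hz⟩ := exists_prime_orderOf_dvd_card' p hdvd
    set y : G := ((z : D) : G) with hy
    have hyo : orderOf y = p := by rw [hy, Subgroup.orderOf_coe, Subgroup.orderOf_coe, hz]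
    have hyp : GT.IsPElt p y := ⟨1, by rw [hyo, pow_one]⟩
    have hDC : D ≤ Subgroup.centralizer ({y} : Set G) := fun d hd => by
      rw [Subgroup.mem_centralizer_singleton_iff]
      exact congrArg Subtype.val (Subgroup.mem_center_iff.1 z.2 ⟨d, hd⟩)
    obtain ⟨e, he, hbe⟩ := ((isDefectGroup_iff_defGrp hM hB D).1 hD).exists_maxBP hM
      (bIdem_top_idem hM hB)
    have hQD : Subgroup.zpowers y ≤ D := (Subgroup.zpowers_le_of_mem (z : D).2)
    obtain ⟨f, hf⟩ := he.bp.exists_ple hM hQD
    have hfb : BIdem (Subgroup.centralizer ({y} : Set G)) f := by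
      rw [← centralizer_zpowers_eq']; exact hf.left.bidem_top
    obtain ⟨b, hb, hbf⟩ := hfb.exists_block hM
    have hdef : DefGrp p (Subgroup.centralizer ({y} : Set G)) f D := by
      refine he.defGrp_of_le_NP hM hf ?_ hfb hDC
      rw [← centralizer_zpowers_eq']
      exact le_trans (by simp) hf.left.inf_centralizer_le_NP
    have hbd : blockDefect p b = blockDefect p B := by
      have h1 := DefGrp.card_eq_pow_blockDefect hM hb (hbf ▸ hdef)
      rw [hcard] at h1
      exact (Nat.pow_right_injective (Fact.out : p.Prime).two_le h1).symm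
    have hne' : b ≠ principalBlock M _ := by
      rintro rfl
      apply hne
      rw [eq_principal_iff_aug_idem hM hB]
      have h1 : br (Subgroup.zpowers y) (idem hM B) * f = f :=
        (hf.br_block_iff (bIdem_top_idem hM hB).toCIdem le_top).2 hbe
      have h2 := congrArg aug h1
      rw [map_mul, ← hbf, aug_sidem_principal, mul_one,
        aug_br hyp.isPGroup_zpowers ((isCentral_idem hM B).isFixed _)] at h2
      rw [h2]; exact one_ne_zero
    have := h y hyo b hb hne'
    omega

end Cfsg.Agent.S4717
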