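import Cfsg.Statements.S4719
import Cfsg.Agent.Lib.Block.PrincipalB
import Cfsg.Agent.Lib.Grp.Landau
import Cfsg.Agent.S4717

set_option autoImplicit false
universe u
open Cfsg

namespace Cfsg.Agent.S4719

open CT BT
open scoped ComplexConjugate

section Grp

variable {G : Type*} [Group G] [Finite G]

/-- Brauer–Fowler. -/
theorem brauerFowler {t : G} (ht : t * t = 1) :
    Nat.card G ≤ 2 * Nat.card (Subgroup.centralizer ({t} : Set G)) ∨
      ∃ x : G, x ≠ 1 ∧ (Subgroup.centralizer ({x} : Set G)).index <
        2 * Nat.card (Subgroup.centralizer ({t} : Set G)) ^ 2 := by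
  classical
  have := Fintype.ofFinite G
  by_contra hcon
  push Not at hcon
  obtain ⟨h1, h2⟩ := hcon
  set c := Nat.card (Subgroup.centralizer ({t} : Set G)) with hc
  set m := (Subgroup.centralizer ({t} : Set G)).index with hm
  have hG : c * m = Nat.card G := Subgroup.card_mul_index _
  let K : Finset G := Finset.univ.filter (IsConj t)
  have hK : K.card = m := by
    rw [hm, ← card_conj_eq_index, Nat.card_eq_fintype_card, Fintype.card_subtype]
  have hsq : ∀ a ∈ K, a * a = 1 := by
    intro a ha
    obtain ⟨g, rfl⟩ := isConj_iff.1 (Finset.mem_filter.1 ha).2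
    rw [show g * t * g⁻¹ * (g * t * g⁻¹) = g * (t * t) * g⁻¹ by group, ht]; group
  have hsum : (K ×ˢ K).card = ∑ x : G, ((K ×ˢ K).filter fun ab => ab.1 * ab.2 = x).card :=
    Finset.card_eq_sum_card_fiberwise (f := fun ab : G × G => ab.1 * ab.2)
      (fun _ _ => Finset.mem_coe.2 (Finset.mem_univ _))
  have hfib1 : ((K ×ˢ K).filter fun ab => ab.1 * ab.2 = 1).card ≤ m := by
    rw [← hK]
    refine Finset.card_le_card_of_injOn (fun ab => ab.1) ?_ ?_
    · intro ab hab
      exact (Finset.mem_product.1 (Finset.mem_filter.1 hab).1).1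
    · intro ab hab cd hcd h
      have e1 := (Finset.mem_filter.1 hab).2
      have e2 := (Finset.mem_filter.1 hcd).2
      refine Prod.ext h ?_
      have h' : ab.1 = cd.1 := h
      rw [h'] at e1
      exact mul_left_cancel (e1.trans e2.symm)
  have hfib : ∀ x : G, ((K ×ˢ K).filter fun ab => ab.1 * ab.2 = x).card ≤
      Nat.card (Subgroup.centralizer ({x} : Set G)) := by
    intro x
    have hinv : ∀ ab ∈ (K ×ˢ K).filter fun ab => ab.1 * ab.2 = x, ab.1 * x = x⁻¹ * ab.1 := by
      intro ab hab
      obtain ⟨hab1, rfl⟩ := Finset.mem_filter.1 hab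
      obtain ⟨ha, hb⟩ := Finset.mem_product.1 hab1
      rw [mul_inv_rev, inv_eq_of_mul_eq_one_right (hsq _ ha),
        inv_eq_of_mul_eq_one_right (hsq _ hb), ← mul_assoc, hsq _ ha, mul_assoc, hsq _ ha,
        one_mul, mul_one]
    rcases ((K ×ˢ K).filter fun ab => ab.1 * ab.2 = x).eq_empty_or_nonempty with h0 | ⟨a0, ha0⟩
    · rw [h0]; simp
    rw [Nat.card_eq_fintype_card, Fintype.card_subtype]
    refine Finset.card_le_card_of_injOn (fun ab => a0.1⁻¹ * ab.1) ?_ ?_
    · intro ab hab
      rw [Finset.mem_coe, Finset.mem_filter, Subgroup.mem_centralizer_singleton_iff]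
      refine ⟨Finset.mem_univ _, ?_⟩
      have e1 := hinv ab hab
      have e2 := hinv a0 ha0
      calc a0.1⁻¹ * ab.1 * x = a0.1⁻¹ * x⁻¹ * ab.1 := by rw [mul_assoc, e1, mul_assoc]
        _ = (x * a0.1)⁻¹ * ab.1 := by group
        _ = (a0.1 * x⁻¹)⁻¹ * ab.1 := by
            congr 2
            calc x * a0.1 = x * (a0.1 * x) * x⁻¹ := by group
              _ = a0.1 * x⁻¹ := by rw [e2]; group
        _ = x * (a0.1⁻¹ * ab.1) := by group
    · intro ab hab cd hcd h
      have e1 := (Finset.mem_filter.1 hab).2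
      have e2 := (Finset.mem_filter.1 hcd).2
      have h' : ab.1 = cd.1 := mul_left_cancel h
      refine Prod.ext h' ?_
      rw [h'] at e1
      exact mul_left_cancel (e1.trans e2.symm)
  have hb : ∀ x : G, 2 * c ^ 2 * ((K ×ˢ K).filter fun ab => ab.1 * ab.2 = x).card ≤
      (if x = 1 then 2 * c ^ 2 * m else 0) + Nat.card G := by
    intro x
    split_ifs with hx
    · subst hx
      exact le_add_right (Nat.mul_le_mul_left _ hfib1)
    · rw [zero_add, ← (Subgroup.centralizer ({x} : Set G)).index_mul_card]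
      exact Nat.mul_le_mul (h2 x hx) (hfib x)
  have h3 := Finset.sum_le_sum (s := Finset.univ) fun x _ => hb x
  rw [← Finset.mul_sum, ← hsum, Finset.card_product, hK, Finset.sum_add_distrib,
    Finset.sum_ite_eq', if_pos (Finset.mem_univ _), Finset.sum_const, Finset.card_univ,
    ← Nat.card_eq_fintype_card, smul_eq_mul, ← hG] at h3
  have hc0 : 0 < c := Nat.card_pos
  have hm2 : 2 < m := by
    rw [← hG, mul_comm 2] at h1
    exact Nat.lt_of_mul_lt_mul_left h1
  have h4 : c ^ 2 * (2 * (m * m)) ≤ c ^ 2 * (2 * m + m * m) := by nlinarith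
  have h5 := Nat.le_of_mul_le_mul_left h4 (by positivity)
  nlinarith

theorem index_normalCore_le (H : Subgroup G) : H.normalCore.index ≤ (H.index).factorial := by
  classical
  have := Fintype.ofFinite (G ⧸ H)
  rw [Subgroup.normalCore_eq_ker, Subgroup.index_ker, Subgroup.index, Nat.card_eq_fintype_card
    (α := G ⧸ H), ← Fintype.card_perm, ← Nat.card_eq_fintype_card]
  exact Nat.card_le_card_of_injective _ Subtype.val_injective

theorem card_le_of_forall_sq {X : Subgroup G} (h : ∀ x ∈ X, x * x = 1) :
    Nat.card X ≤ 2 ^ (Nat.card G).factorization 2 := by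
  have hp : IsPGroup 2 X := fun x => ⟨1, Subtype.ext (by simpa [sq] using h x x.2)⟩
  obtain ⟨k, hk⟩ := IsPGroup.iff_card.1 hp
  rw [hk]
  refine Nat.pow_le_pow_right (by norm_num) ?_
  rw [← Nat.prime_two.pow_dvd_iff_le_factorization Nat.card_pos.ne', ← hk]
  exact X.card_subgroup_dvd_card

theorem card_abelian_le {A : Subgroup G} [hA : A.Normal] (hc : ∀ a ∈ A, ∀ b ∈ A, a * b = b * a)
    {s t : G} (hs : s * s = 1) (ht : t * t = 1) (hst : s * t = t * s) :
    Nat.card A ≤ 2 ^ (Nat.card G).factorization 2 *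
      (Nat.card (Subgroup.centralizer ({s} : Set G)) *
        (Nat.card (Subgroup.centralizer ({t} : Set G)) *
          (Nat.card (Subgroup.centralizer ({s * t} : Set G)) *
            Nat.card (Subgroup.centralizer ({s} : Set G))))) := by
  classical
  have := Fintype.ofFinite G
  let Om : Subgroup G :=
    { carrier := {z | z ∈ A ∧ z * z = 1}
      mul_mem' := by
        rintro a b ⟨ha, ha'⟩ ⟨hb, hb'⟩
        refine ⟨A.mul_mem ha hb, ?_⟩
        calc a * b * (a * b) = a * (b * a) * b := by group
          _ = (a * a) * (b * b) := by rw [← hc a ha b hb]; group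
          _ = 1 := by rw [ha', hb', one_mul]
      one_mem' := ⟨A.one_mem, one_mul 1⟩
      inv_mem' := by
        rintro a ⟨ha, ha'⟩
        exact ⟨A.inv_mem ha, by rw [← mul_inv_rev, ha', inv_one]⟩ }
  have hOm : Nat.card Om ≤ 2 ^ (Nat.card G).factorization 2 :=
    card_le_of_forall_sq fun x hx => hx.2
  let S : Finset G := Finset.univ.filter (· ∈ A)
  have hS : S.card = Nat.card A := by rw [Nat.card_eq_fintype_card, Fintype.card_subtype]
  have h1 := Finset.card_le_mul_card_image (f := fun y : G => y * y) S (Nat.card Om) (by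
    intro b hb
    obtain ⟨y0, hy0, rfl⟩ := Finset.mem_image.1 hb
    rw [Nat.card_eq_fintype_card, Fintype.card_subtype]
    refine Finset.card_le_card_of_injOn (fun y => y0⁻¹ * y) ?_ ?_
    · intro y hy
      obtain ⟨hy1, hy2⟩ := Finset.mem_filter.1 hy
      have hyA : y ∈ A := (Finset.mem_filter.1 hy1).2
      have hy0A : y0 ∈ A := (Finset.mem_filter.1 hy0).2
      rw [Finset.mem_coe, Finset.mem_filter]
      refine ⟨Finset.mem_univ _, A.mul_mem (A.inv_mem hy0A) hyA, ?_⟩
      calc y0⁻¹ * y * (y0⁻¹ * y) = y0⁻¹ * (y * y0⁻¹) * y := by group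
        _ = (y0 * y0)⁻¹ * (y * y) := by rw [hc y hyA _ (A.inv_mem hy0A)]; group
        _ = 1 := by rw [hy2, inv_mul_cancel]
    · intro a _ b _ h
      exact mul_left_cancel h)
  have hcj : ∀ (w : G), w * w = 1 → ∀ y ∈ A,
      y * (w * y * w⁻¹) ∈ Subgroup.centralizer ({w} : Set G) := by
    intro w hw y hy
    rw [Subgroup.mem_centralizer_singleton_iff]
    have hw' : w⁻¹ = w := inv_eq_of_mul_eq_one_right hw
    calc y * (w * y * w⁻¹) * w = y * w * y := by group
      _ = w * (w * y * w⁻¹ * y) := by
          rw [hw', ← mul_assoc, ← mul_assoc, ← mul_assoc, hw, one_mul]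
      _ = w * (y * (w * y * w⁻¹)) := by rw [hc _ (hA.conj_mem y hy w) y hy]
  let F : Subgroup.centralizer ({s} : Set G) × Subgroup.centralizer ({t} : Set G) ×
      Subgroup.centralizer ({s * t} : Set G) × Subgroup.centralizer ({s} : Set G) → G :=
    fun v => v.1 * v.2.1 * v.2.2.1 * (v.2.2.2 : G)⁻¹
  have h2 : S.image (fun y : G => y * y) ⊆ Finset.univ.image F := by
    intro b hb
    obtain ⟨y, hy, rfl⟩ := Finset.mem_image.1 hb
    have hyA : y ∈ A := (Finset.mem_filter.1 hy).2
    have hst2 : s * t * (s * t) = 1 := by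
      calc s * t * (s * t) = s * (t * s) * t := by group
        _ = (s * s) * (t * t) := by rw [← hst]; group
        _ = 1 := by rw [hs, ht, one_mul]
    refine Finset.mem_image.2 ⟨(⟨_, hcj s hs y hyA⟩, ⟨_, hcj t ht y hyA⟩, ⟨_, hcj _ hst2 y hyA⟩,
      ⟨_, hcj s hs _ (A.mul_mem hyA (hA.conj_mem y hyA t))⟩), Finset.mem_univ _, ?_⟩
    simp only [F]
    have e : s * (y * (t * y * t⁻¹)) * s⁻¹ = (s * y * s⁻¹) * (s * t * y * (s * t)⁻¹) := by group
    rw [e]
    have ha := hA.conj_mem y hyA s
    have hb := hA.conj_mem y hyA t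
    have hd := hA.conj_mem y hyA (s * t)
    generalize s * y * s⁻¹ = a at ha
    generalize t * y * t⁻¹ = b at hb
    generalize s * t * y * (s * t)⁻¹ = d at hd
    rw [mul_inv_eq_iff_eq_mul]
    calc y * a * (y * b) * (y * d) = y * (a * y) * (b * y) * d := by group
      _ = y * y * (a * y) * b * d := by rw [hc b hb y hyA]; nth_rewrite 1 [hc a ha y hyA]; group
      _ = y * y * y * (a * b) * d := by rw [hc a ha y hyA]; group
      _ = _ := by rw [hc a ha b hb]; group
  have h3 := (Finset.card_le_card h2).trans Finset.card_image_le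
  rw [Finset.card_univ, ← Nat.card_eq_fintype_card, Nat.card_prod, Nat.card_prod,
    Nat.card_prod] at h3
  rw [← hS]
  exact h1.trans (Nat.mul_le_mul hOm h3)

theorem card_centralizer_quotient (X : Subgroup G) [X.Normal] (t : G) :
    Nat.card (Subgroup.centralizer ({(t : G ⧸ X)} : Set (G ⧸ X))) ≤
        Nat.card (Subgroup.centralizer ({t} : Set G)) ∧
      (Nat.card (Subgroup.centralizer ({t} : Set G)) ≤
        Nat.card (Subgroup.centralizer ({(t : G ⧸ X)} : Set (G ⧸ X))) →
          ∀ x ∈ X, IsConj t (t * x)) := by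
  classical
  have h1 := sum_irr_mul_conj t t
  have h2 := sum_le_ker_mul_conj X t t
  rw [if_pos (IsConj.refl _)] at h1 h2
  rw [← Finset.sum_filter_add_sum_filter_not _ (fun χ : IrrCharacter G => X ≤ ker χ.1), h2] at h1
  simp only [Complex.mul_conj] at h1
  have h3 : (Nat.card (Subgroup.centralizer ({(t : G ⧸ X)} : Set (G ⧸ X))) : ℝ) +
      ∑ χ : IrrCharacter G with ¬ X ≤ ker χ.1, Complex.normSq (χ.1 t) =
      Nat.card (Subgroup.centralizer ({t} : Set G)) := by exact_mod_cast h1
  have h4 : 0 ≤ ∑ χ : IrrCharacter G with ¬ X ≤ ker χ.1, Complex.normSq (χ.1 t) :=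
    Finset.sum_nonneg fun _ _ => Complex.normSq_nonneg _
  refine ⟨by exact_mod_cast (h3 ▸ le_add_of_nonneg_right h4 :
    (Nat.card (Subgroup.centralizer ({(t : G ⧸ X)} : Set (G ⧸ X))) : ℝ) ≤ _), ?_⟩
  intro hle x hx
  have hle' : (Nat.card (Subgroup.centralizer ({t} : Set G)) : ℝ) ≤
      Nat.card (Subgroup.centralizer ({(t : G ⧸ X)} : Set (G ⧸ X))) := by exact_mod_cast hle
  have h5 : ∑ χ : IrrCharacter G with ¬ X ≤ ker χ.1, Complex.normSq (χ.1 t) = 0 := by linarith
  rw [Finset.sum_eq_zero_iff_of_nonneg fun _ _ => Complex.normSq_nonneg _] at h5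
  by_contra hn
  have h6 := sum_irr_mul_conj t (t * x)
  have h7 := sum_le_ker_mul_conj X t (t * x)
  rw [if_neg hn, ← Finset.sum_filter_add_sum_filter_not _
    (fun χ : IrrCharacter G => X ≤ ker χ.1), h7, if_pos, Finset.sum_eq_zero, add_zero] at h6
  · exact card_cast_ne_zero h6
  · intro χ hχ
    rw [Complex.normSq_eq_zero.1 (h5 χ hχ), zero_mul]
  · rw [QuotientGroup.mk_mul_of_mem t hx]

omit [Finite G] in
theorem conj_eq_inv_of_isConj {t x : G} (ht : t * t = 1) (h : IsConj t (t * x)) :
    t * x * t = x⁻¹ := by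
  obtain ⟨g, hg⟩ := isConj_iff.1 h
  have : t * x * (t * x) = 1 := by
    rw [← hg, show g * t * g⁻¹ * (g * t * g⁻¹) = g * (t * t) * g⁻¹ by group, ht]; group
  rw [eq_inv_iff_mul_eq_one, mul_assoc, this]

end Grp

theorem exists_bound_four (n : ℕ) : ∃ N : ℕ, ∀ (G : Type u) [Group G] [Finite G] (s t : G),
    s * s = 1 → t * t = 1 → s * t = t * s → s ≠ 1 → t ≠ 1 → s * t ≠ 1 →
    Nat.card (Subgroup.centralizer ({s} : Set G)) + Nat.card (Subgroup.centralizer ({t} : Set G)) +
      Nat.card (Subgroup.centralizer ({s * t} : Set G)) + (Nat.card G).factorization 2 ≤ n →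
    Nat.card G ≤ N := by
  induction n with
  | zero =>
    refine ⟨0, fun G _ _ s t _ _ _ _ _ _ h => ?_⟩
    have : 0 < Nat.card (Subgroup.centralizer ({s} : Set G)) := Nat.card_pos
    omega
  | succ n ih =>
    obtain ⟨N, hN⟩ := ih
    set B := (2 * (n + 1) ^ 2).factorial * (2 ^ (n + 1) * ((n + 1) * ((n + 1) *
      ((n + 1) * (n + 1))))) with hB
    refine ⟨2 * (n + 1) + B * (n + 1) + B * N, fun G _ _ s t hs ht hst hs1 ht1 hst1 h => ?_⟩
    have hst2 : s * t * (s * t) = 1 := by
      calc s * t * (s * t) = s * (t * s) * t := by group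
        _ = (s * s) * (t * t) := by rw [← hst]; group
        _ = 1 := by rw [hs, ht, one_mul]
    rcases brauerFowler hs with h1 | ⟨x, hx1, hx⟩
    · omega
    set X := Subgroup.normalClosure ({x} : Set G) with hX
    set K := (Subgroup.centralizer ({x} : Set G)).normalCore with hK
    have hKX : K ≤ Subgroup.centralizer (X : Set G) := by
      rw [Subgroup.le_centralizer_iff, hX]
      refine Subgroup.normalClosure_le_normal ?_
      rw [Set.singleton_subset_iff, SetLike.mem_coe, Subgroup.mem_centralizer_iff]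
      intro k hk
      exact Subgroup.mem_centralizer_singleton_iff.1 (Subgroup.normalCore_le _ hk)
    have hA := card_abelian_le (A := K ⊓ X) (fun a ha b hb => (hKX ha.1 b hb.2).symm) hs ht hst
    have hXB : Nat.card X ≤ B := by
      have e1 : Nat.card X = K.relIndex X * Nat.card (K ⊓ X : Subgroup G) := by
        rw [← Subgroup.inf_relIndex_right, Subgroup.relIndex,
          ← Subgroup.index_mul_card ((K ⊓ X).subgroupOf X),
          Nat.card_congr (Subgroup.subgroupOfEquivOfLe inf_le_right).toEquiv]
      have e2 : K.relIndex X ≤ (2 * (n + 1) ^ 2).factorial := by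
        refine le_trans (Nat.le_of_dvd (Nat.pos_of_ne_zero K.index_ne_zero_of_finite)
          (Subgroup.relIndex_dvd_index_of_normal K X)) ((index_normalCore_le _).trans
            (Nat.factorial_le (hx.le.trans ?_)))
        exact Nat.mul_le_mul_left _ (Nat.pow_le_pow_left (by omega) _)
      rw [e1, hB]
      refine Nat.mul_le_mul e2 (hA.trans (Nat.mul_le_mul (Nat.pow_le_pow_right (by norm_num)
        (by omega)) (Nat.mul_le_mul (by omega) (Nat.mul_le_mul (by omega)
          (Nat.mul_le_mul (by omega) (by omega))))))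
    have hin : ∀ w ∈ X, Nat.card (Subgroup.centralizer ({w} : Set G)) ≤ n + 1 →
        Nat.card G ≤ B * (n + 1) := by
      intro w hw hc
      rw [← (Subgroup.centralizer ({w} : Set G)).index_mul_card, ← card_conj_eq_index]
      refine Nat.mul_le_mul (le_trans ?_ hXB) hc
      refine Nat.card_le_card_of_injective (fun y => (⟨y.1, ?_⟩ : X)) ?_
      · obtain ⟨g, hg⟩ := isConj_iff.1 y.2
        rw [← hg]
        exact Subgroup.normalClosure_normal.conj_mem w hw g
      · intro a b hab
        exact Subtype.ext (congrArg (fun z : X => (z : G)) hab)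
    by_cases hsX : s ∈ X
    · have := hin s hsX (by omega); omega
    by_cases htX : t ∈ X
    · have := hin t htX (by omega); omega
    by_cases hstX : s * t ∈ X
    · have := hin _ hstX (by omega); omega
    obtain ⟨a1, b1⟩ := card_centralizer_quotient X s
    obtain ⟨a2, b2⟩ := card_centralizer_quotient X t
    obtain ⟨a3, b3⟩ := card_centralizer_quotient X (s * t)
    have hf := factorization_index_add (p := 2) X
    have hq := hN (G ⧸ X) s t (by rw [← QuotientGroup.mk_mul, hs, QuotientGroup.mk_one])
      (by rw [← QuotientGroup.mk_mul, ht, QuotientGroup.mk_one])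
      (by rw [← QuotientGroup.mk_mul, hst, QuotientGroup.mk_mul])
      (fun h => hsX ((QuotientGroup.eq_one_iff s).1 h))
      (fun h => htX ((QuotientGroup.eq_one_iff t).1 h))
      (fun h => hstX ((QuotientGroup.eq_one_iff _).1 h)) (by
        rw [← QuotientGroup.mk_mul, ← Subgroup.index_eq_card]
        by_contra hcon
        have hxX : x ∈ X := Subgroup.subset_normalClosure (Set.mem_singleton x)
        have c1 := conj_eq_inv_of_isConj hs (b1 (by omega) x hxX)
        have c2 := conj_eq_inv_of_isConj ht (b2 (by omega) x hxX)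
        have c3 := conj_eq_inv_of_isConj hst2 (b3 (by omega) x hxX)
        have c4 : x * x = 1 := by
          have : s * (t * x * t) * s = x⁻¹ := by rw [← c3]; nth_rewrite 2 [hst]; group
          rw [c2, ← inv_eq_of_mul_eq_one_right hs] at this
          have c5 : s⁻¹ * x⁻¹ * s⁻¹ = x := by
            rw [← c1]; group
          rw [c5] at this
          rw [← eq_inv_iff_mul_eq_one]; exact this
        have c6 : orderOf (⟨x, hxX⟩ : X) = 2 := by
          rw [← Subgroup.orderOf_coe]
          exact orderOf_eq_prime (by rw [sq]; exact c4) hx1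
        have c7 : 0 < (Nat.card X).factorization 2 :=
          Nat.prime_two.factorization_pos_of_dvd Nat.card_pos.ne' (c6 ▸ orderOf_dvd_natCard _)
        omega)
    have : Nat.card G ≤ B * N := by
      rw [← X.card_mul_index, Subgroup.index_eq_card]
      exact Nat.mul_le_mul hXB hq
    omega

theorem main (a : ℕ) : ∃ N : ℕ, ∀ (G : Type u) [Group G] [Finite G] (M : Ideal AlgInt) (r : ℕ),
    IsPModular 2 M → (Nat.card G).factorization 2 ≤ a →
    (∀ B : Set (IrrCharacter G), IsPBlock M B → B ≠ principalBlock M G → blockDefect 2 B < r) →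
    ∀ E : Subgroup G, (∀ x ∈ E, x * x = 1) → Nat.card E = 2 ^ (r + 1) → Nat.card G ≤ N := by
  induction a with
  | zero =>
    refine ⟨0, fun G _ _ M r hM ha h E hE hc => ?_⟩
    have := card_le_of_forall_sq hE
    rw [hc, Nat.pow_le_pow_iff_right (by norm_num)] at this
    omega
  | succ a ih =>
    obtain ⟨N, hN⟩ := ih
    obtain ⟨N0, hN0⟩ := GT.exists_card_le_of_card_conjClasses_le.{u} (2 ^ (2 * (a + 1)) + 4)
    obtain ⟨N1, hN1⟩ := exists_bound_four.{u} (2 * N + 2 * N + 2 * N + (a + 1))
    refine ⟨N0 + N1, fun G _ _ M r hM ha h E hE hc => ?_⟩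
    rcases r with _ | r
    · refine le_add_right (hN0 G ?_)
      have h1 := brauer_feit hM (isPBlock_principalBlock (M := M) (G := G))
      rw [blockDefect_principal hM] at h1
      have h2 : principalBlock M G = Set.univ := by
        refine Set.eq_univ_of_forall fun χ => ?_
        have : blockOf M χ.1 = principalBlock M G := by
          by_contra hne
          exact Nat.not_lt_zero _ (h _ (isPBlock_blockOf χ) hne)
        rw [← this]
        exact mem_blockOf_self hM χ
      rw [h2, Nat.card_univ, card_irr_eq_card_conjClasses] at h1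
      have := Nat.pow_le_pow_right (show 0 < 2 by norm_num) (Nat.mul_le_mul_left 2 ha)
      omega
    have hcomm : ∀ x ∈ E, ∀ y ∈ E, x * y = y * x := by
      intro x hx y hy
      have h1 := hE _ (E.mul_mem hx hy)
      rw [← eq_inv_iff_mul_eq_one, mul_inv_rev, inv_eq_of_mul_eq_one_right (hE x hx),
        inv_eq_of_mul_eq_one_right (hE y hy)] at h1
      exact h1
    have hcen : ∀ t ∈ E, t ≠ 1 → Nat.card (Subgroup.centralizer ({t} : Set G)) ≤ 2 * N := by
      intro t ht ht1
      have hto : orderOf t = 2 := orderOf_eq_prime (by rw [sq]; exact hE t ht) ht1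
      have hC := (S4717.result 2 M hM (r + 1)).1 h t ⟨1, by rw [hto, pow_one]⟩
      set C := Subgroup.centralizer ({t} : Set G) with hCdef
      have hEC : E ≤ C := fun x hx => Subgroup.mem_centralizer_singleton_iff.2 (hcomm x hx t ht)
      let t' : C := ⟨t, hEC ht⟩
      have ht'c : t' ∈ Subgroup.center C := mk_mem_center_of_eq_centralizer hCdef
      set Z : Subgroup C := Subgroup.zpowers t' with hZ
      have hZc : Z ≤ Subgroup.center C := Subgroup.zpowers_le_of_mem ht'c
      have hZn : Z.Normal := ⟨fun z hz g => by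
        rw [Subgroup.mem_center_iff.1 (hZc hz) g, mul_inv_cancel_right]; exact hz⟩
      have hZcard : Nat.card Z = 2 := by
        rw [hZ, Nat.card_zpowers, ← Subgroup.orderOf_coe]; exact hto
      have hZp : IsPGroup 2 Z := IsPGroup.of_card (n := 1) (by rw [hZcard, pow_one])
      have hker : (QuotientGroup.mk' Z).ker = Z := QuotientGroup.ker_mk' Z
      have hf1 := factorization_index_add (p := 2) Z
      have hf2 := factorization_index_add (p := 2) C
      rw [hZcard, Nat.prime_two.factorization_self] at hf1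
      have hq := hN (C ⧸ Z) M r hM (by rw [← Subgroup.index_eq_card]; omega) (by
          intro b hb hne
          obtain ⟨B, hB, rfl⟩ := exists_quotSet_eq hM (QuotientGroup.mk' Z)
            (QuotientGroup.mk'_surjective Z) (hker.symm ▸ hZc) (hker.symm ▸ hZp) hb
          have h1 := blockDefect_quotSet hM (QuotientGroup.mk' Z)
            (QuotientGroup.mk'_surjective Z) (hker.symm ▸ hZc) (hker.symm ▸ hZp) hB
          rw [hker, hZcard, Nat.prime_two.factorization_self] at h1
          have h2 := hC B hB (by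
            rintro rfl
            exact hne (quotSet_principal hM _ _ (hker.symm ▸ hZc) (hker.symm ▸ hZp)))
          omega)
        ((E.subgroupOf C).map (QuotientGroup.mk' Z)) (by
          rintro _ ⟨x, hx, rfl⟩
          rw [← map_mul, show x * x = 1 from Subtype.ext (hE x hx), map_one]) (by
          have hZE : Z ≤ E.subgroupOf C := Subgroup.zpowers_le_of_mem ht
          have h1 := (Z.subgroupOf (E.subgroupOf C)).card_mul_index
          rw [Nat.card_congr (Subgroup.subgroupOfEquivOfLe hZE).toEquiv,
            Nat.card_congr (Subgroup.subgroupOfEquivOfLe hEC).toEquiv, hZcard, hc,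
            pow_succ' 2 (r + 1)] at h1
          rw [← Subgroup.relIndex_ker, hker]
          exact Nat.eq_of_mul_eq_mul_left (by norm_num) h1)
      rw [← Z.card_mul_index, hZcard, Subgroup.index_eq_card]
      omega
    have hE2 : 2 < Nat.card E := by
      rw [hc]
      calc 2 < 2 ^ 2 := by norm_num
        _ ≤ _ := Nat.pow_le_pow_right (by norm_num) (by omega)
    classical
    have := Fintype.ofFinite E
    have hnt : Nontrivial E := Finite.one_lt_card_iff_nontrivial.1 (by omega)
    obtain ⟨s, hs⟩ := exists_ne (1 : E)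
    obtain ⟨t, ht1, hts⟩ : ∃ t : E, t ≠ 1 ∧ t ≠ s := by
      by_contra hcon
      push Not at hcon
      have h1 : (Finset.univ : Finset E) ⊆ {1, s} := fun t _ => by
        by_cases h : t = 1
        · simp [h]
        · simp [hcon t h]
      have h2 := (Finset.card_le_card h1).trans Finset.card_le_two
      rw [Finset.card_univ, ← Nat.card_eq_fintype_card] at h2
      omega
    have hs1 : (s : G) ≠ 1 := fun h => hs (Subtype.ext h)
    have ht1' : (t : G) ≠ 1 := fun h => ht1 (Subtype.ext h)
    have hst : (s : G) * t ≠ 1 := fun h =>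
      hts (Subtype.ext (mul_left_cancel (h.trans (hE s s.2).symm)))
    refine le_add_left (hN1 G s t (hE s s.2) (hE t t.2) (hcomm s s.2 t t.2) hs1 ht1' hst ?_)
    have c1 := hcen s s.2 hs1
    have c2 := hcen t t.2 ht1'
    have c3 := hcen _ (E.mul_mem s.2 t.2) hst
    omega


/-- For every natural number a there is a bound N with the following property. Let G be a finite group with Sylow 2-subgroups of order 2^a and r ≥ 0 such that G has no non-principal 2-block (relative to a maximal ideal of the algebraic integers containing 2) of defect ≥ r, and suppose a Sylow 2-subgroup of G contains an elementary abelian subgroup of order 2^(r+1). Then the order of G is at most N. -/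
theorem result (a : ℕ) : ∃ N : ℕ, ∀ (G : Type u) [Group G] [Finite G] (M : Ideal Cfsg.AlgInt) (r : ℕ) (P : Sylow 2 G), Cfsg.IsPModular 2 M → Nat.card P = 2 ^ a → (∀ B : Set (Cfsg.IrrCharacter G), Cfsg.IsPBlock M B → B ≠ Cfsg.principalBlock M G → Cfsg.blockDefect 2 B < r) → (∃ E : Subgroup G, E ≤ (P : Subgroup G) ∧ IsMulCommutative E ∧ (∀ x ∈ E, x * x = 1) ∧ Nat.card E = 2 ^ (r + 1)) → Nat.card G ≤ N := by
  obtain ⟨N, hN⟩ := main.{u} a
  refine ⟨N, fun G _ _ M r P hM hP h ⟨E, _, _, hE, hc⟩ => hN G M r hM ?_ h E hE hc⟩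
  rw [P.card_eq_multiplicity] at hP
  exact (Nat.pow_right_injective le_rfl hP).le

end Cfsg.Agent.S4719
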