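import Cfsg.Statements.S4720
import Cfsg.Agent.Lib.Block.PrincipalB

set_option autoImplicit false
open Cfsg

namespace Cfsg.Agent.S4720

open CT BT
open scoped ComplexConjugate

theorem card_filter_conj {G : Type*} [Group G] [Finite G] (N : Subgroup G) [Fintype N]
    [DecidableEq G] (y : G) {n : G} (hn : n ∈ N) :
    (Finset.univ.filter fun x : N => (x : G) * y * (x : G)⁻¹ = n * y * n⁻¹).card =
      Nat.card ↥(N ⊓ Subgroup.centralizer ({y} : Set G)) := by
  rw [← Fintype.card_subtype, ← Nat.card_eq_fintype_card]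
  refine Nat.card_congr
    { toFun := fun x => ⟨n⁻¹ * x.1, N.mul_mem (N.inv_mem hn) x.1.2, ?_⟩
      invFun := fun c => ⟨⟨n * c.1, N.mul_mem hn c.2.1⟩, ?_⟩
      left_inv := fun x => by ext; simp
      right_inv := fun c => by ext; simp }
  · refine Subgroup.mem_centralizer_singleton_iff.2 ?_
    calc n⁻¹ * x.1 * y = n⁻¹ * (x.1 * y * (x.1 : G)⁻¹) * x.1 := by group
      _ = _ := by rw [x.2]; group
  · have := Subgroup.mem_centralizer_singleton_iff.1 c.2.2
    calc n * c.1 * y * (n * c.1)⁻¹ = n * (c.1 * y) * c.1⁻¹ * n⁻¹ := by group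
      _ = _ := by rw [this]; group


/-- Let p be a prime, M a maximal ideal of the algebraic integers containing p, P a p-subgroup of the finite group G, N a subgroup with P ≤ N ≤ N_G(P), and U a nonempty subset of P normalized by N such that an element of U and an element of P that are conjugate in G are already conjugate in N, and such that λ(C_G(y)) = w·#C_N(y) for every y ∈ U with one rational number w, where λ(X) denotes the sum of the squares of the degrees of the irreducible characters in the principal p-block of X. For a complex function θ on P and χ in the principal block of G put a_χ(θ) = #P⁻¹ Σ_{y ∈ P} χ(y) θ(y⁻¹). Then for generalized characters θ, η of P with θ vanishing outside U, Σ_χ a_χ(θ)·conj(a_χ(η)) = (w/#P²)·Σ_{y ∈ P} θ(y)·conj(Σ_{x ∈ N} η(x y x⁻¹)) (η extended by zero off P; the conjugates lie in P), the first sum over the principal p-block of G. -/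
theorem result {G : Type*} [Group G] [Finite G] (p : ℕ) [Fact p.Prime] (M : Ideal Cfsg.AlgInt) (hM : Cfsg.IsPModular p M) (P : Subgroup G) (hP : IsPGroup p P) (N : Subgroup G) (hPN : P ≤ N) (hNN : N ≤ Subgroup.normalizer (P : Set G)) (U : Set G) (hUne : U.Nonempty) (hUP : U ⊆ (P : Set G)) (hUN : ∀ n ∈ N, ∀ u ∈ U, n * u * n⁻¹ ∈ U) (hfus : ∀ u ∈ U, ∀ g : G, g * u * g⁻¹ ∈ (P : Set G) → ∃ n ∈ N, n * u * n⁻¹ = g * u * g⁻¹) (w : ℚ) (hw : ∀ y ∈ U, ((∑ᶠ ψ ∈ Cfsg.principalBlock M ↥(Subgroup.centralizer ({y} : Set G)), Cfsg.charDegree (ψ : ↥(Subgroup.centralizer ({y} : Set G)) → ℂ) ^ 2) : ℚ) = w * Nat.card ↥(N ⊓ Subgroup.centralizer ({y} : Set G))) (θ η : ↥P → ℂ) (hθ : Cfsg.IsGeneralizedCharacter ↥P θ) (hη : Cfsg.IsGeneralizedCharacter ↥P η) (hθU : ∀ y : ↥P, (y : G) ∉ U → θ y = 0) : ∑ᶠ χ ∈ Cfsg.principalBlock M G, ((Nat.card ↥P : ℂ)⁻¹ * ∑ᶠ y : ↥P, (χ : G → ℂ) (y : G) * θ y⁻¹) * (starRingEnd ℂ) ((Nat.card ↥P : ℂ)⁻¹ * ∑ᶠ y : ↥P, (χ : G → ℂ) (y : G) * η y⁻¹)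 = ((w : ℂ) / ((Nat.card ↥P : ℂ) ^ 2)) * ∑ᶠ y : ↥P, θ y * (starRingEnd ℂ) (∑ᶠ x : ↥N, Cfsg.extendByZero P η ((x : G) * (y : G) * (x : G)⁻¹)) := by
  classical
  have := Fintype.ofFinite P
  have := Fintype.ofFinite N
  rw [finsum_mem_eq_sum_bset]
  simp only [finsum_eq_sum_of_fintype]
  have h1 : ∀ χ : IrrCharacter G,
      ((Nat.card P : ℂ)⁻¹ * ∑ y : P, χ.1 y * θ y⁻¹) *
        conj ((Nat.card P : ℂ)⁻¹ * ∑ y : P, χ.1 y * η y⁻¹) =
      ((Nat.card P : ℂ) ^ 2)⁻¹ * ∑ y : P, ∑ y' : P,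
        θ y * conj (η y') * (χ.1 y' * conj (χ.1 y)) := by
    intro χ
    rw [← Equiv.sum_comp (Equiv.inv P), ← Equiv.sum_comp (Equiv.inv P)
      (fun y : P => χ.1 y * η y⁻¹), map_mul, map_inv₀, Complex.conj_natCast, map_sum,
      mul_mul_mul_comm, Finset.sum_mul_sum, sq, mul_inv]
    congr 1
    refine Finset.sum_congr rfl fun y _ => Finset.sum_congr rfl fun y' _ => ?_
    simp only [Equiv.inv_apply, inv_inv, InvMemClass.coe_inv, (irr_isCharacter χ).apply_inv,
      map_mul, Complex.conj_conj]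
    ring
  rw [Finset.sum_congr rfl fun χ _ => h1 χ, ← Finset.mul_sum, Finset.sum_comm, div_eq_mul_inv,
    mul_comm (w : ℂ), mul_assoc, Finset.mul_sum _ _ (w : ℂ)]
  congr 1
  refine Finset.sum_congr rfl fun y _ => ?_
  by_cases hy : (y : G) ∈ U
  swap
  · simp [hθU y hy]
  rw [Finset.sum_comm]
  simp only [← Finset.mul_sum, ← bker_def]
  have hyp : GT.IsPElt p (y : G) := GT.isPElt_of_mem hP y.2
  have hlam : bker (principalBlock M G) y y =
      w * Nat.card ↥(N ⊓ Subgroup.centralizer ({(y : G)} : Set G)) := by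
    rw [bker_principal_self hM rfl hyp, bker_one_one]
    have := hw y hy
    rw [finsum_mem_eq_sum_bset] at this
    have h2 := congrArg (fun q : ℚ => (q : ℂ)) this
    simpa using h2
  have h2 : ∑ x : N, extendByZero P η ((x : G) * y * (x : G)⁻¹) =
      ∑ y' : P, η y' * if IsConj (y : G) y' then
        (Nat.card ↥(N ⊓ Subgroup.centralizer ({(y : G)} : Set G)) : ℂ) else 0 := by
    have hmem : ∀ x : N, (x : G) * y * (x : G)⁻¹ ∈ P := fun x => hUP (hUN x x.2 y hy)
    rw [← Finset.sum_fiberwise (s := Finset.univ)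
      (g := fun x : N => (⟨(x : G) * y * (x : G)⁻¹, hmem x⟩ : P))]
    refine Finset.sum_congr rfl fun y' _ => ?_
    rw [Finset.sum_congr rfl (g := fun _ => η y') fun x hx => by
      rw [extendByZero_of_mem _ _ (hmem x), (Finset.mem_filter.1 hx).2],
      Finset.sum_const, nsmul_eq_mul, mul_comm]
    congr 1
    split_ifs with hc
    · obtain ⟨g, hg⟩ := isConj_iff.1 hc
      obtain ⟨n, hn, hng⟩ := hfus y hy g (by rw [hg]; exact y'.2)
      rw [← card_filter_conj N (y : G) hn, hng, hg]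
      congr 2
      ext x
      simp [Subtype.ext_iff]
    · rw [Nat.cast_eq_zero, Finset.card_eq_zero, Finset.filter_eq_empty_iff]
      intro x _ h
      exact hc (isConj_iff.2 ⟨x, congrArg Subtype.val h⟩)
  rw [h2, map_sum, Finset.mul_sum, Finset.mul_sum]
  refine Finset.sum_congr rfl fun y' _ => ?_
  rw [← conj_bker, bker_of_isPElt hM isPBlock_principalBlock hyp (GT.isPElt_of_mem hP y'.2), hlam]
  split_ifs
  · simp only [map_mul, Complex.conj_natCast, map_ratCast]
    ring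
  · simp

end Cfsg.Agent.S4720
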