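import Cfsg.Statements.S4721
import Cfsg.Agent.Lib.Block.AbFrob

set_option autoImplicit false
open Cfsg

namespace Cfsg.Agent.S4721

open CT BT GT
open scoped ComplexConjugate


/-- Let p be a prime, M a maximal ideal of the algebraic integers containing p, and G a finite group with a nontrivial abelian Sylow p-subgroup P, N = N_G(P), C = C_G(P), such that N/C is cyclic of order 3, #P > 4, and C_G(y) ∩ N = C for every non-identity y ∈ P. Then the principal p-block is the disjoint union of a set X of exactly 3 characters containing the principal character and a set Y of (#P − 1)/3 characters, with signs a_χ = ±1 (χ ∈ X, a = 1 at the principal character) and δ = ±1 such that every χ ∈ X takes the value a_χ at every element whose p-part is a non-identity element of P, and there is a map ζ from the non-principal linear characters of P onto Y, constant on N-conjugacy classes, with ζ_ψ(z) = δ·Σ ψ'(y) over the N-orbit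 of ψ, for z with p-part y ≠ 1 in P. If moreover G has an involution lying in no proper normal subgroup of G, then exactly two of the three numbers −δ and a_χ (χ ∈ X non-principal) equal −1, and the product of the degrees of the two non-principal members of X and of any member of Y is a perfect square. -/
theorem result {G : Type*} [Group G] [Finite G] (p : ℕ) [Fact p.Prime] (M : Ideal Cfsg.AlgInt) (hM : Cfsg.IsPModular p M) (P : Sylow p G) (hab : IsMulCommutative P) (hP1 : Nat.card P ≠ 1) (hCN : (Subgroup.centralizer ((P : Subgroup G) : Set G)).relIndex (Subgroup.normalizer ((P : Subgroup G) : Set G)) = 3) (hcyc : ∃ g : G, g ∈ Subgroup.normalizer ((P : Subgroup G) : Set G) ∧ Subgroup.centralizer ((P : Subgroup G) : Set G) ⊔ Subgroup.zpowers g = Subgroup.normalizer ((P : Subgroup G) : Set G)) (hm2 : 3 + 1 < Nat.card P) (hfrob : ∀ y : G, y ∈ (P : Subgroup G) → y ≠ 1 → Subgroup.centralizer ({y} : Set G) ⊓ Subgroup.normalizer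 ((P : Subgroup G) : Set G) = Subgroup.centralizer ((P : Subgroup G) : Set G)) : ∃ (X Y : Set (Cfsg.IrrCharacter G)), Cfsg.principalBlock M G = X ∪ Y ∧ Disjoint X Y ∧ Nat.card X = 3 ∧ Nat.card Y = (Nat.card P - 1) / 3 ∧ (∃ χ₁ ∈ X, (χ₁ : G → ℂ) = fun _ => 1) ∧ ∃ (a : Cfsg.IrrCharacter G → ℤ) (δ : ℤ) (ζ : (↥(P : Subgroup G) →* ℂˣ) → Cfsg.IrrCharacter G), (δ = 1 ∨ δ = -1) ∧ (∀ χ ∈ X, (a χ = 1 ∨ a χ = -1) ∧ ∀ z y : G, Cfsg.IsPPart p z y → y ∈ (P : Subgroup G) → y ≠ 1 → (χ : G → ℂ) z = (a χ : ℂ)) ∧ (∀ ψ : ↥(P : Subgroup G) →* ℂˣ, ψ ≠ 1 → ζ ψ ∈ Y) ∧ (∀ η ∈ Y, ∃ ψ : ↥(P : Subgroup G) →* ℂˣ, ψ ≠ 1 ∧ ζ ψ = η) ∧ (∀ ψ ψ' : ↥(P : Subgroup G) →* ℂˣ, ψ ≠ 1 → (∃ n : G, n ∈ Subgroup.normalizer ((P : Subgroup G) : Set G) ∧ ∀ w w' : ↥(P : Subgroup G), (w' : G) = n * w * n⁻¹ → ψ' w' = ψ w) → ζ ψ' = ζ ψ) ∧ (∀ ψ : ↥(P : Subgroup G) →* ℂˣ, ψ ≠ 1 → ∀ (z : G) (y : ↥(P : Subgroup G)), Cfsg.IsPPart p z (y : G) → (y : G) ≠ 1 → (ζ ψ : G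 → ℂ) z = (δ : ℂ) * ∑ᶠ ψ' ∈ {ψ' : ↥(P : Subgroup G) →* ℂˣ | ∃ n : G, n ∈ Subgroup.normalizer ((P : Subgroup G) : Set G) ∧ ∀ w w' : ↥(P : Subgroup G), (w' : G) = n * w * n⁻¹ → ψ' w' = ψ w}, ((ψ' y : ℂˣ) : ℂ)) ∧ ((∃ t : G, orderOf t = 2 ∧ ∀ K : Subgroup G, K.Normal → t ∈ K → K = ⊤) → Nat.card {χ : Cfsg.IrrCharacter G // χ ∈ X ∧ (χ : G → ℂ) ≠ (fun _ => 1) ∧ a χ = -1} + (if δ = 1 then 1 else 0) = 2 ∧ ∀ η ∈ Y, IsSquare (Cfsg.charDegree (η : G → ℂ) * ∏ᶠ χ ∈ {χ : Cfsg.IrrCharacter G | χ ∈ X ∧ (χ : G → ℂ) ≠ fun _ => 1}, Cfsg.charDegree (χ : G → ℂ))) := by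
  classical
  let : CommGroup (P : Subgroup G) :=
    { (inferInstance : Group (P : Subgroup G)) with mul_comm := fun a b => hab.is_comm.comm a b }
  have hr : (P : Subgroup G).subtype.range = P := Subgroup.range_subtype _
  have F : AbFrob p (P : Subgroup G).subtype := ⟨Subtype.val_injective,
    by rw [hr]; exact isSylowIn_sylow P, fun u hu => by
      rw [hr]; exact (hfrob u u.2 fun h => hu (Subtype.ext h)).le⟩
  have hE : Nat.card (autN (P : Subgroup G).subtype) = 3 := by rw [card_autN F.inj, hr, hCN]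
  obtain ⟨χ₂, χ₃, Y, a, δ, T, h2, h3, h23, ha1, ha2, ha3⟩ := F.exists_three hM hE hm2
  obtain ⟨h4, h5, h6, h7⟩ := F.hatExt_spec hM T
  rw [hr] at h6 h7
  have hY : Nat.card (Set.range Y) = (Nat.card P - 1) / 3 := hE ▸ T.card_range
  have hne : ∀ χ : IrrCharacter G, (χ.1 ≠ fun _ => 1) ↔ χ ≠ irrOne G := fun χ =>
    not_congr ⟨fun h => Subtype.ext h, fun h => h ▸ rfl⟩
  refine ⟨_, Set.range Y, T.eq_union, T.disjoint, ?_, hY, ⟨irrOne G, Or.inl rfl, rfl⟩, a, δ,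
    hatExt Y, T.sign, fun χ h => ⟨?_, fun z y hz hy hy1 => ?_⟩, h4, h5, h6,
    fun ψ hψ z y hz hy => ?_, ?_⟩
  · exact Set.ncard_eq_three.2 ⟨_, _, _, h2.symm, h3.symm, h23, rfl⟩
  · rcases h with rfl | rfl | rfl
    exacts [Or.inl ha1, ha2, ha3]
  · have hy' : (⟨y, hy⟩ : (P : Subgroup G)) ≠ 1 := fun h => hy1 (congrArg Subtype.val h)
    exact (F.apply_of_isPPart hM hy' (T.subset h) hz).trans (T.valX χ h _ hy')
  · simpa using h7 ψ hψ z y hz hy
  rintro ⟨t, ht, hK⟩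
  have h8 := F.three_inv hM hE hm2 T h2 h3 h23 ha1 ha2 ha3 ht hK
  have hX : {χ : IrrCharacter G | χ ∈ ({irrOne G, χ₂, χ₃} : Set _) ∧ χ.1 ≠ fun _ => 1} =
      {χ₂, χ₃} := by
    ext χ
    simp only [Set.mem_ofPred_eq, hne, Set.mem_insert_iff, Set.mem_singleton_iff]
    exact ⟨fun h => h.1.resolve_left h.2, fun h => ⟨Or.inr h, by
      rcases h with rfl | rfl <;> assumption⟩⟩
  refine ⟨?_, ?_⟩
  · obtain ⟨⟨_, l, -⟩⟩ : Nonempty (Set.range Y) :=
      (Nat.card_ne_zero.1 (by have := T.two_le_card_range (by rw [hE]; exact hm2); omega)).1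
    have h9 := (h8 l).1
    have h10 : Nat.card {χ : IrrCharacter G // χ ∈ ({irrOne G, χ₂, χ₃} : Set _) ∧
        (χ.1 ≠ fun _ => 1) ∧ a χ = -1} =
        (({χ₂, χ₃} : Finset (IrrCharacter G)).filter fun χ => a χ = -1).card := by
      refine Nat.subtype_card _ fun χ => ?_
      rw [← and_assoc, Finset.mem_filter, ← Finset.mem_coe, Finset.coe_pair]
      exact and_congr_left' (Set.ext_iff.1 hX χ).symm
    rw [h10, Finset.card_filter, Finset.sum_pair h23]
    rcases ha2 with h | h <;> rcases ha3 with h' | h' <;> rcases T.sign with h'' | h'' <;>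
      simp [h, h', h''] at h9 ⊢
  · rintro _ ⟨l, rfl⟩
    rw [hX, finprod_mem_pair h23, mul_comm]
    exact (h8 l).2

end Cfsg.Agent.S4721
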