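import Cfsg.Statements.S4722
import Cfsg.Agent.Lib.Block.PrincipalC

set_option autoImplicit false
open Cfsg

namespace Cfsg.Agent.S4722

open CT BT
open scoped ComplexConjugate


/-- Let M be a maximal ideal of the algebraic integers containing 2, P a 2-subgroup of the finite group G, U a subset of P, and t an involution of G such that no element of U is inverted by any conjugate of t. Let θ be a generalized character of P vanishing outside U, and for χ in the principal 2-block B₀ put a_χ = #P⁻¹ Σ_{y ∈ P} χ(y) θ(y⁻¹). Then Σ_{χ ∈ B₀} a_χ χ(t)^2/χ(1) = 0, Σ_{χ ∈ B₀} a_χ χ(1) = 0 and Σ_{χ ∈ B₀} a_χ χ(t) = 0. If moreover #P⁻¹ Σ_{y ∈ P} θ(y) ≠ 0, then either at least two of the a_χ have positive real part and at least two have negative real part, or G has a proper normal subgroup containing O_2'(G) and t. -/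
theorem result {G : Type*} [Group G] [Finite G] (M : Ideal Cfsg.AlgInt) (hM : Cfsg.IsPModular 2 M) (P : Subgroup G) (hP : IsPGroup 2 P) (U : Set G) (hUP : U ⊆ (P : Set G)) (t : G) (ht : orderOf t = 2) (hinv : ∀ u ∈ U, ∀ g : G, (g * t * g⁻¹) * u * (g * t * g⁻¹)⁻¹ ≠ u⁻¹) (θ : ↥P → ℂ) (hθ : Cfsg.IsGeneralizedCharacter ↥P θ) (hθU : ∀ y : ↥P, (y : G) ∉ U → θ y = 0) : (∑ᶠ χ ∈ Cfsg.principalBlock M G, ((Nat.card ↥P : ℂ)⁻¹ * ∑ᶠ y : ↥P, (χ : G → ℂ) (y : G) * θ y⁻¹) * (χ : G → ℂ) t ^ 2 / (χ : G → ℂ) 1 = 0) ∧ (∑ᶠ χ ∈ Cfsg.principalBlock M G, ((Nat.card ↥P : ℂ)⁻¹ * ∑ᶠ y : ↥P, (χ : G → ℂ) (y : G) * θ y⁻¹) * (χ : G → ℂ) 1 = 0) ∧ (∑ᶠ χ ∈ Cfsg.principalBlock M G, ((Nat.card ↥P : ℂ)⁻¹ * ∑ᶠ y : ↥P, (χ : G → ℂ) (y : G) * θ y⁻¹) * (χ : G → ℂ) t = 0) ∧ ((Nat.card ↥P : ℂ)⁻¹ * ∑ᶠ y : ↥P, θ y ≠ 0 → (2 ≤ Nat.card {χ : Cfsg.IrrCharacter G // χ ∈ Cfsg.principalBlock M G ∧ 0 < (((Nat.card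 ↥P : ℂ)⁻¹ * ∑ᶠ y : ↥P, (χ : G → ℂ) (y : G) * θ y⁻¹)).re} ∧ 2 ≤ Nat.card {χ : Cfsg.IrrCharacter G // χ ∈ Cfsg.principalBlock M G ∧ (((Nat.card ↥P : ℂ)⁻¹ * ∑ᶠ y : ↥P, (χ : G → ℂ) (y : G) * θ y⁻¹)).re < 0}) ∨ ∃ K : Subgroup G, K.Normal ∧ K ≠ ⊤ ∧ Cfsg.pPrimeCore 2 G ≤ K ∧ t ∈ K) := by
  classical
  have := Fintype.ofFinite P
  have ht2 : t * t = 1 := by rw [← sq, ← ht, pow_orderOf_eq_one]
  have hB := isPBlock_principalBlock (M := M) (G := G)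
  have hsum : ∀ F : IrrCharacter G → ℂ,
      (∀ y : P, (y : G)⁻¹ ∈ U → ∑ χ ∈ bset (principalBlock M G), χ.1 y * F χ = 0) →
      ∑ᶠ χ ∈ principalBlock M G,
        ((Nat.card P : ℂ)⁻¹ * ∑ᶠ y : P, χ.1 (y : G) * θ y⁻¹) * F χ = 0 := by
    intro F hF
    rw [finsum_mem_eq_sum_bset]
    simp only [finsum_eq_sum_of_fintype, mul_assoc, Finset.sum_mul]
    rw [← Finset.mul_sum, Finset.sum_comm, Finset.sum_eq_zero, mul_zero]
    intro y _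
    by_cases hy : (y : G)⁻¹ ∈ U
    · rw [Finset.sum_congr rfl (g := fun χ => θ y⁻¹ * (χ.1 y * F χ)) fun χ _ => by ring,
        ← Finset.mul_sum, hF y hy, mul_zero]
    · simp [hθU y⁻¹ hy]
  have hinv' : ∀ y : P, (y : G)⁻¹ ∈ U → ∀ g : G,
      (g * t * g⁻¹) * y * (g * t * g⁻¹)⁻¹ ≠ (y : G)⁻¹ := by
    intro y hy g h
    apply hinv _ hy g
    rw [← h]
    generalize g * t * g⁻¹ = k at h ⊢
    calc k * (k * y * k⁻¹) * k⁻¹ = k * (y : G)⁻¹ * k⁻¹ := by rw [h]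
      _ = (k * y * k⁻¹)⁻¹ := by group
  have e1 : ∑ᶠ χ ∈ principalBlock M G,
      ((Nat.card P : ℂ)⁻¹ * ∑ᶠ y : P, χ.1 (y : G) * θ y⁻¹) * χ.1 t ^ 2 / χ.1 1 = 0 := by
    simp only [mul_div_assoc]
    refine hsum _ fun y hy => ?_
    rw [← sum_inv_mul_div_eq_zero hM hB ht2 ht2 (hinv' y hy) (z := y)
      (by rw [(GT.isPElt_of_mem hP y.2).pPart_eq])]
    exact Finset.sum_congr rfl fun χ _ => by ring
  have e2 : ∑ᶠ χ ∈ principalBlock M G,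
      ((Nat.card P : ℂ)⁻¹ * ∑ᶠ y : P, χ.1 (y : G) * θ y⁻¹) * χ.1 1 = 0 := by
    refine hsum _ fun y hy => ?_
    have hy1 : (y : G) ≠ 1 := fun h => hinv' y hy 1 (by rw [h]; group)
    rw [← bker_eq_zero_of_regular' hM hB ((GT.isPElt_of_mem hP y.2).dvd_orderOf hy1)
      (y := 1) not_dvd_orderOf_one, bker_def]
    exact Finset.sum_congr rfl fun χ _ => by rw [conj_irr_of_sq χ (one_mul 1)]
  have e3 : ∑ᶠ χ ∈ principalBlock M G,
      ((Nat.card P : ℂ)⁻¹ * ∑ᶠ y : P, χ.1 (y : G) * θ y⁻¹) * χ.1 t = 0 := by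
    refine hsum _ fun y hy => ?_
    have htp : GT.IsPElt 2 t := ⟨1, by rw [ht, pow_one]⟩
    rw [← bker_eq_zero_of_not_isConj hM hB (x := y) (y := t), bker_def]
    · exact Finset.sum_congr rfl fun χ _ => by rw [conj_irr_of_sq χ ht2]
    · rw [(GT.isPElt_of_mem hP y.2).pPart_eq, htp.pPart_eq]
      intro h
      obtain ⟨g, hg⟩ := isConj_iff.1 h.symm
      apply hinv' y hy g
      rw [hg, mul_inv_cancel_right, eq_inv_iff_mul_eq_one, ← hg,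
        show g * t * g⁻¹ * (g * t * g⁻¹) = g * (t * t) * g⁻¹ by group, ht2]
      group
  refine ⟨e1, e2, e3, fun h0 => ?_⟩
  have hint : ∀ χ : IrrCharacter G, ∃ n : ℤ,
      (Nat.card P : ℂ)⁻¹ * ∑ᶠ y : P, χ.1 (y : G) * θ y⁻¹ = n := by
    intro χ
    obtain ⟨n, hn⟩ := ((irr_isCharacter χ).res P).isGen.exists_int_ip hθ
    refine ⟨n, ?_⟩
    rw [← hn, ip_def, finsum_eq_sum_of_fintype]
    simp only [hθ.apply_inv, res_apply]
  choose a ha using hint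
  simp only [ha] at e1 e2 e3 ⊢
  rw [finsum_mem_eq_sum_bset] at e1 e2 e3
  have ha1 : a (irrOne G) ≠ 0 := by
    intro h
    apply h0
    have := ha (irrOne G)
    rw [h, Int.cast_zero, finsum_eq_sum_of_fintype, ← Equiv.sum_comp (Equiv.inv P)] at this
    rw [finsum_eq_sum_of_fintype]
    simpa using this
  have h1 := mem_bset.2 (irrOne_mem_principalBlock hM (G := G))
  have hfin : (∃ χ ∈ bset (principalBlock M G), χ ≠ irrOne G ∧ a χ ≠ 0 ∧ t ∈ ker χ.1) →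
      ∃ K : Subgroup G, K.Normal ∧ K ≠ ⊤ ∧ pPrimeCore 2 G ≤ K ∧ t ∈ K := by
    rintro ⟨χ, hχ, hne, -, hk⟩
    exact ⟨ker χ.1, inferInstance, fun h => hne ((ker_irr_eq_top_iff χ).1 h),
      pPrimeCore_le_ker_of_mem_principal hM (mem_bset.1 hχ), hk⟩
  by_contra hcon
  rw [not_or, not_and_or] at hcon
  rcases hcon.1 with h | h
  · obtain ⟨χ₀, hχ₀⟩ := exists_forall_ne_of_card_lt_two h
    refine hcon.2 (hfin (exists_mem_ker_of_one_pos _ a ht2 e2 e3 e1 h1 ha1 χ₀ fun χ hχ hne => ?_))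
    have := hχ₀ χ hne
    simpa [mem_bset.1 hχ] using this
  · obtain ⟨χ₀, hχ₀⟩ := exists_forall_ne_of_card_lt_two h
    refine hcon.2 (hfin (exists_mem_ker_of_one_neg _ a ht2 e2 e3 e1 h1 ha1 χ₀ fun χ hχ hne => ?_))
    have := hχ₀ χ hne
    simpa [mem_bset.1 hχ] using this

end Cfsg.Agent.S4722
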