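import Cfsg.Statements.S4724
import Cfsg.Agent.S4707
import Cfsg.Agent.Lib.Block.OneWt
import Cfsg.Agent.Lib.Block.OneMod
import Cfsg.Agent.Lib.Block.OneLin
import Cfsg.Agent.Lib.Grp.PrimeDeg
import Cfsg.Agent.Lib.Char.DihTI

set_option autoImplicit false
open Cfsg

namespace Cfsg.Agent.S4724

open CT BT GT

open MulAction

set_option linter.unusedSectionVars false

section
variable {p : ℕ} [hp : Fact p.Prime] {G : Type*} [Group G] [Finite G]
  {ι : Multiplicative (ZMod p) →* G} [Fintype (Multiplicative (ZMod p))] (H : PrimeSyl p ι)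

local notation "N" => Subgroup.normalizer (MonoidHom.range ι : Set G)
local notation "C" => Subgroup.centralizer (MonoidHom.range ι : Set G)
local notation "e" => Nat.card (autN ι)

include H

theorem pow_eq_one {θ : G → ℂ} (hθ : IsCharacter G θ) (h : ∑ u, θ (ι u) = p * 1) {n : G}
    (hn : n ∈ N) (hn' : n ∉ C) : θ n ^ orderOf n = 1 := by
  obtain ⟨f, hf⟩ := (H.isCharacter_fixPart hθ).exists_monoidHom_of_degree_one
    (charDegree_eq_of_apply_one (n := 1) (by rw [H.fixPart_one h, Nat.cast_one]))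
  rw [← H.fixPart_apply hθ.isClassFunction (n := ⟨n, hn⟩) hn', hf, ← Subgroup.orderOf_mk n hn,
    monoidHom_pow_orderOf]

theorem even_of_free (hC : C ≤ ι.range) (hperf : commutator G = ⊤) (he : Even e) {θ : G → ℂ}
    (hθ : IsCharacter G θ) (h : ∑ u, θ (ι u) = 0) {s : ℕ} (hs : charDegree θ = s * e) : Even s := by
  obtain ⟨g, h1, h2, h3, -⟩ := H.exists_gen
  have h4 := detChar_of_regular hθ H.card_autN_pos.ne' he (g := g) (t := s) fun k => by
    split_ifs with h4
    · rw [H.eq_one_of_mem_range (hC ((h3 k).2 h4)) fun h => h2 (h.trans (orderOf_pow_dvd k)),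
        hθ.apply_one, hs]
    · have := H.card_mul_apply hθ.isClassFunction (pow_mem h1 k) (mt (h3 k).1 h4)
      rw [hθ.sum_coset_eq_zero ι h] at this
      exact (mul_eq_zero.1 this.symm).resolve_left (Nat.cast_ne_zero.2 hp.out.ne_zero)
  rw [(mem_ker_detChar_iff θ).1 (commutator_le_ker_detChar θ (hperf.ge (Subgroup.mem_top g)))] at h4
  exact (neg_one_pow_eq_one_iff_even (by norm_num)).1 h4.symm

theorem exists_small (hC : C ≤ ι.range) {E L : Subgroup G} (D : DTI E L) (hE : Nat.card E = e)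
    (hperf : commutator G = ⊤) (he : Odd e) (h2 : 2 < p) {χ : IrrCharacter G}
    (hχ : charDegree χ.1 = p) (h1 : ∀ x ∈ E, x ≠ 1 → χ.1 x = 1) (hr : cbar χ.1 = χ.1) :
    ∃ ψ : IrrCharacter G, ¬ ι.range ≤ ker ψ.1 ∧ 2 * charDegree ψ.1 + 1 ≤ p := by
  classical
  have := D.comm
  have hlt : e < p - 1 := (Nat.le_of_dvd (by omega) H.card_autN_dvd).lt_of_ne fun h => by
    obtain ⟨a, ha⟩ := he
    obtain ⟨b, hb⟩ := hp.out.odd_of_ne_two h2.ne'
    omega
  obtain ⟨R, h3, h4, h5⟩ := exists_dihedral_family D.le D.card D.ti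
    (fun g hg hg' x hx => D.inverts hperf (hE ▸ he) hg hg' hx) (hE ▸ he) (χ := χ)
    (by rintro rfl; rw [charDegree_irrOne] at hχ; omega) h1 hr
  obtain ⟨X, Y, δ, δ₀, T, h6⟩ := H.exists_pb
  have hc := H.cenReg_eq_bot hC
  have h7 : ∀ l, ¬ ∃ c, ∀ u ≠ 1, (Y l).1 (ι u) = c := fun l ⟨c, h⟩ =>
    hlt.ne (T.card_eq_of_const h)
  have h8 : ∀ ξ ∈ R, ξ ∈ X ∧ δ ξ = 1 ∧ charDegree ξ.1 = p + 1 := fun ξ hξ => by
    have h8 : ∀ u ≠ 1, ξ.1 (ι u) = 1 := fun u hu => by
      rw [(h5 ξ hξ).2 _ (Or.inr fun y hy => ?_), H.apply_eq_zero hχ.symm.dvd (H.dvd_orderOf hu),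
        add_zero]
      have := (H.dvd_orderOf hu).trans ((orderOf_eq_of_isConj (isConj_iff.2 ⟨y⁻¹, by simp⟩)).dvd.trans
        (E.orderOf_dvd_natCard hy))
      have := Nat.le_of_dvd Nat.card_pos this
      omega
    obtain ⟨u, hu⟩ := have := H.nontrivial; exists_ne (1 : Multiplicative (ZMod p))
    have h9 := (T.mem_of_apply hu one_ne_zero fun y hy => by
      rw [Subgroup.mem_bot.1 (hc.le hy), mul_one, h8 u hu]).resolve_right
        fun ⟨l, h⟩ => h7 l ⟨1, h ▸ h8⟩
    refine ⟨h9, by exact_mod_cast (T.valX_range h9 hu).symm.trans (h8 u hu),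
      charDegree_eq_of_apply_one ?_⟩
    rw [(h5 ξ hξ).2 1 (Or.inl rfl), irr_apply_one, hχ, Nat.cast_succ, add_comm]
  have h9 : ∀ φ ∉ insert (irrOne G) R, ¬ (φ ∈ X ∧ δ φ = 1 ∨ δ₀ = 1 ∧ ∃ l, Y l = φ) :=
    fun φ h h' => by
      have := T.stem hc (fun ξ hξ => (Finset.mem_insert.1 hξ).elim (by
        rintro rfl
        exact ⟨h6, T.sign_one h6, funext fun g => by simp⟩)
        fun h => ⟨(h8 ξ h).1, (h8 ξ h).2.1, (h5 ξ h).1⟩) h h'
      rw [Finset.card_insert_of_notMem h4] at this
      omega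
  have h10 : insert (irrOne G) R ⊆ X := Finset.insert_subset h6 fun ξ h => (h8 ξ h).1
  obtain ⟨l⟩ := H.nonempty_hatNe
  obtain rfl : δ₀ = -1 := T.sign₀.resolve_left fun h =>
    h9 (Y l) (fun h => T.not_mem l (h10 h)) (Or.inr ⟨h, l, rfl⟩)
  refine ⟨Y l, fun h => h7 l ⟨_, fun u _ => ker_apply_eq (h ⟨u, rfl⟩)⟩, ?_⟩
  have h11 := T.degree_rel l
  have h12 := Finset.sum_le_card_nsmul (X \ insert (irrOne G) R)
    (fun φ => δ φ * charDegree φ.1) (1 - p) fun φ hφ => by
      obtain ⟨h12, h13⟩ := Finset.mem_sdiff.1 hφ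
      obtain ⟨f, hf⟩ := T.exists_fix_X h12
      rw [(T.sign φ h12).resolve_left fun h => h9 φ h13 (Or.inl ⟨h12, h⟩)] at hf ⊢
      have : (0 : ℤ) ≤ p * f := by positivity
      linarith
  rw [← Finset.sum_sdiff h10, Finset.sum_insert h4, T.sign_one h6, charDegree_irrOne,
    Finset.sum_congr (s₁ := R) rfl fun ξ h => by rw [(h8 ξ h).2.1, (h8 ξ h).2.2],
    Finset.sum_const] at h11
  rw [Finset.card_sdiff_of_subset h10, Finset.card_insert_of_notMem h4, T.card_X, ← hE, ← h3,
    show 2 * R.card + 1 - (R.card + 1) = R.card by omega] at h12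
  have := H.two_mul_card_autN_le hlt
  simp only [nsmul_eq_mul] at h11 h12
  push_cast at h11
  have : (charDegree (Y l).1 : ℤ) ≤ 2 * R.card + 1 := by linarith
  omega

theorem aux {α : Type*} [Finite α] [MulAction G α] [FaithfulSMul G α] [IsPretransitive G α]
    (hα : Nat.card α = p) (hC : C ≤ ι.range) {χ : IrrCharacter G} (hχ : charDegree χ.1 = p)
    (hu : ∀ ψ : IrrCharacter G, charDegree ψ.1 = p → ψ = χ) {E : Subgroup G}
    (hPE : ι.range ⊔ E = N) (hPE' : ι.range ⊓ E = ⊥)
    (hNE : Nat.card (Subgroup.normalizer (E : Set G)) = 2 * Nat.card E)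
    (hTI : ∀ g ∉ Subgroup.normalizer (E : Set G), E ⊓ E.map (MulAut.conj g).toMonoidHom = ⊥) :
    (p = 5 ∨ p = 7 ∨ p = 11) ∧
      Nonempty (G ≃* Matrix.ProjectiveSpecialLinearGroup (Fin 2) (ZMod p)) := by
  have hp' := hp.out
  have h2p := hp'.two_le
  have hEN : E ≤ N := hPE ▸ le_sup_right
  have hN : Nat.card N = p * e := by
    rw [← card_mul_relIndex (Subgroup.centralizer_le_normalizer _), H.centralizer_le_iff.1 hC,
      card_autN H.inj]
  have hE : Nat.card E = e := Nat.eq_of_mul_eq_mul_right hp'.pos (by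
    have := card_sup_of_disjoint_of_le_normalizer hEN (disjoint_iff.2 hPE').symm
    rwa [sup_comm, hPE, hN, H.card_range, mul_comm, eq_comm] at this)
  have hEC : ∀ x ∈ E, x ≠ 1 → x ∉ C := fun x hx h1 h => h1 (hPE'.le ⟨hC h, hx⟩)
  have := isCyclic_mulAut_of_prime H.card
  have : IsCyclic E := isCyclic_of_injective ((conjA H.inj).comp (Subgroup.inclusion hEN))
    ((injective_iff_map_eq_one _).2 fun x hx => Subtype.ext (by_contra fun h =>
      hEC x x.2 h ((conjA_eq_one_iff H.inj _).1 hx)))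
  have D : DTI E (Subgroup.normalizer (E : Set G)) := ⟨Subgroup.le_normalizer, hNE, inferInstance,
    fun x hx h1 g hg => by_contra fun h => h1 ((hTI g h).le ⟨hx, _, hg, by simp [mul_assoc]⟩)⟩
  have h0 : ∀ g : G, p ∣ orderOf g → ∀ a : α, g • a ≠ a := fun g hg a ha => by
    have h4 := (stabilizer G a).card_mul_index
    rw [index_stabilizer_of_transitive, hα] at h4
    have := hp'.pow_dvd_iff_le_factorization (Nat.card_pos (α := G)).ne' |>.1
      (show p ^ 2 ∣ Nat.card G by
        rw [← h4, sq]; exact mul_dvd_mul_right (hg.trans ((stabilizer G a).orderOf_dvd_natCard ha)) p)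
    rw [H.factorization_card] at this
    omega
  have hπ := isCharacter_permChar (G := G) α
  have hπ1 : ∑ u, permChar G α (ι u) = p * 1 := by
    rw [H.sum_eq (c := 0) fun u hu => ?_, map_one, permChar_apply_one, hα, mul_zero, add_zero, mul_one]
    have : IsEmpty {a : α // ι u • a = a} := ⟨fun a => h0 _ (H.dvd_orderOf hu) a.1 a.2⟩
    simp [permChar_apply']
  have hf : ∀ x ∈ E, x ≠ 1 → Nat.card (fixedBy α x) = 1 := fun x hx h1 => by
    have := pow_eq_one H hπ hπ1 (hEN hx) (hEC x hx h1)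
    rw [permChar_apply] at this
    exact (Nat.pow_eq_one.1 (by exact_mod_cast this)).resolve_right (orderOf_pos x).ne'
  have hχ1 := fun x hx h1 => pow_eq_one H (irr_isCharacter χ) (by
    rw [H.sum_eq (c := 0) fun u hu => H.apply_eq_zero hχ.symm.dvd (H.dvd_orderOf hu), map_one,
      irr_apply_one, hχ, mul_zero, add_zero, mul_one]) (hEN hx) (hEC x hx h1)
  have hE1 : E ≠ ⊥ := by
    rintro rfl
    have := irr_degree_sq_le_index_of_le_center χ bot_le
    rw [Subgroup.normalizer_eq_top, Subgroup.card_top, Subgroup.card_bot] at hNE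
    rw [Subgroup.index_bot, hNE, hχ] at this
    nlinarith
  have he := (E.one_lt_card_iff_ne_bot).2 hE1
  obtain ⟨t, ht⟩ := H.card_autN_dvd
  have h3p : 2 < p := by have := Nat.le_of_dvd (by omega) H.card_autN_dvd; omega
  have hnn : ¬ ι.range.Normal := fun h => by
    have h1 := Subgroup.card_subgroup_dvd_card (Subgroup.normalizer (E : Set G))
    rw [Subgroup.normalizer_eq_top, Subgroup.card_top] at hN
    rw [hNE, hN, hE, Nat.mul_dvd_mul_iff_right (by omega),
      Nat.prime_dvd_prime_iff_eq Nat.prime_two hp'] at h1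
    omega
  have : Nontrivial α := Finite.one_lt_card_iff_nontrivial.1 (by omega)
  have := IsPreprimitive.of_prime_card (G := G) (hα ▸ hp')
  have hK : ∀ K : Subgroup G, K.Normal → ¬ ι.range ≤ K → K = ⊥ := fun K _ h =>
    by_contra fun h' => h (H.range_le_of_dvd K (hα ▸ S4707.card_dvd K h'))
  have hperf : commutator G = ⊤ := by
    have h1 : E ≤ commutator G := fun x hx => mem_commutator_iff_forall_units_hom.2 fun f =>
      by_contra fun h => by
        have h2 := hχ1 x hx (by rintro rfl; simp at h)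
        rw [(lin_smul_eq_self_iff f χ).1 (hu _ (charDegree_eq_of_apply_one (by
          simp [irr_apply_one, hχ]))) x h,
          zero_pow (orderOf_pos x).ne'] at h2
        exact zero_ne_one h2
    have h2 : ι.range ≤ commutator G := by_contra fun h => hE1 (le_bot_iff.1 (hK _ inferInstance h ▸ h1))
    rw [← (H.syl.of_le h2 le_top).frattini_top, ← hPE, eq_comm, sup_eq_left]
    exact sup_le h2 h1
  have hG := (Subgroup.normalizer (ι.range : Set G)).card_mul_index
  rcases Nat.even_or_odd e with h1 | h1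
  · have h2 : ip (permChar G α) (irrOne G).1 = 1 := by
      rw [permChar_eq_ind_stabilizer (Classical.arbitrary α)]; exact ip_ind_one_one _
    have hθ := hπ.sub_irr (irrOne G) (h2.trans_ne one_ne_zero)
    have h3 : ∑ u, (permChar G α - (irrOne G).1) (ι u) = 0 := by
      simp [hπ1, Nat.card_eq_fintype_card.symm.trans H.card]
    have h4 : charDegree (permChar G α - (irrOne G).1) = p - 1 := charDegree_eq_of_apply_one (by
      simp [permChar_apply_one, hα, Nat.cast_sub hp'.one_le])
    obtain ⟨ζ, hζ⟩ := hθ.exists_irr_ip_ne_zero fun h => by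
      have := charDegree_eq_of_apply_one (χ := permChar G α - (irrOne G).1) (n := 0) (by rw [h]; simp)
      omega
    have h5 := hθ.sum_eq_zero_of_ip_ne_zero ι h3 hζ
    have h6 : ker ζ.1 = ⊥ := hK _ inferInstance fun h => by
      rw [H.sum_eq fun u _ => ker_apply_eq (h ⟨u, rfl⟩), map_one] at h5
      exact mul_ne_zero (Nat.cast_ne_zero.2 hp.out.ne_zero) (irr_apply_one_ne_zero ζ)
        (by linear_combination h5)
    have h7 : permChar G α = (irrOne G).1 + ζ.1 := by
      rw [← hθ.eq_irr_of_ip_ne_zero_of_degree_le ζ hζ, add_sub_cancel]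
      by_contra h
      rcases H.exists_co ζ h6 (by omega) hnn with h7 | ⟨Z, l, F, rfl⟩
      · exact Nat.not_even_one (even_of_free H hC hperf h1 (irr_isCharacter ζ) h5 (by
          rw [(H.faithful_small (irr_isCharacter ζ) h6 h7 hnn).2.1, one_mul]))
      · rw [F.fam.sum_eq] at h5
        simp [hp'.ne_zero] at h5
    have h8 : ζ ≠ irrOne G := by
      rintro rfl
      rw [ip_sub_left, h2, ip_irr_self, sub_self] at hζ
      exact hζ rfl
    obtain ⟨h9, h10, h11⟩ := D.eq_five (S4707.two_transitive (by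
      rw [h7, ip_add_left, ip_add_right, ip_add_right, ip_irr_self, ip_irr_self, ip_irr_ne h8,
        ip_irr_ne h8.symm]; norm_num)) hp' hα (t := t) (by rw [hE]; omega)
      (even_of_free H hC hperf h1 hθ h3 (by rw [h4, ht, mul_comm])) (hE ▸ h1) hf
      (fun g hg => ⟨H.orderOf_eq_of_dvd hC hg, h0 g hg⟩) (by rw [← hG, hN, hE])
      H.index_normalizer_modEq
    exact ⟨Or.inl h9, H.nonempty_psl2' (by omega) hC (hE ▸ h10) h11 hperf⟩
  obtain ⟨ψ, h2, h3⟩ := exists_small H hC D hE hperf h1 h3p hχ (fun x hx h => by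
    obtain ⟨σ, hσ⟩ := exists_ringEquiv_pow (orderOf_pos x).ne' (Nat.coprime_two_left.2
      (h1.of_dvd_nat (hE ▸ E.orderOf_dvd_natCard hx)))
    have h3 := congrFun (congrArg Subtype.val (hu (irrGal σ χ) (by rw [charDegree_irrGal, hχ]))) x
    rw [irrGal_val, gal_apply, RingHom.coe_coe, hσ _ (hχ1 x hx h), sq] at h3
    exact mul_left_cancel₀ (fun h4 => by simpa [h4, (orderOf_pos x).ne'] using hχ1 x hx h)
      (h3.trans (mul_one _).symm))
    (congrArg Subtype.val (hu (irrGal (starRingEnd ℂ) χ) (by rw [charDegree_irrGal, hχ])))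
  have h4 := hK _ inferInstance h2
  obtain ⟨h5, h6, h7, -⟩ := H.faithful_small (irr_isCharacter ψ) h4 h3 hnn
  have h8 := H.index_normalizer_of_small (irr_isCharacter ψ) h4 h3 hnn
  have h9 := D.card_le_five hperf (hE ▸ h1) hE1 hf (by omega) (by rw [hN, hα, hE]) (by rw [hα, h8])
    fun q hq => Nat.le_of_dvd (by omega) (Nat.Coprime.dvd_of_dvd_mul_left (m := p) ?_ ?_)
  · obtain ⟨a, ha⟩ := h1
    exact ⟨by omega, H.nonempty_psl2' (by omega) hC (by omega) h8 hperf⟩
  · refine (hp'.coprime_iff_not_dvd.2 fun h => hq ?_).symm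
    obtain ⟨⟨x, hx⟩, hx'⟩ := exists_prime_orderOf_dvd_card' p h
    obtain ⟨g, rfl⟩ := QuotientGroup.mk_surjective q
    rw [Subgroup.orderOf_mk] at hx'
    refine QuotientGroup.eq.2 (mul_mem (H.mem_normalizer_of_conj (g := g⁻¹) hx'.symm.dvd
      ((stabilizer_quotient _).le (congrArg Prod.fst hx)) ?_) (one_mem _))
    simpa [mul_assoc] using QuotientGroup.eq.1 (congrArg Prod.snd hx).symm
  · rw [hE, ← hN]
    exact Subgroup.card_dvd_of_le fun x hx => (stabilizer_quotient _).le (congrArg Prod.fst hx)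

end

/-- Let G be a transitive permutation group of prime degree p having exactly one irreducible character of degree p. Let P be a Sylow p-subgroup and suppose N_G(P) = P·E for a subgroup E with P ∩ E = 1, such that the normalizer of E has order 2·#E and E meets each of its conjugates by elements outside its normalizer trivially. Then p is 5, 7 or 11 and G is isomorphic to PSL(2, p). -/
theorem result {α : Type*} [Fintype α] [DecidableEq α] {p : ℕ} [Fact p.Prime] (hα : Fintype.card α = p) (G : Subgroup (Equiv.Perm α)) [MulAction.IsPretransitive G α] (huniq : ∃! χ : Cfsg.IrrCharacter G, Cfsg.charDegree (χ : G → ℂ) = p) (P : Sylow p G) (E : Subgroup G) (hPE : (P : Subgroup G) ⊔ E = Subgroup.normalizer ((P : Subgroup G) : Set G)) (hPE' : (P : Subgroup G) ⊓ E = ⊥) (hNE : Nat.card (Subgroup.normalizer (E : Set G)) = 2 * Nat.card E) (hTI : ∀ g : G, g ∉ Subgroup.normalizer (E : Set G) → E ⊓ E.map (MulAut.conj g).toMonoidHom = ⊥) : (p = 5 ∨ p = 7 ∨ p = 11) ∧ ∃ (F : Type)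 (_ : Field F) (_ : Fintype F), Fintype.card F = p ∧ Nonempty (G ≃* Matrix.ProjectiveSpecialLinearGroup (Fin 2) F) := by
  have hp' : p.Prime := Fact.out
  have hG : Nat.card G ∣ p.factorial := by
    rw [← hα, ← Fintype.card_perm, ← Nat.card_eq_fintype_card]
    exact G.card_subgroup_dvd_card
  obtain ⟨χ, hχ, hu⟩ := huniq
  have hP : Nat.card P = p := by
    rw [P.card_eq_multiplicity, show (Nat.card G).factorization p = 1 from ?_, pow_one]
    refine le_antisymm ((Nat.factorization_le_factorization_of_dvd_right hG Nat.card_pos.ne'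
      (Nat.factorial_ne_zero _)).trans ?_) ((hp'.dvd_iff_one_le_factorization Nat.card_pos.ne').1
        (hχ ▸ irr_degree_dvd_card χ))
    obtain ⟨q, rfl⟩ : ∃ q, p = q + 1 := ⟨p - 1, by have := hp'.pos; omega⟩
    rw [Nat.factorial_succ, Nat.factorization_mul (by omega) (Nat.factorial_ne_zero _),
      Finsupp.add_apply, hp'.factorization_self, Nat.factorization_eq_zero_of_not_dvd
        (by rw [hp'.dvd_factorial]; omega)]
  obtain ⟨ι, H, hι⟩ := exists_primeSyl_zmod P hP
  have := Fintype.ofFinite (Multiplicative (ZMod p))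
  rw [← hι] at hPE hPE'
  obtain ⟨h1, h2⟩ := aux H (Nat.card_eq_fintype_card.trans hα)
    (H.centralizer_le_of_perm G.subtype G.subtype_injective (by omega)) hχ hu hPE hPE' hNE hTI
  exact ⟨h1, ZMod p, _, _, ZMod.card p, h2⟩

end Cfsg.Agent.S4724
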