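import Cfsg.Statements.S4726
import Cfsg.Agent.Lib.Block.CentralDef
import Cfsg.Agent.Lib.Block.PairsMax

set_option autoImplicit false
open Cfsg

namespace Cfsg.Agent.S4726

open CT BT
open scoped MonoidAlgebra ComplexConjugate

/-- Let p be a prime, M a maximal ideal of the algebraic integers containing p, H a subgroup of the finite group G and b a p-block of H with defect group D₀ such that C_G(D₀) ≤ H. Then b induces a block of G, and for every block B of G induced by b there is a defect group D of B with Z(D) ≤ Z(D₀) ≤ D₀ ≤ D (as subgroups of G). In particular, if the defect groups of B are abelian then D₀ is a defect group of B. -/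
theorem result {G : Type*} [Group G] [Finite G] (p : ℕ) [Fact p.Prime] (M : Ideal Cfsg.AlgInt) (hM : Cfsg.IsPModular p M) (H : Subgroup G) (b : Set (Cfsg.IrrCharacter ↥H)) (hb : Cfsg.IsPBlock M b) (D₀ : Subgroup ↥H) (hD₀ : Cfsg.IsDefectGroup p M b D₀) (hC : Subgroup.centralizer ((D₀.map H.subtype : Subgroup G) : Set G) ≤ H) : Cfsg.InducedBlockDefined M H b ∧ ∀ B : Set (Cfsg.IrrCharacter G), Cfsg.IsInducedBlock M H b B → (∃ D : Subgroup G, Cfsg.IsDefectGroup p M B D ∧ (Subgroup.center ↥D).map D.subtype ≤ ((Subgroup.center ↥D₀).map D₀.subtype).map H.subtype ∧ ((Subgroup.center ↥D₀).map D₀.subtype).map H.subtype ≤ D₀.map H.subtype ∧ D₀.map H.subtype ≤ D) ∧ (∀ D : Subgroup G, Cfsg.IsDefectGroup p M B D → IsMulCommutative ↥D → Cfsg.IsDefectGroup p M B (D₀.map H.subtype)) := by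
  refine ⟨inducedBlockDefined_of_centralizer_le hM hb hD₀ hC, fun B hB => ?_⟩
  set Q := D₀.map H.subtype with hQ
  have hQH : Q ≤ H := Subgroup.map_subtype_le _
  have hD := (isDefectGroup_iff_defGrp_sub hM hb D₀).1 hD₀
  have hbi := bIdem_sidem hM hb
  obtain ⟨f, hf, hbf⟩ := hD.exists_maxBP hM hbi
  have hHC : H ⊓ Subgroup.centralizer (Q : Set G) = ⊤ ⊓ Subgroup.centralizer (Q : Set G) := by
    rw [top_inf_eq, inf_eq_right.2 hC]
  have hf' : BP p ⊤ Q f := hf.bp.congr_base hHC le_rfl fun x _ => mem_normalizer_top x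
  obtain ⟨D, e, hDe, hle⟩ := hf'.exists_maxBP_ge le_top
  have h1 := (isInducedBlock_iff_br_mul_br hM hD.pgroup (hQH.trans Subgroup.le_normalizer) hC hb
    (hbi.fixed.mono hQH) hD.br_ne hB.2.1).1 hB
  have h2 : br Q (idem hM B) * f = f := by rw [← hbf, ← mul_assoc, h1]
  have hBi := bIdem_top_idem hM hB.2.1
  have h3 := hDe.defGrp hM hBi ((hle.br_block_iff hBi.toCIdem le_top).1 h2)
  have h4 := (isDefectGroup_iff_defGrp hM hB.2.1 D).2 h3
  have hZ : (Subgroup.center D).map D.subtype ≤ Subgroup.centralizer (Q : Set G) := by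
    rintro _ ⟨z, hz, rfl⟩ q hq
    exact congrArg Subtype.val (Subgroup.mem_center_iff.1 hz ⟨q, hle.le hq⟩)
  have h5 : (Subgroup.center D).map D.subtype ≤ Q := by
    obtain ⟨g, hg⟩ := hDe.bp.exists_ple hM (sup_le hle.le (Subgroup.map_subtype_le
      (Subgroup.center D)))
    have hSH : Q ⊔ (Subgroup.center D).map D.subtype ≤ H := sup_le hQH (hZ.trans hC)
    have := hf.max _ _ hSH ((hle.of_le hM hg le_sup_left).congr_base hHC.symm le_rfl
      (hSH.trans Subgroup.le_normalizer))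
    exact le_sup_right.trans this.le
  refine ⟨⟨D, h4, fun z hz => ?_, Subgroup.map_mono (Subgroup.map_subtype_le _), hle.le⟩,
    fun D' hD' hab => ?_⟩
  · obtain ⟨y, hy, rfl⟩ := h5 hz
    refine ⟨y, ⟨⟨y, hy⟩, Subgroup.mem_center_iff.2 fun x => Subtype.ext (Subtype.ext ?_), rfl⟩, rfl⟩
    exact hZ hz x ⟨x, x.2, rfl⟩
  · obtain ⟨g, rfl⟩ := exists_conj_of_isDefectGroup hM hB.2.1 hD' h4
    refine le_antisymm hle.le (fun x hx => h5 ⟨⟨x, hx⟩, Subgroup.mem_center_iff.2 ?_, rfl⟩) ▸ h4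
    rintro ⟨_, y, hy, rfl⟩
    obtain ⟨x, hx', rfl⟩ := hx
    refine Subtype.ext ?_
    simp only [Subgroup.coe_mul, ← map_mul]
    exact congrArg _ (congrArg Subtype.val (hab.is_comm.comm (⟨y, hy⟩ : D') ⟨x, hx'⟩))

end Cfsg.Agent.S4726
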