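import Cfsg.Statements.S4727
import Cfsg.Agent.Lib.Block.KerPairs

set_option autoImplicit false
open Cfsg

namespace Cfsg.Agent.S4727

open CT BT GT
open scoped ComplexConjugate


/-- Let p be a prime, π a set of primes containing p, M a maximal ideal of the algebraic integers containing p, and B a p-block of the finite group G with defect group D; let B₁ be the block of N_G(D) with defect group D that induces B (the Brauer correspondent of B). Suppose every element of O_π'(N_G(D)), the largest normal subgroup of N_G(D) whose order has no prime divisor in π, lies in the kernel of every member of B₁. If y is a p-element whose centralizer C has a normal Hall π'-subgroup (every element of C whose order has no prime divisor in π lies in O_π'(C)), then χ(y x) = χ(y) for every χ ∈ B and every x ∈ C whose order has no prime divisor in π. -/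
theorem result {G : Type*} [Group G] [Finite G] (p : ℕ) [Fact p.Prime] (M : Ideal Cfsg.AlgInt) (hM : Cfsg.IsPModular p M) (π : Set ℕ) (hpπ : p ∈ π) (B : Set (Cfsg.IrrCharacter G)) (hB : Cfsg.IsPBlock M B) (D : Subgroup G) (hBD : Cfsg.IsDefectGroup p M B D) (B₁ : Set (Cfsg.IrrCharacter ↥(Subgroup.normalizer (D : Set G)))) (hB₁ : Cfsg.IsInducedBlock M (Subgroup.normalizer (D : Set G)) B₁ B) (hB₁D : Cfsg.IsDefectGroup p M B₁ (D.subgroupOf (Subgroup.normalizer (D : Set G)))) (hker : ∀ n : ↥(Subgroup.normalizer (D : Set G)), n ∈ Cfsg.piCore {q | q ∉ π} ↥(Subgroup.normalizer (D : Set G)) → n ∈ Cfsg.blockKer B₁) (y : G) (hy : ∃ k : ℕ, orderOf y = p ^ k) (hC : ∀ x : ↥(Subgroup.centralizer ({y} : Set G)), (∀ q : ℕ, q.Prime → q ∣ orderOf x → q ∉ π) → x ∈ Cfsg.piCore {q | q ∉ π} ↥(Subgroup.centralizer ({y} : Set G))) : ∀ χ ∈ B, ∀ x : G, x ∈ Subgroup.centralizer ({y} : Set G) → (∀ q : ℕ, q.Prime → q ∣ orderOf x → q ∉ π) → (χ : G → ℂ) (y * x) = (χ : G → ℂ) y := by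
  classical
  have hρ : p ∉ {q | q ∉ π} := fun h => h hpπ
  intro χ hχ x hx hxπ
  have hs : ¬ p ∣ orderOf (⟨x, hx⟩ : Subgroup.centralizer ({y} : Set G)) := by
    rw [Subgroup.orderOf_mk]; exact fun h => hxπ p Fact.out h hpπ
  have h1 := irr_apply_mul_eq_sum_blocks hM rfl hy hB hχ hs
  have h2 := irr_apply_mul_eq_sum_blocks hM (C := Subgroup.centralizer ({y} : Set G)) rfl hy hB hχ
    (s := 1) not_dvd_orderOf_one
  simp only [OneMemClass.coe_one, mul_one] at h2
  refine h1.trans (Eq.trans ?_ h2.symm)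
  refine Finset.sum_congr rfl fun b _ => ?_
  split_ifs with hb
  swap
  · rfl
  have hQ : IsPGroup p (Subgroup.zpowers y) := IsPElt.isPGroup_zpowers hy
  have hCC := centralizer_zpowers_eq' y
  have h3 := (isInducedBlock_iff_br hM hQ
    (by rw [← hCC]; exact Subgroup.le_centralizer _) hCC.le
    (by rw [← hCC]; exact Subgroup.centralizer_le_normalizer _) b.2 hB).1 hb
  have h4 := piKer_of_corr hM hρ hBD hB₁ hB₁D hker
    (bp_top_iff.2 ⟨hQ, by rw [hCC]; exact bIdem_sidem hM b.2⟩) h3
  have hK := isPiNat_card_map_piCore (π := {q | q ∉ π}) (Subgroup.centralizer ({y} : Set G))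
  have hKN := Subgroup.le_normalizer.trans (normalizer_le_normalizer_map_piCore (π := {q | q ∉ π})
    (Subgroup.centralizer ({y} : Set G)))
  have h5 := (avgF_mul_sidem_iff hM (Subgroup.map_subtype_le _) hKN (not_dvd_of_isPiNat hρ hK)
    b.2).1 (h4 _ (by rw [hCC]; exact Subgroup.map_subtype_le _) (by rw [hCC]; exact hKN) hK)
  have h6 := blockPart_apply_mul_of_mem_ker (B := b.1) (n := ⟨x, hx⟩)
    (fun ξ hξ => (irr_mem_ker_iff ξ).2 (h5 ξ hξ _ ⟨_, hC ⟨x, hx⟩ (by
      simpa only [Subgroup.orderOf_mk] using hxπ), rfl⟩))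
    (shift (Subgroup.centralizer ({y} : Set G)) y χ.1) 1
  rwa [one_mul] at h6

end Cfsg.Agent.S4727
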