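import Cfsg.Statements.S4728
import Cfsg.Agent.Lib.Block.KerPairs

set_option autoImplicit false
open Cfsg

namespace Cfsg.Agent.S4728

open CT BT GT
open scoped ComplexConjugate


/-- Let p be a prime, π a set of primes containing p, M a maximal ideal of the algebraic integers containing p, B a p-block of the finite group G with defect group D, and B₁ the block of N_G(D) with defect group D inducing B. Let D₀ be a p-subgroup, H₀ = D₀·C_G(D₀), and b a block of H₀ inducing B. Write O_π'(X) for the largest normal subgroup of X whose order has no prime divisor in π. Suppose that O_π'(C_G(D₀)) is a normal Hall π'-subgroup of C_G(D₀) (it contains every element of C_G(D₀) whose order has no prime divisor in π) and that every element of it lies in the kernel of every member of b. Then every element of O_π'(N_G(D)) lies in the kernel of every member of B₁. -/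
theorem result {G : Type*} [Group G] [Finite G] (p : ℕ) [Fact p.Prime] (M : Ideal Cfsg.AlgInt) (hM : Cfsg.IsPModular p M) (π : Set ℕ) (hpπ : p ∈ π) (B : Set (Cfsg.IrrCharacter G)) (hB : Cfsg.IsPBlock M B) (D : Subgroup G) (hBD : Cfsg.IsDefectGroup p M B D) (B₁ : Set (Cfsg.IrrCharacter ↥(Subgroup.normalizer (D : Set G)))) (hB₁ : Cfsg.IsInducedBlock M (Subgroup.normalizer (D : Set G)) B₁ B) (hB₁D : Cfsg.IsDefectGroup p M B₁ (D.subgroupOf (Subgroup.normalizer (D : Set G)))) (D₀ : Subgroup G) (hD₀ : IsPGroup p D₀) (H₀ : Subgroup G) (hH₀ : H₀ = D₀ ⊔ Subgroup.centralizer (D₀ : Set G)) (b : Set (Cfsg.IrrCharacter ↥H₀)) (hb : Cfsg.IsInducedBlock M H₀ b B) (hcompl : ∀ x : ↥(Subgroup.centralizer (D₀ : Set G)), (∀ q : ℕ, q.Prime → q ∣ orderOf x → q ∉ π) → x ∈ Cfsg.piCore {q | q ∉ π} ↥(Subgroup.centralizer (D₀ : Set G))) (hkerb : ∀ x : ↥(Subgroup.centralizer (D₀ : Set G)), x ∈ Cfsg.piCore {q | q ∉ π} ↥(Subgroup.centralizer (D₀ : Set G)) → ∀ θ ∈ b,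 ∀ h : ↥H₀, (h : G) = (x : G) → (θ : ↥H₀ → ℂ) h = (θ : ↥H₀ → ℂ) 1) : ∀ n : ↥(Subgroup.normalizer (D : Set G)), n ∈ Cfsg.piCore {q | q ∉ π} ↥(Subgroup.normalizer (D : Set G)) → n ∈ Cfsg.blockKer B₁ := by
  have hρ : p ∉ {q | q ∉ π} := fun h => h hpπ
  have h1 : D₀ ≤ H₀ := hH₀ ▸ le_sup_left
  have h2 : Subgroup.centralizer (D₀ : Set G) ≤ H₀ := hH₀ ▸ le_sup_right
  have h3 : H₀ ≤ Subgroup.normalizer (D₀ : Set G) :=
    hH₀ ▸ sup_le Subgroup.le_normalizer (Subgroup.centralizer_le_normalizer _)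
  have hbi := bIdem_sidem hM hb.1
  have h4 := hbi.br_eq_self hM h1 h3 hD₀
  have h5 := (isInducedBlock_iff_br hM hD₀ h1 h2 h3 hb.1 hB).1 hb
  obtain ⟨f, hf, hbf⟩ := exists_bp_of_br_ne_zero hM (K := ⊤) hD₀ (fun x _ => mem_normalizer_top x)
    hbi.idem (fun _ _ => trivial) (hbi.fixed.mono h1) (hbi.fixed.mono (inf_le_right.trans h2))
    (by rw [h4]; exact hbi.ne_zero)
  rw [h4] at hbf
  refine ker_corr_of_hallKer hM hρ hBD hB₁ hB₁D hf (by rw [← hbf, ← mul_assoc, h5]) ?_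
  have hK := isPiNat_card_map_piCore (π := {q | q ∉ π}) (Subgroup.centralizer (D₀ : Set G))
  refine ⟨(piCore {q | q ∉ π} (Subgroup.centralizer (D₀ : Set G))).map
    (Subgroup.centralizer (D₀ : Set G)).subtype, fun x => ⟨fun hx =>
      ⟨Subgroup.map_subtype_le _ hx, isPiNat_card_subgroup_iff.1 hK x hx⟩, fun hx =>
      ⟨⟨x, hx.1⟩, hcompl _ (by rw [Subgroup.orderOf_mk]; exact hx.2), rfl⟩⟩, ?_⟩
  have h6 := (avgF_mul_sidem_iff hM ((Subgroup.map_subtype_le _).trans h2)
    (h3.trans ((normalizer_le_normalizer_centralizer D₀).trans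
      (normalizer_le_normalizer_map_piCore _))) (not_dvd_of_isPiNat hρ hK) hb.1).2
    (fun ξ hξ h hh => by
      obtain ⟨y, hy, hyh⟩ := hh
      exact hkerb y hy ξ hξ h hyh.symm)
  rw [← hbf, ← mul_assoc, h6]

end Cfsg.Agent.S4728
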