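import Cfsg.Statements.S4729
import Cfsg.Agent.Lib.Block.HZCount
import Cfsg.Agent.Lib.Char.Det
-- import your own Cfsg.Agent.* helpers here

set_option autoImplicit false
open Cfsg

namespace Cfsg.Agent.S4729

open BT CT GT
open scoped Pointwise ComplexConjugate commutatorElement

theorem sub_mem_of_principal {G : Type*} [Group G] [Finite G] {p : ℕ} [Fact p.Prime]
    {M : Ideal AlgInt} (hM : IsPModular p M) (P : Sylow p G) {χ : IrrCharacter G}
    (hχ : χ ∈ principalBlock M G) {g : G}
    (hg : g ∈ Subgroup.centralizer ((P : Subgroup G) : Set G)) :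
    χ.1 g - χ.1 1 ∈ locIdeal hM := by
  have h1 : centralChar (fun _ : G => (1 : ℂ)) g - centralChar χ.1 g ∈ locIdeal hM := hχ g
  set c := (Subgroup.centralizer ({g} : Set G)).index with hc
  have hle : (P : Subgroup G) ≤ Subgroup.centralizer ({g} : Set G) := by
    intro x hx
    rw [Subgroup.mem_centralizer_singleton_iff]
    exact (hg x hx)
  have hpc : ¬ p ∣ c := fun h => P.not_dvd_index (h.trans (Subgroup.index_dvd_of_le hle))
  have hc0 : (c : ℂ) ≠ 0 := by
    rw [Nat.cast_ne_zero]; rintro h; exact hpc (h ▸ dvd_zero p)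
  have h10 : χ.1 1 ≠ 0 := irr_apply_one_ne_zero χ
  have h2 := mul_mem_locIdeal_left hM (mul_mem (inv_natCast_mem_locRing hM hpc)
    (mem_locRing_of_isIntegral hM (irr_isIntegral χ 1))) (neg_mem h1)
  convert h2 using 1
  simp only [centralChar, ← hc]
  field_simp
  ring

/-- Let p be a prime, M a maximal ideal of the algebraic integers containing p, G a finite perfect group and P a Sylow p-subgroup. If the principal p-block of G contains a faithful irreducible character of degree less than 2p, then the centralizer of P is a p-group. -/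
theorem result {G : Type*} [Group G] [Finite G] (p : ℕ) [Fact p.Prime] (M : Ideal Cfsg.AlgInt) (hM : Cfsg.IsPModular p M) (hperf : commutator G = ⊤) (P : Sylow p G) (χ : Cfsg.IrrCharacter G) (hχ : χ ∈ Cfsg.principalBlock M G) (hfaith : ∀ g : G, (χ : G → ℂ) g = (χ : G → ℂ) 1 → g = 1) (hdeg : Cfsg.charDegree (χ : G → ℂ) < 2 * p) : IsPGroup p ↥(Subgroup.centralizer ((P : Subgroup G) : Set G)) := by
  classical
  rw [isPGroup_iff_forall_isPElt]
  intro g hg
  rw [← pRegPart_eq_one_iff]
  by_contra hne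
  have hs := pRegPart_mem p hg
  have hsr := isPRegular_pRegPart p g
  generalize pRegPart p g = s at hne hs hsr
  set q := orderOf s with hq
  have hq0 : q ≠ 0 := (orderOf_pos s).ne'
  obtain ⟨ε, h1, h2, h3⟩ := (irr_isCharacter χ).exists_eigenvalues s
  have hdet : detChar χ.1 s = 1 :=
    (mem_ker_detChar_iff _).1 (commutator_le_ker_detChar χ.1 (hperf ▸ Subgroup.mem_top s))
  have geo : ∀ z : ℂ, z ^ q = 1 → z ≠ 1 → ∑ j ∈ Finset.range q, z ^ j = 0 := by
    intro z hz hz1
    rw [geom_sum_eq hz1, hz, sub_self, zero_div]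
  have key : ∀ i₀, ε i₀ ≠ 1 → p ∣ (Finset.univ.filter fun i => ε i = ε i₀).card := by
    intro i₀ hi₀
    have h0 : ε i₀ ≠ 0 := ne_zero_of_pow_eq_one' hq0 (h1 i₀)
    have hinv : (ε i₀)⁻¹ ^ q = 1 := by rw [inv_pow, h1, inv_one]
    have e1 : ∑ j ∈ Finset.range q, χ.1 (s ^ j) * (ε i₀)⁻¹ ^ j =
        (((Finset.univ.filter fun i => ε i = ε i₀).card * q : ℕ) : ℂ) := by
      simp only [h2, Finset.sum_mul, ← mul_pow]
      rw [Finset.sum_comm, ← Finset.sum_filter_add_sum_filter_not Finset.univ
        (fun i => ε i = ε i₀), Finset.sum_eq_zero (s := Finset.univ.filter fun i => ¬ ε i = ε i₀),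
        add_zero, Finset.sum_congr rfl (g := fun _ => (q : ℂ))]
      · simp
      · intro i hi
        rw [(Finset.mem_filter.1 hi).2, mul_inv_cancel₀ h0]; simp
      · intro i hi
        refine geo _ (by rw [mul_pow, h1, hinv, one_mul]) fun h => (Finset.mem_filter.1 hi).2 ?_
        exact (mul_inv_eq_one₀ h0).1 h
    have e2 : ∑ j ∈ Finset.range q, χ.1 1 * (ε i₀)⁻¹ ^ j = 0 := by
      rw [← Finset.mul_sum, geo _ hinv (fun h => hi₀ (inv_eq_one.1 h)), mul_zero]
    have e3 : ∑ j ∈ Finset.range q, (χ.1 (s ^ j) - χ.1 1) * (ε i₀)⁻¹ ^ j ∈ locIdeal hM :=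
      sum_mem fun j _ => mul_mem_locIdeal_right hM
        (sub_mem_of_principal hM P hχ (pow_mem hs j))
        (pow_mem (mem_locRing_of_isIntegral hM (BT.isIntegral_of_pow_eq_one hq0 hinv)) j)
    simp only [sub_mul, Finset.sum_sub_distrib] at e3
    rw [e1, e2, sub_zero, natCast_mem_locIdeal_iff] at e3
    exact (hM.1.dvd_mul.1 e3).resolve_right hsr
  have hex : ∃ i₀, ε i₀ ≠ 1 := by
    by_contra hall
    push Not at hall
    apply hne
    apply hfaith
    have := h2 1
    rw [pow_one] at this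
    rw [this, irr_apply_one]
    simp [hall]
  obtain ⟨i₀, hi₀⟩ := hex
  have hge : ∀ i, ε i ≠ 1 → p ≤ (Finset.univ.filter fun j => ε j = ε i).card := fun i hi =>
    Nat.le_of_dvd (Finset.card_pos.2 ⟨i, by simp⟩) (key i hi)
  have hall : ∀ i, ε i ≠ ε i₀ → ε i = 1 := by
    intro i hi
    by_contra hi1
    have hd : Disjoint (Finset.univ.filter fun j => ε j = ε i)
        (Finset.univ.filter fun j => ε j = ε i₀) := by
      rw [Finset.disjoint_filter]
      intro j _ hj hj'
      exact hi (hj.symm.trans hj')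
    have := Finset.card_le_univ ((Finset.univ.filter fun j => ε j = ε i).disjUnion _ hd)
    rw [Finset.card_disjUnion, Fintype.card_fin] at this
    have a1 := hge i hi1
    have a2 := hge i₀ hi₀
    omega
  have hcard : (Finset.univ.filter fun j => ε j = ε i₀).card = p := by
    obtain ⟨c, hc⟩ := key i₀ hi₀
    have a1 := hge i₀ hi₀
    have a2 := Finset.card_le_univ (Finset.univ.filter fun j => ε j = ε i₀)
    rw [Fintype.card_fin] at a2
    have hp := hM.1.pos
    rw [hc] at a1 a2 ⊢
    have : c = 1 := by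
      rcases c with _ | _ | c
      · omega
      · rfl
      · nlinarith
    rw [this, mul_one]
  rw [h3, ← Finset.prod_filter_mul_prod_filter_not Finset.univ (fun j => ε j = ε i₀),
    Finset.prod_eq_one (s := Finset.univ.filter fun j => ¬ ε j = ε i₀)
      (fun i hi => hall i (Finset.mem_filter.1 hi).2), mul_one,
    Finset.prod_congr rfl (g := fun _ => ε i₀) (fun i hi => (Finset.mem_filter.1 hi).2),
    Finset.prod_const, hcard] at hdet
  apply hi₀
  have hcop : Nat.Coprime p q := (Nat.Prime.coprime_iff_not_dvd hM.1).2 hsr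
  exact (pow_eq_one_iff_of_coprime hcop).1 ⟨hdet, h1 i₀⟩

end Cfsg.Agent.S4729
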