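import Cfsg.Statements.S4730
import Cfsg.Agent.Lib.Block.SecondMain
import Cfsg.Agent.Lib.Char.Burnside
import Cfsg.Agent.Lib.Grp.SylowIn
-- import your own Cfsg.Agent.* helpers here

set_option autoImplicit false
open Cfsg

namespace Cfsg.Agent.S4730

open BT CT GT
open scoped Pointwise ComplexConjugate commutatorElement

/-- Let p be a prime, M a maximal ideal of the algebraic integers containing p, and G a finite group with trivial centre, Sylow p-subgroup P of order p^a and centre Z(P) of order p^b. If χ is a faithful irreducible character of G whose degree is a power of p, then the p-block of χ has defect at most a − b; in particular, if P is abelian then χ lies in a block of defect zero. -/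
theorem result {G : Type*} [Group G] [Finite G] (p : ℕ) [Fact p.Prime] (M : Ideal Cfsg.AlgInt) (hM : Cfsg.IsPModular p M) (hZ : Subgroup.center G = ⊥) (P : Sylow p G) (a b : ℕ) (ha : Nat.card P = p ^ a) (hb : Nat.card (Subgroup.center ↥(P : Subgroup G)) = p ^ b) (χ : Cfsg.IrrCharacter G) (hfaith : ∀ g : G, (χ : G → ℂ) g = (χ : G → ℂ) 1 → g = 1) (n : ℕ) (hdeg : Cfsg.charDegree (χ : G → ℂ) = p ^ n) : Cfsg.blockDefect p (Cfsg.blockOf M (χ : G → ℂ)) ≤ a - b ∧ (IsMulCommutative ↥(P : Subgroup G) → Cfsg.blockDefect p (Cfsg.blockOf M (χ : G → ℂ)) = 0) := by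
  classical
  have hp : p.Prime := Fact.out
  let Z : Subgroup G := (Subgroup.center (P : Subgroup G)).map (P : Subgroup G).subtype
  have hZc : Nat.card Z = p ^ b := by
    rw [← hb]; exact Subgroup.card_map_of_injective (Subgroup.subtype_injective _)
  have hidx : ∀ z ∈ Z, ¬ p ∣ (Subgroup.centralizer ({z} : Set G)).index := by
    rintro _ ⟨z, hz, rfl⟩
    refine not_dvd_index_of_sylow_le P fun x hx => ?_
    rw [Subgroup.mem_centralizer_singleton_iff]
    exact congrArg Subtype.val (Subgroup.mem_center_iff.1 hz ⟨x, hx⟩)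
  have hχ0 : ∀ z ∈ Z, z ≠ 1 → χ.1 z = 0 := by
    intro z hz h1
    refine (irr_eq_zero_or_mem_center_of_coprime χ (g := z) ?_).resolve_right fun hc => h1 ?_
    · rw [hdeg]
      exact Nat.Coprime.pow_right _ ((hp.coprime_iff_not_dvd.2 (hidx z hz)).symm)
    · have : z ∈ Subgroup.center G := by
        rw [Subgroup.mem_center_iff]
        intro y
        have h2 := commutatorElement_mem_ker_of_mem_center (irr_isClassFunction χ) hc y
        exact commutatorElement_eq_one_iff_mul_comm.1 (hfaith _ (ker_apply_eq h2))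
      rwa [hZ, Subgroup.mem_bot] at this
  have key : ∀ ψ ∈ blockOf M χ.1, b ≤ (charDegree ψ.1).factorization p := by
    intro ψ hψ
    have h1 : ∀ z ∈ Z, z ≠ 1 → ψ.1 z / ψ.1 1 ∈ locIdeal hM := by
      intro z hz hz1
      have h2 : centralChar χ.1 z - centralChar ψ.1 z ∈ locIdeal hM := hψ z
      have h3 : centralChar χ.1 z = 0 := by simp [centralChar, hχ0 z hz hz1]
      rw [h3, zero_sub, neg_mem_iff] at h2
      have h4 := mul_mem_locIdeal_left hM (inv_natCast_mem_locRing hM (hidx z hz)) h2
      have h5 : ((Subgroup.centralizer ({z} : Set G)).index : ℂ) ≠ 0 :=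
        Nat.cast_ne_zero.2 (index_pos _).ne'
      unfold centralChar at h4
      rwa [mul_div_assoc, inv_mul_cancel_left₀ h5] at h4
    have := Fintype.ofFinite Z
    obtain ⟨m, hm⟩ := ((irr_isCharacter ψ).res Z).exists_nat_ip isCharacter_one
    rw [ip_def, inv_mul_eq_iff_eq_mul₀ card_cast_ne_zero] at hm
    simp only [res_apply, map_one, mul_one] at hm
    have h2 : ((p ^ b * m : ℕ) : ℂ) / (charDegree ψ.1 : ℂ) - 1 ∈ locIdeal hM := by
      rw [Nat.cast_mul, ← hZc, ← hm, ← irr_apply_one, Finset.sum_div,
        ← Finset.add_sum_erase _ _ (Finset.mem_univ (1 : Z))]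
      simp only [OneMemClass.coe_one, div_self (irr_apply_one_ne_zero ψ), add_sub_cancel_left]
      exact sum_mem fun z hz => h1 z z.2 fun h => (Finset.mem_erase.1 hz).1 (Subtype.ext h)
    have h3 : ((p ^ b * m : ℕ) : ℂ) / (charDegree ψ.1 : ℂ) ∉ locIdeal hM := fun h =>
      one_not_mem_locIdeal hM (by simpa using sub_mem h h2)
    have hm0 : m ≠ 0 := by
      rintro rfl
      exact h3 (by simp)
    rw [natCast_div_mem_locIdeal_iff hM (mul_ne_zero (pow_ne_zero _ hp.ne_zero) hm0)
      (irr_degree_pos ψ).ne', Nat.factorization_mul (pow_ne_zero _ hp.ne_zero) hm0] at h3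
    simp only [Finsupp.add_apply, hp.factorization_pow, Finsupp.single_eq_same] at h3
    omega
  have ha' : (Nat.card G).factorization p = a := by
    have := (isSylowIn_sylow P).card_eq
    rw [ha, Subgroup.card_top] at this
    exact (Nat.pow_right_injective hp.two_le this).symm
  have main : blockDefect p (blockOf M χ.1) ≤ a - b := by
    obtain ⟨ψ, hψ, h0⟩ := exists_height_zero hM (isPBlock_blockOf (M := M) χ)
    have h1 := factorization_degree_add_defect (p := p) hψ
    have h2 := key ψ hψ
    omega
  refine ⟨main, fun hab => ?_⟩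
  have : Subgroup.center (P : Subgroup G) = ⊤ := by
    rw [eq_top_iff]; intro x _
    exact Subgroup.mem_center_iff.2 fun y => hab.is_comm.comm _ _
  rw [this, Subgroup.card_top, ha] at hb
  have := Nat.pow_right_injective hp.two_le hb
  omega

end Cfsg.Agent.S4730
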