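import Cfsg.Statements.S4732
import Cfsg.Agent.Lib.Lin.ModLift
import Cfsg.Agent.Lib.Lin.GenericP
import Cfsg.Agent.Lib.Lin.HallPi

set_option autoImplicit false
universe u v
open Cfsg

namespace Cfsg.Agent.S4732

open CT BT
open scoped MonoidAlgebra ComplexConjugate

/-- Let p be a prime. There is a function f of two natural-number arguments such that every finite group G admitting a faithful representation of degree n over a field of characteristic p, with Sylow p-subgroups of order p^m, has a normal abelian subgroup A with [G : A] < f(m, n). -/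
theorem result (p : ℕ) [Fact p.Prime] : ∃ f : ℕ → ℕ → ℕ, ∀ (G : Type u) [Group G] [Finite G] (F : Type v) [Field F] [CharP F p] (n : ℕ) (ρ : Representation F G (Fin n → F)), Function.Injective ρ → ∀ m : ℕ, (Nat.card G).factorization p = m → ∃ A : Subgroup G, A.Normal ∧ IsMulCommutative A ∧ A.index < f m n := by
  choose N hN using LG.exists_index_le_not_dvd_card.{u, v} p
  let J : ℕ → ℕ := fun d => d.factorial * 12 ^ (d * (Nat.primeCounting (d + 1) + 1))
  refine ⟨fun m n => ((∑ d ∈ Finset.range (n * n + 1), J d) * N m n).factorial + 1,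
    fun G _ _ F _ _ n ρ hρ m hm => ?_⟩
  obtain ⟨H, h1, h2⟩ := hN m n G F ρ hρ hm.le
  obtain ⟨χ, hχ, hk, hd⟩ := exists_faithful_of_rep h2 (ρ.comp H.subtype)
    (hρ.comp H.subtype_injective)
  obtain ⟨A, -, hA, h3⟩ := LG.jordan_bound hχ hk
  have h4 : (A.map H.subtype).index ≤ (∑ d ∈ Finset.range (n * n + 1), J d) * N m n := by
    rw [Subgroup.index_map_subtype]
    exact Nat.mul_le_mul (h3.trans (Finset.single_le_sum (f := J) (fun _ _ => Nat.zero_le _)
      (Finset.mem_range.2 (Nat.lt_succ_of_le hd)))) h1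
  refine ⟨(A.map H.subtype).normalCore, inferInstance, ⟨⟨fun a b => Subtype.ext ?_⟩⟩,
    Nat.lt_succ_of_le ?_⟩
  · obtain ⟨x, hx, hxa⟩ := (A.map H.subtype).normalCore_le a.2
    obtain ⟨y, hy, hyb⟩ := (A.map H.subtype).normalCore_le b.2
    rw [Subgroup.coe_mul, Subgroup.coe_mul, ← hxa, ← hyb, ← map_mul, hA x hx y hy, map_mul]
  · refine le_trans ?_ (Nat.factorial_le h4)
    classical
    have := Fintype.ofFinite (G ⧸ A.map H.subtype)
    rw [Subgroup.normalCore_eq_ker, Subgroup.index_ker, Subgroup.index_eq_card,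
      Nat.card_eq_fintype_card (α := G ⧸ _), ← Fintype.card_perm, ← Nat.card_eq_fintype_card]
    exact Subgroup.card_le_card_group _

end Cfsg.Agent.S4732
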