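import Cfsg.Statements.S4733
import Cfsg.Agent.Lib.Block.CentralDef

set_option autoImplicit false
open Cfsg

namespace Cfsg.Agent.S4733

open CT BT
open scoped MonoidAlgebra ComplexConjugate

/-- Let p be a prime, M a maximal ideal of the algebraic integers containing p, and B a p-block of the finite group G with k irreducible characters and p-regular rank l (the number of irreducible Brauer characters). Then l ≤ k, and the following are equivalent: B has defect 0; k = l = 1; k = l. -/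
theorem result {G : Type*} [Group G] [Finite G] (p : ℕ) [Fact p.Prime] (M : Ideal Cfsg.AlgInt) (hM : Cfsg.IsPModular p M) (B : Set (Cfsg.IrrCharacter G)) (hB : Cfsg.IsPBlock M B) : Cfsg.blockRank p B ≤ Nat.card B ∧ (Cfsg.blockDefect p B = 0 ↔ (Nat.card B = 1 ∧ Cfsg.blockRank p B = 1)) ∧ (Cfsg.blockDefect p B = 0 ↔ Nat.card B = Cfsg.blockRank p B) := by
  classical
  obtain ⟨χ, hχ, h0⟩ := exists_height_zero hM hB
  have h1 := blockRank_le_card (p := p) B
  have h2 := blockRank_pos (p := p) ⟨χ, hχ⟩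
  have h3 : blockDefect p B = 0 ↔ Nat.card B = 1 := by
    rw [← block_eq_singleton_iff hM hB hχ]
    refine ⟨fun h => by rw [h]; simp, fun h => ?_⟩
    obtain ⟨ψ, hψ⟩ := Set.ncard_eq_one.1 h
    rw [hψ] at hχ ⊢
    rw [hχ]
  refine ⟨h1, by rw [h3]; omega, ⟨fun h => by rw [h3] at h; omega, fun h => ?_⟩⟩
  have h4 := sum_cm_self hM hB
  rw [← h, ← card_bset, mul_comm, ← nsmul_eq_mul, ← Finset.sum_const] at h4
  have h5 := (Finset.sum_eq_sum_iff_of_le fun ψ hψ => cm_self_le hM hB (mem_bset.1 hψ)).1 h4 χ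
    (mem_bset.2 hχ)
  have h6 := sum_erase_cm_sq hM hB hχ
  rw [h5, sub_self, mul_zero, Finset.sum_eq_zero_iff_of_nonneg fun _ _ => sq_nonneg _] at h6
  rw [← block_eq_singleton_iff hM hB hχ]
  refine Set.eq_singleton_iff_unique_mem.2 ⟨hχ, fun ψ hψ => by_contra fun hne => ?_⟩
  exact cm_ne_zero hM hB hχ hψ h0
    (pow_eq_zero_iff two_ne_zero |>.1 (h6 ψ (Finset.mem_erase.2 ⟨hne, mem_bset.2 hψ⟩)))

end Cfsg.Agent.S4733
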