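import Cfsg.Statements.S4734
import Cfsg.Agent.Lib.Block.KerPairs

set_option autoImplicit false
open Cfsg

namespace Cfsg.Agent.S4734

open CT BT GT
open scoped ComplexConjugate


/-- Let p be a prime, π a set of primes containing p, M a maximal ideal of the algebraic integers containing p, B a p-block of the finite group G with defect group D, and B₁ the block of N_G(D) with defect group D inducing B. Write O_π'(X) for the largest normal subgroup of X whose order has no prime divisor in π, and suppose every element of O_π'(N_G(D)) lies in the kernel of every member of B₁. Let G₀ be a subgroup and B₀ a block of G₀ with defect group D₀ such that C_G(D₀) ≤ G₀ and B₀ induces B. Then every element of O_π'(G₀) lies in the kernel of every member of B₀. -/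
theorem result {G : Type*} [Group G] [Finite G] (p : ℕ) [Fact p.Prime] (M : Ideal Cfsg.AlgInt) (hM : Cfsg.IsPModular p M) (π : Set ℕ) (hpπ : p ∈ π) (B : Set (Cfsg.IrrCharacter G)) (hB : Cfsg.IsPBlock M B) (D : Subgroup G) (hBD : Cfsg.IsDefectGroup p M B D) (B₁ : Set (Cfsg.IrrCharacter ↥(Subgroup.normalizer (D : Set G)))) (hB₁ : Cfsg.IsInducedBlock M (Subgroup.normalizer (D : Set G)) B₁ B) (hB₁D : Cfsg.IsDefectGroup p M B₁ (D.subgroupOf (Subgroup.normalizer (D : Set G)))) (hker : ∀ n : ↥(Subgroup.normalizer (D : Set G)), n ∈ Cfsg.piCore {q | q ∉ π} ↥(Subgroup.normalizer (D : Set G)) → n ∈ Cfsg.blockKer B₁) (G₀ : Subgroup G) (B₀ : Set (Cfsg.IrrCharacter ↥G₀)) (hB₀ : Cfsg.IsInducedBlock M G₀ B₀ B) (D₀ : Subgroup ↥G₀) (hD₀ : Cfsg.IsDefectGroup p M B₀ D₀) (hC : Subgroup.centralizer ((D₀.map G₀.subtype : Subgroup G) : Set G) ≤ G₀) : ∀ x : ↥G₀, x ∈ Cfsg.piCore {q | q ∉ π} ↥G₀ → x ∈ Cfsg.blockKer B₀ := by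
  have hρ : p ∉ {q | q ∉ π} := fun h => h hpπ
  have hb := bIdem_sidem hM hB₀.1
  have h1 := (isDefectGroup_iff_defGrp_sub hM hB₀.1 D₀).1 hD₀
  obtain ⟨e, he, hbe⟩ := DefGrp.exists_maxBP hM hb h1
  have h2 := (isInducedBlock_iff_br_mul_br hM h1.pgroup (h1.le.trans Subgroup.le_normalizer) hC
    hB₀.1 (hb.fixed.mono h1.le) h1.br_ne hB).1 hB₀
  have h3 : BP p ⊤ (D₀.map G₀.subtype) e := by
    refine bp_top_iff.2 ⟨h1.pgroup, ?_⟩
    have := he.bp.bidem
    rwa [inf_eq_right.2 hC] at this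
  have h4 := piKer_of_corr hM hρ hBD hB₁ hB₁D hker h3 (by rw [← hbe, ← mul_assoc, h2])
  have hK := isPiNat_card_map_piCore (π := {q | q ∉ π}) G₀
  have hKN : G₀ ≤ Subgroup.normalizer
      (((piCore {q | q ∉ π} G₀).map G₀.subtype : Subgroup G) : Set G) :=
    Subgroup.le_normalizer.trans (normalizer_le_normalizer_map_piCore G₀)
  have h5 := (((he.bp.ple_bot hM he.le hb).2 hbe).br_block_iff
    (cIdem_avgF (p := p) (Subgroup.map_subtype_le _) hKN (not_dvd_of_isPiNat hρ hK)) he.le).2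
    (h4.br_avgF_mul h1.pgroup (h1.le.trans hKN) (hC.trans hKN) hK)
  rw [br_bot] at h5
  intro x hx ξ hξ
  exact (avgF_mul_sidem_iff hM (Subgroup.map_subtype_le _) hKN (not_dvd_of_isPiNat hρ hK)
    hB₀.1).1 h5 ξ hξ x ⟨x, hx, rfl⟩

end Cfsg.Agent.S4734
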