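import Cfsg.Statements.S4735
import Cfsg.Agent.Lib.Block.BlockQuot
import Cfsg.Agent.Lib.Block.GalBlock
-- import your own Cfsg.Agent.* helpers here

set_option autoImplicit false
open Cfsg

namespace Cfsg.Agent.S4735

open BT CT GT
open scoped Pointwise ComplexConjugate

/-- Let p be a prime, M a maximal ideal of the algebraic integers containing p, G a finite group, H = O_p'(G) and Ḡ = G/H. For x ∈ G write λ(G, x) for the sum of |χ(x)|^2 over the irreducible characters χ in the principal p-block of G. Then λ(G, x) is a positive integer, λ(G, x) = λ(Ḡ, x̄) where x̄ is the image of x, and λ(G, x) ≤ #C_Ḡ(x̄). Moreover λ(G, 1) = [G : H] if and only if the principal block is the only p-block of Ḡ. -/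
theorem result {G : Type*} [Group G] [Finite G] (p : ℕ) [Fact p.Prime] (M : Ideal Cfsg.AlgInt) (hM : Cfsg.IsPModular p M) (x : G) : (∃ n : ℕ, 0 < n ∧ ∑ᶠ χ ∈ Cfsg.principalBlock M G, Complex.normSq ((χ : G → ℂ) x) = n) ∧ ∑ᶠ χ ∈ Cfsg.principalBlock M G, Complex.normSq ((χ : G → ℂ) x) = ∑ᶠ ψ ∈ Cfsg.principalBlock M (G ⧸ Cfsg.pPrimeCore p G), Complex.normSq ((ψ : G ⧸ Cfsg.pPrimeCore p G → ℂ) (QuotientGroup.mk x)) ∧ ∑ᶠ χ ∈ Cfsg.principalBlock M G, Complex.normSq ((χ : G → ℂ) x) ≤ (Nat.card ↥(Subgroup.centralizer ({(QuotientGroup.mk x : G ⧸ Cfsg.pPrimeCore p G)} : Set (G ⧸ Cfsg.pPrimeCore p G))) : ℝ) ∧ ((∑ᶠ χ ∈ Cfsg.principalBlock M G, Cfsg.charDegree (χ : G → ℂ) ^ 2) = (Cfsg.pPrimeCore p G).index ↔ ∀ B : Set (Cfsg.IrrCharacter (G ⧸ Cfsg.pPrimeCore p G)), Cfsg.IsPBlock M B → B = Cfsg.principalBlock M (G ⧸ Cfsg.pPrimeCore p G)) := by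
  classical
  set K := pPrimeCore p G with hK
  have hf := QuotientGroup.mk'_surjective K
  have hk : ¬ p ∣ Nat.card (QuotientGroup.mk' K).ker := by
    rw [QuotientGroup.ker_mk']; exact not_dvd_card_pPrimeCore p G
  have himg := image_irrComp_principal_of_not_dvd hM hf hk
  have hsum : ∀ {A : Type} [AddCommMonoid A] (F : IrrCharacter G → A),
      ∑ᶠ χ ∈ principalBlock M G, F χ =
        ∑ ψ ∈ bset (principalBlock M (G ⧸ K)), F (irrComp _ hf ψ) := by
    intro A _ F
    rw [← himg, finsum_mem_image (irrComp_injective _ hf).injOn, finsum_mem_eq_sum_bset]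
  have h2 : ∑ᶠ χ ∈ principalBlock M G, Complex.normSq ((χ : G → ℂ) x) =
      ∑ ψ ∈ bset (principalBlock M (G ⧸ K)), Complex.normSq (ψ.1 (QuotientGroup.mk x)) :=
    hsum _
  refine ⟨?_, ?_, ?_, ?_⟩
  · rw [finsum_mem_eq_sum_bset]
    let θ : G → ℂ := ∑ χ ∈ bset (principalBlock M G), χ.1 * cbar χ.1
    have hθ : IsGeneralizedCharacter G θ :=
      (isCharacter_sum _ _ fun χ _ => (irr_isCharacter χ).mul (irr_isCharacter χ).cbar).isGen
    have hθx : ∀ y, θ y = ∑ χ ∈ bset (principalBlock M G), χ.1 y * conj (χ.1 y) := fun y => by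
      simp [θ, Finset.sum_apply]
    obtain ⟨n, hn⟩ := (hθ.exists_int_iff x).2 fun k hk => by
      obtain ⟨σ, hσ⟩ := exists_ringEquiv_apply_pow x hk
      rw [hθx, hθx]
      refine Finset.sum_bijective (irrGal (σ : ℂ →+* ℂ)) (irrGal_bijective _)
        (fun χ => ?_) (fun χ _ => ?_)
      · rw [mem_bset, mem_bset, irrGal_mem_principal_iff hM]
      · rw [← hσ _ (irr_isCharacter χ).isGen]; rfl
    have hre : ∑ χ ∈ bset (principalBlock M G), Complex.normSq (χ.1 x) = (n : ℝ) := by
      have : ((∑ χ ∈ bset (principalBlock M G), Complex.normSq (χ.1 x) : ℝ) : ℂ) = (n : ℝ) := by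
        rw [Complex.ofReal_intCast, ← hn, hθx, Complex.ofReal_sum]
        exact Finset.sum_congr rfl fun χ _ => (Complex.mul_conj _).symm
      exact_mod_cast this
    have hpos : (1 : ℝ) ≤ ∑ χ ∈ bset (principalBlock M G), Complex.normSq (χ.1 x) := by
      refine le_trans ?_ (Finset.single_le_sum (f := fun χ : IrrCharacter G =>
        Complex.normSq (χ.1 x)) (fun _ _ => Complex.normSq_nonneg _)
        (mem_bset.2 (irrOne_mem_principalBlock hM)))
      simp
    rw [hre] at hpos
    have hn1 : 1 ≤ n := by exact_mod_cast hpos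
    refine ⟨n.toNat, by omega, ?_⟩
    rw [hre]
    have : ((n.toNat : ℤ) : ℝ) = n := by rw [Int.toNat_of_nonneg (by omega)]
    exact_mod_cast this.symm
  · rw [h2, finsum_mem_eq_sum_bset]
  · rw [h2]
    refine le_trans (Finset.sum_le_sum_of_subset_of_nonneg (Finset.subset_univ _)
      fun _ _ _ => Complex.normSq_nonneg _) (le_of_eq ?_)
    have h3 := sum_irr_mul_conj (G := G ⧸ K) (QuotientGroup.mk x) (QuotientGroup.mk x)
    rw [if_pos (IsConj.refl _)] at h3
    have : ((∑ ψ : IrrCharacter (G ⧸ K), Complex.normSq (ψ.1 (QuotientGroup.mk x)) : ℝ) : ℂ) =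
        (Nat.card (Subgroup.centralizer ({(QuotientGroup.mk x : G ⧸ K)} : Set (G ⧸ K))) : ℝ) := by
      rw [Complex.ofReal_natCast, ← h3, Complex.ofReal_sum]
      exact Finset.sum_congr rfl fun χ _ => (Complex.mul_conj _).symm
    exact_mod_cast this
  · rw [hsum]
    simp only [charDegree_irrComp]
    have h3 := sum_irr_degree_sq (G := G ⧸ K)
    rw [Subgroup.index, ← h3]
    constructor
    · intro h B hB
      have h4 : bset (principalBlock M (G ⧸ K)) = Finset.univ := by
        by_contra hne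
        refine (Finset.sum_lt_sum_of_subset (Finset.subset_univ _) (Finset.mem_univ
          (Classical.choose (not_forall.1 (mt Finset.eq_univ_of_forall hne))))
          (Classical.choose_spec (not_forall.1 (mt Finset.eq_univ_of_forall hne)))
          (pow_pos (irr_degree_pos _) 2) fun _ _ _ => Nat.zero_le _).ne h
      obtain ⟨ψ, rfl⟩ := hB
      refine block_eq_of_mem hM (isPBlock_blockOf ψ) isPBlock_principalBlock
        (mem_blockOf_self hM ψ) (mem_bset.1 ?_)
      rw [h4]; exact Finset.mem_univ _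
    · intro h
      congr 1
      refine Finset.eq_univ_of_forall fun ψ => mem_bset.2 ?_
      rw [← h _ (isPBlock_blockOf ψ)]
      exact mem_blockOf_self hM ψ

end Cfsg.Agent.S4735
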