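import Cfsg.Statements.S4736
import Cfsg.Agent.Lib.Block.CoverPrin
import Cfsg.Agent.Lib.Block.Fong
import Cfsg.Agent.Lib.Char.Degrees
-- import your own Cfsg.Agent.* helpers here

set_option autoImplicit false
open Cfsg

namespace Cfsg.Agent.S4736

open BT CT GT
open scoped Pointwise ComplexConjugate commutatorElement

/-- Let p be a prime, M a maximal ideal of the algebraic integers containing p, and G a finite p-solvable group with Sylow p-subgroup P. Then P is abelian if and only if every irreducible character in the principal p-block of G has height zero. -/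
theorem result {G : Type*} [Group G] [Finite G] (p : ℕ) [Fact p.Prime] (M : Ideal Cfsg.AlgInt) (hM : Cfsg.IsPModular p M) (hsolv : Cfsg.IsPSolvable p G) (P : Sylow p G) : IsMulCommutative P ↔ ∀ χ ∈ Cfsg.principalBlock M G, Cfsg.blockHeight p (Cfsg.principalBlock M G) (χ : G → ℂ) = 0 := by

  classical
  set K := pPrimeCore p G with hK
  let f := QuotientGroup.mk' K
  have hf : Function.Surjective f := QuotientGroup.mk'_surjective K
  have hPs : IsSylowIn p ((P : Subgroup G).map f) ⊤ := (isSylowIn_sylow P).map_top_of_surjective hf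
  have hsq : IsPSolvable p (G ⧸ K) := isPSolvable_quotient hsolv K
  have h1 : pPrimeCore p (G ⧸ K) = ⊥ := pPrimeCore_quotient_pPrimeCore p G
  have hito := ito_sylow_iff hsq hPs.toSylowTop
  rw [IsSylowIn.coe_toSylowTop] at hito
  have hdisj : Disjoint (P : Subgroup G) K :=
    disjoint_of_isPGroup_of_not_dvd P.isPGroup' (not_dvd_card_pPrimeCore p G)
  have hcomm : IsMulCommutative (P : Subgroup G) ↔ IsMulCommutative ((P : Subgroup G).map f) := by
    constructor
    · intro h; infer_instance
    · intro h
      refine ⟨⟨fun a b => Subtype.ext ?_⟩⟩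
      have h2 : f a * f b = f b * f a := by
        have := h.is_comm.comm ⟨f a, Subgroup.mem_map_of_mem f a.2⟩ ⟨f b, Subgroup.mem_map_of_mem f b.2⟩
        exact congrArg Subtype.val this
      have h3 : (a : G) * b * ((b : G) * a)⁻¹ ∈ K := by
        rw [← QuotientGroup.eq_one_iff]
        change f _ = 1
        rw [map_mul, map_inv, map_mul, map_mul, h2, mul_inv_cancel]
      have h4 : (a : G) * b * ((b : G) * a)⁻¹ ∈ (P : Subgroup G) :=
        mul_mem (mul_mem a.2 b.2) (inv_mem (mul_mem b.2 a.2))
      have h5 := (Subgroup.disjoint_def.1 hdisj) h4 h3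
      exact mul_inv_eq_one.1 h5
  rw [hcomm]
  constructor
  · intro h χ hχ
    rw [blockHeight_principal_eq_zero_iff hM χ hχ]
    obtain ⟨ψ, rfl⟩ := (exists_inflate_eq_iff K χ).2 ((mem_principal_iff_of_isPSolvable hM hsolv χ).1 hχ)
    rw [charDegree_inflate]
    refine hito.1 ⟨?_, h⟩ ψ
    haveI : IsMulCommutative ((hPs.toSylowTop : Sylow p (G ⧸ K)) : Subgroup (G ⧸ K)) := by
      rw [IsSylowIn.coe_toSylowTop]; exact h
    have := sylow_eq_pCore_of_isMulCommutative hsq h1 hPs.toSylowTop
    rw [IsSylowIn.coe_toSylowTop] at this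
    rw [← this]; infer_instance
  · intro h
    refine (hito.2 fun ψ => ?_).2
    have hχ : inflate K ψ ∈ principalBlock M G :=
      (mem_principal_iff_of_isPSolvable hM hsolv _).2 (le_ker_inflate K ψ)
    have := (blockHeight_principal_eq_zero_iff hM _ hχ).1 (h _ hχ)
    rwa [charDegree_inflate] at this

end Cfsg.Agent.S4736
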